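import Mathlib
import Cfsg.Agent.Lib.helper4.OrthFrame

set_option autoImplicit false

/-!
# Stabilisers of decompositions into hyperbolic planes over small fields are not maximal
-/

namespace Cfsg.Agent.Lib.helper19.DecompPlus

open Cfsg.Agent.Lib.helper13 Cfsg.Agent.Lib.helper4

section Basic

variable {F : Type*} [Field F] {ι : Type} [Fintype ι] [DecidableEq ι]

/-- the reflection formula -/
noncomputable def rf (Q : QuadraticForm F (ι → F)) (a x : ι → F) : ι → F :=
  x - ((Q a)⁻¹ * QuadraticMap.polar (⇑Q) a x) • a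

lemma mat_refl (Q : QuadraticForm F (ι → F)) (a : ι → F) (ha : Q a ≠ 0) (x : ι → F) :
    (mat Q (reflEl Q a)).mulVec x = rf Q a x :=
  reflEl_mulVec Q a ha x

lemma mat_refl2 (Q : QuadraticForm F (ι → F)) (a b : ι → F) (ha : Q a ≠ 0) (hb : Q b ≠ 0)
    (x : ι → F) : (mat Q (reflEl Q a * reflEl Q b)).mulVec x = rf Q a (rf Q b x) := by
  rw [mat_mul, ← Matrix.mulVec_mulVec, mat_refl Q b hb, mat_refl Q a ha]

omit [Fintype ι] [DecidableEq ι] in
lemma rf_orth (Q : QuadraticForm F (ι → F)) (a x : ι → F)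
    (h : QuadraticMap.polar (⇑Q) a x = 0) : rf Q a x = x := by
  unfold rf
  rw [h, mul_zero, zero_smul, sub_zero]

omit [Fintype ι] [DecidableEq ι] in
lemma rf_inv (Q : QuadraticForm F (ι → F)) (a x : ι → F) (c : F) (hc : Q a * c = 1) :
    rf Q a x = x - (c * QuadraticMap.polar (⇑Q) a x) • a := by
  unfold rf
  have h0 : Q a ≠ 0 := by
    intro h
    rw [h, zero_mul] at hc
    exact zero_ne_one hc
  have h1 : (Q a)⁻¹ = c := by
    rw [inv_eq_iff_eq_inv]
    exact eq_inv_of_mul_eq_one_left hc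
  rw [h1]

omit [Fintype ι] [DecidableEq ι] in
lemma rf_one (Q : QuadraticForm F (ι → F)) (a x : ι → F) (ha : Q a = 1) :
    rf Q a x = x - (QuadraticMap.polar (⇑Q) a x) • a := by
  rw [rf_inv Q a x 1 (by rw [ha, mul_one]), one_mul]

/-- an element of the decomposition stabiliser maps blocks into blocks -/
lemma stab_maps (Q : QuadraticForm F (ι → F)) {t : ℕ} (D : Fin t → Submodule F (ι → F))
    (g : ↥(Cfsg.isometryGroup F ⇑Q))
    (h : (Cfsg.isometryGroup F ⇑Q).subtype g ∈ Cfsg.Geo.decompositionStabilizer D) :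
    ∃ σ : Equiv.Perm (Fin t), ∀ i, ∀ v ∈ D i, (mat Q g).mulVec v ∈ D (σ i) := by
  obtain ⟨σ, hσ⟩ := h
  refine ⟨σ, fun i v hv => ?_⟩
  have h1 : (mat Q g).mulVec v ∈ imgSub Q g (D i) := (mem_imgSub Q g (D i) _).mpr ⟨v, hv, rfl⟩
  rw [imgSub_eq_map, hσ i] at h1
  exact h1

omit [Fintype ι] [DecidableEq ι] in
lemma block_eq (Q : QuadraticForm F (ι → F)) {t : ℕ} (D : Fin t → Submodule F (ι → F))
    (horth : ∀ i j, i ≠ j → ∀ u ∈ D i, ∀ v ∈ D j, QuadraticMap.polar (⇑Q) u v = 0)
    {i j : Fin t} {x y : ι → F} (hx : x ∈ D j) (hy : y ∈ D i)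
    (h : QuadraticMap.polar (⇑Q) x y ≠ 0) : j = i := by
  by_contra hne
  exact h (horth j i hne x hx y hy)

omit [Fintype ι] [DecidableEq ι] in
lemma Q_pair (Q : QuadraticForm F (ι → F)) (u w : ι → F) (hQu : Q u = 0) (hQw : Q w = 0)
    (huw : QuadraticMap.polar (⇑Q) u w = 1) (x y : F) : Q (x • u + y • w) = x * y := by
  rw [Q_add, QuadraticMap.map_smul, QuadraticMap.map_smul, hQu, hQw,
    QuadraticMap.polar_smul_left, QuadraticMap.polar_smul_right, huw]
  simp only [smul_eq_mul]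
  ring

/-- hyperbolic pairs can be transported along isometries of blocks -/
lemma all_hyp [Fintype F] (Q : QuadraticForm F (ι → F)) {t : ℕ}
    (D : Fin t → Submodule F (ι → F))
    (hD : Cfsg.Geo.IsOrthogonalMDecomposition ⇑Q 2 D)
    (hex : ∃ i, Cfsg.Geo.IsPlusTypeOn ⇑Q (D i)) :
    ∀ j, ∃ u w : ι → F, u ∈ D j ∧ w ∈ D j ∧ Q u = 0 ∧ Q w = 0 ∧
      QuadraticMap.polar (⇑Q) u w = 1 ∧ ∀ v ∈ D j, ∃ x y : F, v = x • u + y • w := by
  obtain ⟨i, hi⟩ := hex
  obtain ⟨u, w, hu, hw, hQu, hQw, huw, hsp⟩ :=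
    plane_basis Q (D i) (hD.decomp.decomp.finrank_eq i) (hD.decomp.nondegenerate i) hi
  intro j
  obtain ⟨φ, hφ⟩ := hD.isometric i j
  have hpol := isom_polar_sub Q (D i) (D j) φ hφ
  refine ⟨(φ ⟨u, hu⟩ : ι → F), (φ ⟨w, hw⟩ : ι → F), (φ ⟨u, hu⟩).2, (φ ⟨w, hw⟩).2,
    by rw [hφ]; exact hQu, by rw [hφ]; exact hQw, by rw [hpol]; exact huw, ?_⟩
  intro v hv
  obtain ⟨x, y, hxy⟩ := hsp (φ.symm ⟨v, hv⟩ : ι → F) (φ.symm ⟨v, hv⟩).2
  refine ⟨x, y, ?_⟩
  have h1 : φ.symm ⟨v, hv⟩ = x • (⟨u, hu⟩ : D i) + y • (⟨w, hw⟩ : D i) := Subtype.ext hxy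
  have h2 : (⟨v, hv⟩ : D j) = x • φ ⟨u, hu⟩ + y • φ ⟨w, hw⟩ := by
    rw [← map_smul, ← map_smul, ← map_add, ← h1, LinearEquiv.apply_symm_apply]
  exact congrArg Subtype.val h2

end Basic

section Cases

variable {F : Type*} [Field F] [Fintype F] {ι : Type} [Fintype ι] [DecidableEq ι]

/-- the frame argument over the field with five elements -/
theorem frame5_not_max (hq : Fintype.card F = 5)
    (hh : Fintype.card F ≠ 2 ∨ Fintype.card ι ≠ 4)
    (Q : QuadraticForm F (ι → F)) (hQ : (QuadraticMap.polarBilin Q).Nondegenerate) {t : ℕ}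
    (D : Fin t → Submodule F (ι → F))
    (horth : ∀ i j, i ≠ j → ∀ u ∈ D i, ∀ v ∈ D j, QuadraticMap.polar (⇑Q) u v = 0)
    (i₀ i₁ : Fin t) (h01 : i₀ ≠ i₁) (e d e' d' : ι → F)
    (he : e ∈ D i₀) (hd : d ∈ D i₀) (he' : e' ∈ D i₁) (hd' : d' ∈ D i₁)
    (hQe : Q e = 1) (hQd : Q d = 1) (hQe' : Q e' = 1) (hQd' : Q d' = 1)
    (hed : QuadraticMap.polar (⇑Q) e d = 0) (hed' : QuadraticMap.polar (⇑Q) e' d' = 0)
    (H0 : ∀ v ∈ D i₀, Q v = 1 → v = e ∨ v = -e ∨ v = d ∨ v = -d)
    (H1 : ∀ v ∈ D i₁, Q v = 1 → v = e' ∨ v = -e' ∨ v = d' ∨ v = -d') :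
    ∃ K : Subgroup (Matrix.GeneralLinearGroup ι F),
      Cfsg.Geo.decompositionStabilizer D ⊓ Cfsg.Geo.omegaGL ⇑Q < K ∧
        K < Cfsg.Geo.omegaGL ⇑Q := by
  have h5 : (5 : F) = 0 := by
    have h := Nat.cast_card_eq_zero F
    rw [hq] at h
    exact_mod_cast h
  have h1ne : (1 : F) ≠ 0 := one_ne_zero
  have h2ne : (2 : F) ≠ 0 := by
    intro h
    apply h1ne
    linear_combination h5 - 2 * h
  have h3ne : (3 : F) ≠ 0 := by
    intro h
    apply h1ne
    linear_combination 2 * h - h5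
  have c01 := horth i₀ i₁ h01
  have c10 := horth i₁ i₀ h01.symm
  have pee : QuadraticMap.polar (⇑Q) e e = 2 := by rw [polar_self_eq, hQe, mul_one]
  have pdd : QuadraticMap.polar (⇑Q) d d = 2 := by rw [polar_self_eq, hQd, mul_one]
  have pee' : QuadraticMap.polar (⇑Q) e' e' = 2 := by rw [polar_self_eq, hQe', mul_one]
  have pdd' : QuadraticMap.polar (⇑Q) d' d' = 2 := by rw [polar_self_eq, hQd', mul_one]
  have pde : QuadraticMap.polar (⇑Q) d e = 0 := by rw [QuadraticMap.polar_comm, hed]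
  have pde' : QuadraticMap.polar (⇑Q) d' e' = 0 := by rw [QuadraticMap.polar_comm, hed']
  have x1 := c01 e he e' he'
  have x2 := c01 e he d' hd'
  have x3 := c01 d hd e' he'
  have x4 := c01 d hd d' hd'
  have y1 := c10 e' he' e he
  have y2 := c10 e' he' d hd
  have y3 := c10 d' hd' e he
  have y4 := c10 d' hd' d hd
  have hneg : ∀ (g : ↥(Cfsg.isometryGroup F ⇑Q)) (v : ι → F),
      (mat Q g).mulVec (-v) = -(mat Q g).mulVec v := fun g v => Matrix.mulVec_neg _ _
  apply set_stab_not_max Q D 1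
  · have hQa : Q (e - e') = 2 := by rw [Q_sub, hQe, hQe', x1]; ring
    have hQb : Q (e + d) = 2 := by rw [Q_add, hQe, hQd, hed]; ring
    have hQa0 : Q (e - e') ≠ 0 := by rw [hQa]; exact h2ne
    have hQb0 : Q (e + d) ≠ 0 := by rw [hQb]; exact h2ne
    have hinv : ∀ z : ι → F, Q z = 2 → Q z * 3 = 1 := by
      intro z hz
      rw [hz]
      linear_combination h5
    have hg : ∀ x, (mat Q (reflEl Q (e - e') * reflEl Q (e + d))).mulVec x
        = rf Q (e - e') (rf Q (e + d) x) := mat_refl2 Q _ _ hQa0 hQb0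
    have hfix : ∀ x, QuadraticMap.polar (⇑Q) e x = 0 → QuadraticMap.polar (⇑Q) d x = 0 →
        QuadraticMap.polar (⇑Q) e' x = 0 →
        (mat Q (reflEl Q (e - e') * reflEl Q (e + d))).mulVec x = x := by
      intro x h1 h2 h3
      rw [hg, rf_orth Q (e + d) x (by rw [QuadraticMap.polar_add_left, h1, h2, add_zero]),
        rf_orth Q (e - e') x (by rw [QuadraticMap.polar_sub_left, h1, h3, sub_zero])]
    have ge : (mat Q (reflEl Q (e - e') * reflEl Q (e + d))).mulVec e = -d := by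
      rw [hg, rf_inv Q (e + d) e 3 (hinv _ hQb), rf_inv Q (e - e') _ 3 (hinv _ hQa)]
      simp only [QuadraticMap.polar_add_left, QuadraticMap.polar_add_right, QuadraticMap.polar_sub_left, QuadraticMap.polar_sub_right, QuadraticMap.polar_neg_left, QuadraticMap.polar_neg_right, QuadraticMap.polar_smul_left, QuadraticMap.polar_smul_right, smul_eq_mul, pee, pdd, pee', pdd', hed, hed', pde, pde', x1, x2, x3, x4, y1, y2, y3, y4]
      funext i
      simp only [Pi.add_apply, Pi.sub_apply, Pi.smul_apply, Pi.neg_apply, smul_eq_mul]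
      linear_combination ((5) * e i + (-1) * d i + (-6) * e' i) * h5
    have gd : (mat Q (reflEl Q (e - e') * reflEl Q (e + d))).mulVec d = -e' := by
      rw [hg, rf_inv Q (e + d) d 3 (hinv _ hQb), rf_inv Q (e - e') _ 3 (hinv _ hQa)]
      simp only [QuadraticMap.polar_add_left, QuadraticMap.polar_add_right, QuadraticMap.polar_sub_left, QuadraticMap.polar_sub_right, QuadraticMap.polar_neg_left, QuadraticMap.polar_neg_right, QuadraticMap.polar_smul_left, QuadraticMap.polar_smul_right, smul_eq_mul, pee, pdd, pee', pdd', hed, hed', pde, pde', x1, x2, x3, x4, y1, y2, y3, y4]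
      funext i
      simp only [Pi.add_apply, Pi.sub_apply, Pi.smul_apply, Pi.neg_apply, smul_eq_mul]
      linear_combination ((-1) * d i + (6) * e i + (-7) * e' i) * h5
    have ge' : (mat Q (reflEl Q (e - e') * reflEl Q (e + d))).mulVec e' = e := by
      rw [hg, rf_inv Q (e + d) e' 3 (hinv _ hQb), rf_inv Q (e - e') _ 3 (hinv _ hQa)]
      simp only [QuadraticMap.polar_add_left, QuadraticMap.polar_add_right, QuadraticMap.polar_sub_left, QuadraticMap.polar_sub_right, QuadraticMap.polar_neg_left, QuadraticMap.polar_neg_right, QuadraticMap.polar_smul_left, QuadraticMap.polar_smul_right, smul_eq_mul, pee, pdd, pee', pdd', hed, hed', pde, pde', x1, x2, x3, x4, y1, y2, y3, y4]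
      funext i
      simp only [Pi.add_apply, Pi.sub_apply, Pi.smul_apply, Pi.neg_apply, smul_eq_mul]
      linear_combination ((-1) * e' i + (1) * e i) * h5
    refine ⟨reflEl Q (e - e') * reflEl Q (e + d),
      pair_mem_omega hh Q hQ _ _ hQa0 (hQb.trans hQa.symm), ?_, ?_⟩
    · intro i v hv hQv
      by_cases hi0 : i = i₀
      · subst hi0
        rcases H0 v hv hQv with rfl | rfl | rfl | rfl
        · exact ⟨i, by rw [ge]; exact (D i).neg_mem hd⟩
        · exact ⟨i, by rw [hneg, ge, neg_neg]; exact hd⟩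
        · exact ⟨i₁, by rw [gd]; exact (D i₁).neg_mem he'⟩
        · exact ⟨i₁, by rw [hneg, gd, neg_neg]; exact he'⟩
      · by_cases hi1 : i = i₁
        · subst hi1
          rcases H1 v hv hQv with rfl | rfl | rfl | rfl
          · exact ⟨i₀, by rw [ge']; exact he⟩
          · exact ⟨i₀, by rw [hneg, ge']; exact (D i₀).neg_mem he⟩
          · exact ⟨i, by rw [hfix _ x2 x4 hed']; exact hd'⟩
          · refine ⟨i, ?_⟩
            rw [hneg, hfix _ x2 x4 hed']
            exact (D i).neg_mem hd'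
        · refine ⟨i, ?_⟩
          rw [hfix _ (horth i₀ i (Ne.symm hi0) e he v hv) (horth i₀ i (Ne.symm hi0) d hd v hv)
            (horth i₁ i (Ne.symm hi1) e' he' v hv)]
          exact hv
    · intro hmem
      obtain ⟨σ, hσ⟩ := stab_maps Q D _ hmem
      have h5' := hσ i₀ e he
      have h6 := hσ i₀ d hd
      rw [ge] at h5'
      rw [gd] at h6
      have hσ0 : σ i₀ = i₀ := block_eq Q D horth h5' hd
        (by rw [QuadraticMap.polar_neg_left, pdd]; exact neg_ne_zero.mpr h2ne)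
      have hσ1 : σ i₀ = i₁ := block_eq Q D horth h6 he'
        (by rw [QuadraticMap.polar_neg_left, pee']; exact neg_ne_zero.mpr h2ne)
      exact h01 (hσ0.symm.trans hσ1)
  · have hQa : Q (e + e' + d') = 3 := by
      rw [Q_add, Q_add, hQe, hQe', hQd', x1]
      simp only [QuadraticMap.polar_add_left, QuadraticMap.polar_add_right, QuadraticMap.polar_sub_left, QuadraticMap.polar_sub_right, QuadraticMap.polar_neg_left, QuadraticMap.polar_neg_right, QuadraticMap.polar_smul_left, QuadraticMap.polar_smul_right, smul_eq_mul, pee, pdd, pee', pdd', hed, hed', pde, pde', x1, x2, x3, x4, y1, y2, y3, y4]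
      ring
    have hQb : Q (e' + d' + d) = 3 := by
      rw [Q_add, Q_add, hQe', hQd', hQd, hed']
      simp only [QuadraticMap.polar_add_left, QuadraticMap.polar_add_right, QuadraticMap.polar_sub_left, QuadraticMap.polar_sub_right, QuadraticMap.polar_neg_left, QuadraticMap.polar_neg_right, QuadraticMap.polar_smul_left, QuadraticMap.polar_smul_right, smul_eq_mul, pee, pdd, pee', pdd', hed, hed', pde, pde', x1, x2, x3, x4, y1, y2, y3, y4]
      ring
    have hQa0 : Q (e + e' + d') ≠ 0 := by rw [hQa]; exact h3ne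
    have hQb0 : Q (e' + d' + d) ≠ 0 := by rw [hQb]; exact h3ne
    have hg : ∀ x, (mat Q (reflEl Q (e + e' + d') * reflEl Q (e' + d' + d))).mulVec x
        = rf Q (e + e' + d') (rf Q (e' + d' + d) x) := mat_refl2 Q _ _ hQa0 hQb0
    have ge : (mat Q (reflEl Q (e + e' + d') * reflEl Q (e' + d' + d))).mulVec e
        = e - (4 : F) • (e + e' + d') := by
      rw [hg, rf_orth Q (e' + d' + d) e (by simp only [QuadraticMap.polar_add_left, QuadraticMap.polar_add_right, QuadraticMap.polar_sub_left, QuadraticMap.polar_sub_right, QuadraticMap.polar_neg_left, QuadraticMap.polar_neg_right, QuadraticMap.polar_smul_left, QuadraticMap.polar_smul_right, smul_eq_mul, pee, pdd, pee', pdd', hed, hed', pde, pde', x1, x2, x3, x4, y1, y2, y3, y4] <;> ring),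
        rf_inv Q (e + e' + d') e 2 (by rw [hQa]; linear_combination h5)]
      simp only [QuadraticMap.polar_add_left, QuadraticMap.polar_add_right, QuadraticMap.polar_sub_left, QuadraticMap.polar_sub_right, QuadraticMap.polar_neg_left, QuadraticMap.polar_neg_right, QuadraticMap.polar_smul_left, QuadraticMap.polar_smul_right, smul_eq_mul, pee, pdd, pee', pdd', hed, hed', pde, pde', x1, x2, x3, x4, y1, y2, y3, y4]
      funext i
      simp only [Pi.add_apply, Pi.sub_apply, Pi.smul_apply, Pi.neg_apply, smul_eq_mul]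
      ring
    refine ⟨reflEl Q (e + e' + d') * reflEl Q (e' + d' + d),
      pair_mem_omega hh Q hQ _ _ hQa0 (hQb.trans hQa.symm), i₀, e, he, hQe, ?_⟩
    rw [ge]
    intro j hj
    have hj0 : j = i₀ := block_eq Q D horth hj he (by
      intro h
      simp only [QuadraticMap.polar_add_left, QuadraticMap.polar_add_right, QuadraticMap.polar_sub_left, QuadraticMap.polar_sub_right, QuadraticMap.polar_neg_left, QuadraticMap.polar_neg_right, QuadraticMap.polar_smul_left, QuadraticMap.polar_smul_right, smul_eq_mul, pee, pdd, pee', pdd', hed, hed', pde, pde', x1, x2, x3, x4, y1, y2, y3, y4] at h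
      apply h1ne
      linear_combination (-1 : F) * h - h5)
    have hj1 : j = i₁ := block_eq Q D horth hj he' (by
      intro h
      simp only [QuadraticMap.polar_add_left, QuadraticMap.polar_add_right, QuadraticMap.polar_sub_left, QuadraticMap.polar_sub_right, QuadraticMap.polar_neg_left, QuadraticMap.polar_neg_right, QuadraticMap.polar_smul_left, QuadraticMap.polar_smul_right, smul_eq_mul, pee, pdd, pee', pdd', hed, hed', pde, pde', x1, x2, x3, x4, y1, y2, y3, y4] at h
      apply h2ne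
      linear_combination h + 2 * h5)
    exact h01 (hj0.symm.trans hj1)

omit [Fintype ι] [DecidableEq ι] in
/-- the norm-one vectors of a hyperbolic plane over the field with five elements -/
lemma frame5_of_hyp (hq : Fintype.card F = 5) (Q : QuadraticForm F (ι → F))
    (X : Submodule F (ι → F)) (u w : ι → F) (hu : u ∈ X) (hw : w ∈ X) (hQu : Q u = 0)
    (hQw : Q w = 0) (huw : QuadraticMap.polar (⇑Q) u w = 1)
    (hsp : ∀ v ∈ X, ∃ x y : F, v = x • u + y • w) :
    ∃ e d : ι → F, e ∈ X ∧ d ∈ X ∧ Q e = 1 ∧ Q d = 1 ∧ QuadraticMap.polar (⇑Q) e d = 0 ∧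
      ∀ v ∈ X, Q v = 1 → v = e ∨ v = -e ∨ v = d ∨ v = -d := by
  have h5 : (5 : F) = 0 := by
    have h := Nat.cast_card_eq_zero F
    rw [hq] at h
    exact_mod_cast h
  have puu : QuadraticMap.polar (⇑Q) u u = 0 := by rw [polar_self_eq, hQu, mul_zero]
  have pww : QuadraticMap.polar (⇑Q) w w = 0 := by rw [polar_self_eq, hQw, mul_zero]
  have pwu : QuadraticMap.polar (⇑Q) w u = 1 := by rw [QuadraticMap.polar_comm, huw]
  refine ⟨u + w, (2 : F) • u + (3 : F) • w, X.add_mem hu hw,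
    X.add_mem (X.smul_mem _ hu) (X.smul_mem _ hw), ?_, ?_, ?_, ?_⟩
  · have h := Q_pair Q u w hQu hQw huw 1 1
    rw [one_smul, one_smul, mul_one] at h
    exact h
  · rw [Q_pair Q u w hQu hQw huw 2 3]
    linear_combination h5
  · simp only [QuadraticMap.polar_add_left, QuadraticMap.polar_add_right, QuadraticMap.polar_sub_left, QuadraticMap.polar_sub_right, QuadraticMap.polar_neg_left, QuadraticMap.polar_neg_right, QuadraticMap.polar_smul_left, QuadraticMap.polar_smul_right, smul_eq_mul, puu, pww, huw, pwu]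
    linear_combination h5
  · intro v hv hQv
    obtain ⟨x, y, rfl⟩ := hsp v hv
    rw [Q_pair Q u w hQu hQw huw] at hQv
    have hx0 : x ≠ 0 := by
      rintro rfl
      rw [zero_mul] at hQv
      exact zero_ne_one hQv
    have hx4 : x ^ 4 = 1 := by
      have h := FiniteField.pow_card_sub_one_eq_one x hx0
      rw [hq] at h
      exact h
    have hprod : (x - 1) * (x - 2) * (x - 3) * (x - 4) = 0 := by
      linear_combination hx4 + (-2 * x ^ 3 + 7 * x ^ 2 - 10 * x + 5) * h5
    rcases mul_eq_zero.mp hprod with h | h4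
    · rcases mul_eq_zero.mp h with h | h3
      · rcases mul_eq_zero.mp h with h1 | h2
        · have hx : x = 1 := by linear_combination h1
          have hy : y = 1 := by rw [hx, one_mul] at hQv; exact hQv
          left
          rw [hx, hy, one_smul, one_smul]
        · have hx : x = 2 := by linear_combination h2
          have hy : y = 3 := by rw [hx] at hQv; linear_combination 3 * hQv - y * h5
          right; right; left
          rw [hx, hy]
      · have hx : x = 3 := by linear_combination h3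
        have hy : y = 2 := by rw [hx] at hQv; linear_combination 2 * hQv - y * h5
        right; right; right
        rw [hx, hy]
        funext i
        simp only [Pi.add_apply, Pi.sub_apply, Pi.smul_apply, Pi.neg_apply, smul_eq_mul]
        linear_combination (u i + w i) * h5
    · have hx : x = 4 := by linear_combination h4
      have hy : y = 4 := by rw [hx] at hQv; linear_combination 4 * hQv - 3 * y * h5
      right; left
      rw [hx, hy]
      funext i
      simp only [Pi.add_apply, Pi.sub_apply, Pi.smul_apply, Pi.neg_apply, smul_eq_mul]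
      linear_combination (u i + w i) * h5

/-- decompositions into hyperbolic planes over the field with five elements -/
theorem plus2_q5 (hq : Fintype.card F = 5)
    (hh : Fintype.card F ≠ 2 ∨ Fintype.card ι ≠ 4)
    (Q : QuadraticForm F (ι → F)) (hQ : (QuadraticMap.polarBilin Q).Nondegenerate) {t : ℕ}
    (D : Fin t → Submodule F (ι → F))
    (hD : Cfsg.Geo.IsOrthogonalMDecomposition ⇑Q 2 D)
    (hyp : ∀ j, ∃ u w : ι → F, u ∈ D j ∧ w ∈ D j ∧ Q u = 0 ∧ Q w = 0 ∧
      QuadraticMap.polar (⇑Q) u w = 1 ∧ ∀ v ∈ D j, ∃ x y : F, v = x • u + y • w) :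
    ∃ K : Subgroup (Matrix.GeneralLinearGroup ι F),
      Cfsg.Geo.decompositionStabilizer D ⊓ Cfsg.Geo.omegaGL ⇑Q < K ∧
        K < Cfsg.Geo.omegaGL ⇑Q := by
  have ht := hD.decomp.decomp.two_le
  obtain ⟨i₀, hi₀⟩ : ∃ i₀ : Fin t, i₀ = ⟨0, by omega⟩ := ⟨_, rfl⟩
  obtain ⟨i₁, hi₁⟩ : ∃ i₁ : Fin t, i₁ = ⟨1, by omega⟩ := ⟨_, rfl⟩
  have h01 : i₀ ≠ i₁ := by
    rw [hi₀, hi₁]
    intro h
    simp [Fin.ext_iff] at h
  obtain ⟨u, w, hu, hw, hQu, hQw, huw, H0⟩ := hyp i₀
  obtain ⟨u', w', hu', hw', hQu', hQw', huw', H1⟩ := hyp i₁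
  obtain ⟨e, d, he, hd, hQe, hQd, hed, K0⟩ := frame5_of_hyp hq Q (D i₀) u w hu hw hQu hQw huw H0
  obtain ⟨e', d', he', hd', hQe', hQd', hed', K1⟩ :=
    frame5_of_hyp hq Q (D i₁) u' w' hu' hw' hQu' hQw' huw' H1
  exact frame5_not_max hq hh Q hQ D hD.decomp.orthogonal i₀ i₁ h01 e d e' d' he hd he' hd'
    hQe hQd hQe' hQd' hed hed' K0 K1

/-- decompositions into hyperbolic planes over the field with three elements -/
theorem plus2_q3 (hq : Fintype.card F = 3)
    (hh : Fintype.card F ≠ 2 ∨ Fintype.card ι ≠ 4)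
    (Q : QuadraticForm F (ι → F)) (hQ : (QuadraticMap.polarBilin Q).Nondegenerate) {t : ℕ}
    (D : Fin t → Submodule F (ι → F))
    (hD : Cfsg.Geo.IsOrthogonalMDecomposition ⇑Q 2 D)
    (hyp : ∀ j, ∃ u w : ι → F, u ∈ D j ∧ w ∈ D j ∧ Q u = 0 ∧ Q w = 0 ∧
      QuadraticMap.polar (⇑Q) u w = 1 ∧ ∀ v ∈ D j, ∃ x y : F, v = x • u + y • w) :
    ∃ K : Subgroup (Matrix.GeneralLinearGroup ι F),
      Cfsg.Geo.decompositionStabilizer D ⊓ Cfsg.Geo.omegaGL ⇑Q < K ∧
        K < Cfsg.Geo.omegaGL ⇑Q := by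
  have ht := hD.decomp.decomp.two_le
  obtain ⟨i₀, hi₀⟩ : ∃ i₀ : Fin t, i₀ = ⟨0, by omega⟩ := ⟨_, rfl⟩
  obtain ⟨i₁, hi₁⟩ : ∃ i₁ : Fin t, i₁ = ⟨1, by omega⟩ := ⟨_, rfl⟩
  have h01 : i₀ ≠ i₁ := by
    rw [hi₀, hi₁]
    intro h
    simp [Fin.ext_iff] at h
  have horth := hD.decomp.orthogonal
  obtain ⟨u, w, hu, hw, hQu, hQw, huw, H0⟩ := hyp i₀
  obtain ⟨u', w', hu', hw', hQu', hQw', huw', H1⟩ := hyp i₁
  have h3 : (3 : F) = 0 := three_eq_zero_of_card hq
  have h1ne : (1 : F) ≠ 0 := one_ne_zero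
  have c01 := horth i₀ i₁ h01
  have c10 := horth i₁ i₀ h01.symm
  have puu : QuadraticMap.polar (⇑Q) u u = 0 := by rw [polar_self_eq, hQu, mul_zero]
  have pww : QuadraticMap.polar (⇑Q) w w = 0 := by rw [polar_self_eq, hQw, mul_zero]
  have pwu : QuadraticMap.polar (⇑Q) w u = 1 := by rw [QuadraticMap.polar_comm, huw]
  have puu' : QuadraticMap.polar (⇑Q) u' u' = 0 := by rw [polar_self_eq, hQu', mul_zero]
  have pww' : QuadraticMap.polar (⇑Q) w' w' = 0 := by rw [polar_self_eq, hQw', mul_zero]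
  have pwu' : QuadraticMap.polar (⇑Q) w' u' = 1 := by rw [QuadraticMap.polar_comm, huw']
  have x1 := c01 u hu u' hu'
  have x2 := c01 u hu w' hw'
  have x3 := c01 w hw u' hu'
  have x4 := c01 w hw w' hw'
  have y1 := c10 u' hu' u hu
  have y2 := c10 u' hu' w hw
  have y3 := c10 w' hw' u hu
  have y4 := c10 w' hw' w hw
  have hcl : ∀ (a b : ι → F), Q a = 0 → Q b = 0 → QuadraticMap.polar (⇑Q) a b = 1 →
      ∀ x y : F, Q (x • a + y • b) = 1 → x • a + y • b = x • (a + b) := by
    intro a b ha hb hab x y hQv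
    rw [Q_pair Q a b ha hb hab] at hQv
    have hx0 : x ≠ 0 := by
      rintro rfl
      rw [zero_mul] at hQv
      exact zero_ne_one hQv
    have hx2 : x ^ 2 = 1 := by
      have h := FiniteField.pow_card_sub_one_eq_one x hx0
      rw [hq] at h
      exact h
    have hy : y = x := by linear_combination (-y) * hx2 + x * hQv
    rw [hy, smul_add]
  apply set_stab_not_max Q D 1
  · have hQa : Q (u - w + (u' - w')) = 1 := by
      rw [Q_add, Q_sub, Q_sub, hQu, hQw, hQu', hQw']
      simp only [QuadraticMap.polar_add_left, QuadraticMap.polar_add_right, QuadraticMap.polar_sub_left, QuadraticMap.polar_sub_right, QuadraticMap.polar_neg_left, QuadraticMap.polar_neg_right, QuadraticMap.polar_smul_left, QuadraticMap.polar_smul_right, smul_eq_mul, puu, pww, huw, pwu, puu', pww', huw', pwu', x1, x2, x3, x4, y1, y2, y3, y4]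
      linear_combination (-1 : F) * h3
    have hQb : Q (u + w) = 1 := by rw [Q_add, hQu, hQw, huw]; ring
    have hQa0 : Q (u - w + (u' - w')) ≠ 0 := by rw [hQa]; exact h1ne
    have hQb0 : Q (u + w) ≠ 0 := by rw [hQb]; exact h1ne
    have hg : ∀ x, (mat Q (reflEl Q (u - w + (u' - w')) * reflEl Q (u + w))).mulVec x
        = rf Q (u - w + (u' - w')) (rf Q (u + w) x) := mat_refl2 Q _ _ hQa0 hQb0
    have hfix : ∀ x, QuadraticMap.polar (⇑Q) (u - w + (u' - w')) x = 0 →
        QuadraticMap.polar (⇑Q) (u + w) x = 0 → (mat Q (reflEl Q (u - w + (u' - w')) * reflEl Q (u + w))).mulVec x = x := by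
      intro x h1 h2
      rw [hg, rf_orth Q (u + w) x h2, rf_orth Q _ x h1]
    have ge : (mat Q (reflEl Q (u - w + (u' - w')) * reflEl Q (u + w))).mulVec (u + w) = -(u + w) := by
      rw [hg, rf_one Q (u + w) _ hQb, rf_one Q _ _ hQa]
      simp only [QuadraticMap.polar_add_left, QuadraticMap.polar_add_right, QuadraticMap.polar_sub_left, QuadraticMap.polar_sub_right, QuadraticMap.polar_neg_left, QuadraticMap.polar_neg_right, QuadraticMap.polar_smul_left, QuadraticMap.polar_smul_right, smul_eq_mul, puu, pww, huw, pwu, puu', pww', huw', pwu', x1, x2, x3, x4, y1, y2, y3, y4]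
      funext i
      simp only [Pi.add_apply, Pi.sub_apply, Pi.smul_apply, Pi.neg_apply, smul_eq_mul]
      ring
    have gf : (mat Q (reflEl Q (u - w + (u' - w')) * reflEl Q (u + w))).mulVec (u - w) = -(u' - w') := by
      rw [hg, rf_one Q (u + w) _ hQb, rf_one Q _ _ hQa]
      simp only [QuadraticMap.polar_add_left, QuadraticMap.polar_add_right, QuadraticMap.polar_sub_left, QuadraticMap.polar_sub_right, QuadraticMap.polar_neg_left, QuadraticMap.polar_neg_right, QuadraticMap.polar_smul_left, QuadraticMap.polar_smul_right, smul_eq_mul, puu, pww, huw, pwu, puu', pww', huw', pwu', x1, x2, x3, x4, y1, y2, y3, y4]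
      funext i
      simp only [Pi.add_apply, Pi.sub_apply, Pi.smul_apply, Pi.neg_apply, smul_eq_mul]
      linear_combination (u i - w i + u' i - w' i) * h3
    refine ⟨reflEl Q (u - w + (u' - w')) * reflEl Q (u + w),
      pair_mem_omega hh Q hQ _ _ hQa0 (hQb.trans hQa.symm), ?_, ?_⟩
    · intro i v hv hQv
      by_cases hi0 : i = i₀
      · subst hi0
        obtain ⟨x, y, rfl⟩ := H0 v hv
        refine ⟨i, ?_⟩
        rw [hcl u w hQu hQw huw x y hQv, Matrix.mulVec_smul, ge]
        exact (D i).smul_mem _ ((D i).neg_mem ((D i).add_mem hu hw))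
      · by_cases hi1 : i = i₁
        · subst hi1
          obtain ⟨x, y, rfl⟩ := H1 v hv
          refine ⟨i, ?_⟩
          rw [hcl u' w' hQu' hQw' huw' x y hQv, Matrix.mulVec_smul,
            hfix (u' + w') (by simp only [QuadraticMap.polar_add_left, QuadraticMap.polar_add_right, QuadraticMap.polar_sub_left, QuadraticMap.polar_sub_right, QuadraticMap.polar_neg_left, QuadraticMap.polar_neg_right, QuadraticMap.polar_smul_left, QuadraticMap.polar_smul_right, smul_eq_mul, puu, pww, huw, pwu, puu', pww', huw', pwu', x1, x2, x3, x4, y1, y2, y3, y4] <;> ring) (by simp only [QuadraticMap.polar_add_left, QuadraticMap.polar_add_right, QuadraticMap.polar_sub_left, QuadraticMap.polar_sub_right, QuadraticMap.polar_neg_left, QuadraticMap.polar_neg_right, QuadraticMap.polar_smul_left, QuadraticMap.polar_smul_right, smul_eq_mul, puu, pww, huw, pwu, puu', pww', huw', pwu', x1, x2, x3, x4, y1, y2, y3, y4] <;> ring)]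
          exact (D i).smul_mem _ ((D i).add_mem hu' hw')
        · refine ⟨i, ?_⟩
          have a1 := horth i₀ i (Ne.symm hi0) u hu v hv
          have a2 := horth i₀ i (Ne.symm hi0) w hw v hv
          have a3 := horth i₁ i (Ne.symm hi1) u' hu' v hv
          have a4 := horth i₁ i (Ne.symm hi1) w' hw' v hv
          rw [hfix v (by simp only [QuadraticMap.polar_add_left, QuadraticMap.polar_add_right, QuadraticMap.polar_sub_left, QuadraticMap.polar_sub_right, QuadraticMap.polar_neg_left, QuadraticMap.polar_neg_right, QuadraticMap.polar_smul_left, QuadraticMap.polar_smul_right, smul_eq_mul, a1, a2, a3, a4] <;> ring)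
            (by simp only [QuadraticMap.polar_add_left, QuadraticMap.polar_add_right, QuadraticMap.polar_sub_left, QuadraticMap.polar_sub_right, QuadraticMap.polar_neg_left, QuadraticMap.polar_neg_right, QuadraticMap.polar_smul_left, QuadraticMap.polar_smul_right, smul_eq_mul, a1, a2, a3, a4] <;> ring)]
          exact hv
    · intro hmem
      obtain ⟨σ, hσ⟩ := stab_maps Q D _ hmem
      have h5' := hσ i₀ (u + w) ((D i₀).add_mem hu hw)
      have h6 := hσ i₀ (u - w) ((D i₀).sub_mem hu hw)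
      rw [ge] at h5'
      rw [gf] at h6
      have hσ0 : σ i₀ = i₀ := block_eq Q D horth h5' ((D i₀).add_mem hu hw) (by
        intro h
        simp only [QuadraticMap.polar_add_left, QuadraticMap.polar_add_right, QuadraticMap.polar_sub_left, QuadraticMap.polar_sub_right, QuadraticMap.polar_neg_left, QuadraticMap.polar_neg_right, QuadraticMap.polar_smul_left, QuadraticMap.polar_smul_right, smul_eq_mul, puu, pww, huw, pwu, puu', pww', huw', pwu', x1, x2, x3, x4, y1, y2, y3, y4] at h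
        apply h1ne
        linear_combination h + h3)
      have hσ1 : σ i₀ = i₁ := block_eq Q D horth h6 ((D i₁).sub_mem hu' hw') (by
        intro h
        simp only [QuadraticMap.polar_add_left, QuadraticMap.polar_add_right, QuadraticMap.polar_sub_left, QuadraticMap.polar_sub_right, QuadraticMap.polar_neg_left, QuadraticMap.polar_neg_right, QuadraticMap.polar_smul_left, QuadraticMap.polar_smul_right, smul_eq_mul, puu, pww, huw, pwu, puu', pww', huw', pwu', x1, x2, x3, x4, y1, y2, y3, y4] at h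
        apply h1ne
        linear_combination h3 - h)
      exact h01 (hσ0.symm.trans hσ1)
  · have hQa : Q (u + w - u') = 1 := by
      rw [Q_sub, Q_add, hQu, hQw, hQu', huw]
      simp only [QuadraticMap.polar_add_left, QuadraticMap.polar_add_right, QuadraticMap.polar_sub_left, QuadraticMap.polar_sub_right, QuadraticMap.polar_neg_left, QuadraticMap.polar_neg_right, QuadraticMap.polar_smul_left, QuadraticMap.polar_smul_right, smul_eq_mul, puu, pww, huw, pwu, puu', pww', huw', pwu', x1, x2, x3, x4, y1, y2, y3, y4]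
      ring
    have hQb : Q (u' + w') = 1 := by rw [Q_add, hQu', hQw', huw']; ring
    have hQa0 : Q (u + w - u') ≠ 0 := by rw [hQa]; exact h1ne
    have hQb0 : Q (u' + w') ≠ 0 := by rw [hQb]; exact h1ne
    have hg : ∀ x, (mat Q (reflEl Q (u + w - u') * reflEl Q (u' + w'))).mulVec x
        = rf Q (u + w - u') (rf Q (u' + w') x) := mat_refl2 Q _ _ hQa0 hQb0
    have ge : (mat Q (reflEl Q (u + w - u') * reflEl Q (u' + w'))).mulVec (u + w) = (u + w) - (2 : F) • (u + w - u') := by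
      rw [hg, rf_orth Q (u' + w') (u + w) (by simp only [QuadraticMap.polar_add_left, QuadraticMap.polar_add_right, QuadraticMap.polar_sub_left, QuadraticMap.polar_sub_right, QuadraticMap.polar_neg_left, QuadraticMap.polar_neg_right, QuadraticMap.polar_smul_left, QuadraticMap.polar_smul_right, smul_eq_mul, puu, pww, huw, pwu, puu', pww', huw', pwu', x1, x2, x3, x4, y1, y2, y3, y4] <;> ring),
        rf_one Q _ _ hQa]
      simp only [QuadraticMap.polar_add_left, QuadraticMap.polar_add_right, QuadraticMap.polar_sub_left, QuadraticMap.polar_sub_right, QuadraticMap.polar_neg_left, QuadraticMap.polar_neg_right, QuadraticMap.polar_smul_left, QuadraticMap.polar_smul_right, smul_eq_mul, puu, pww, huw, pwu, puu', pww', huw', pwu', x1, x2, x3, x4, y1, y2, y3, y4]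
      funext i
      simp only [Pi.add_apply, Pi.sub_apply, Pi.smul_apply, Pi.neg_apply, smul_eq_mul]
      ring
    refine ⟨reflEl Q (u + w - u') * reflEl Q (u' + w'),
      pair_mem_omega hh Q hQ _ _ hQa0 (hQb.trans hQa.symm), i₀, u + w,
      (D i₀).add_mem hu hw, (by rw [Q_add, hQu, hQw, huw]; ring), ?_⟩
    rw [ge]
    intro j hj
    have hj0 : j = i₀ := block_eq Q D horth hj hu (by
      intro h
      simp only [QuadraticMap.polar_add_left, QuadraticMap.polar_add_right, QuadraticMap.polar_sub_left, QuadraticMap.polar_sub_right, QuadraticMap.polar_neg_left, QuadraticMap.polar_neg_right, QuadraticMap.polar_smul_left, QuadraticMap.polar_smul_right, smul_eq_mul, puu, pww, huw, pwu, puu', pww', huw', pwu', x1, x2, x3, x4, y1, y2, y3, y4] at h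
      apply h1ne
      linear_combination (-1 : F) * h)
    have hj1 : j = i₁ := block_eq Q D horth hj hw' (by
      intro h
      simp only [QuadraticMap.polar_add_left, QuadraticMap.polar_add_right, QuadraticMap.polar_sub_left, QuadraticMap.polar_sub_right, QuadraticMap.polar_neg_left, QuadraticMap.polar_neg_right, QuadraticMap.polar_smul_left, QuadraticMap.polar_smul_right, smul_eq_mul, puu, pww, huw, pwu, puu', pww', huw', pwu', x1, x2, x3, x4, y1, y2, y3, y4] at h
      apply h1ne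
      linear_combination h3 - h)
    exact h01 (hj0.symm.trans hj1)

omit [Fintype ι] [DecidableEq ι] in
/-- the norm-one vector of a hyperbolic plane over the field with two elements -/
lemma d_of_hyp (hq : Fintype.card F = 2) (Q : QuadraticForm F (ι → F))
    (X : Submodule F (ι → F)) (u w : ι → F) (hu : u ∈ X) (hw : w ∈ X) (hQu : Q u = 0)
    (hQw : Q w = 0) (huw : QuadraticMap.polar (⇑Q) u w = 1)
    (hsp : ∀ v ∈ X, ∃ x y : F, v = x • u + y • w) :
    ∃ d u₀ : ι → F, d ∈ X ∧ u₀ ∈ X ∧ Q d = 1 ∧ Q u₀ = 0 ∧ QuadraticMap.polar (⇑Q) d u₀ = 1 ∧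
      ∀ v ∈ X, Q v = 1 → v = d := by
  have h01 : ∀ z : F, z = 0 ∨ z = 1 := by
    intro z
    have h := FiniteField.pow_card z
    rw [hq] at h
    have h' : z * (z - 1) = 0 := by linear_combination h
    rcases mul_eq_zero.mp h' with h | h
    · exact Or.inl h
    · exact Or.inr (by linear_combination h)
  refine ⟨u + w, u, X.add_mem hu hw, hu, ?_, hQu, ?_, ?_⟩
  · have h := Q_pair Q u w hQu hQw huw 1 1
    rw [one_smul, one_smul, mul_one] at h
    exact h
  · rw [QuadraticMap.polar_add_left, polar_self_eq, hQu, mul_zero, zero_add,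
      QuadraticMap.polar_comm, huw]
  · intro v hv hQv
    obtain ⟨x, y, rfl⟩ := hsp v hv
    rw [Q_pair Q u w hQu hQw huw] at hQv
    rcases h01 x with rfl | rfl
    · rw [zero_mul] at hQv
      exact absurd hQv zero_ne_one
    · rw [one_mul] at hQv
      rw [hQv, one_smul, one_smul]

/-- decompositions into hyperbolic planes over the field with two elements -/
theorem plus2_q2 (hq : Fintype.card F = 2)
    (hh : Fintype.card F ≠ 2 ∨ Fintype.card ι ≠ 4)
    (Q : QuadraticForm F (ι → F)) (hQ : (QuadraticMap.polarBilin Q).Nondegenerate) {t : ℕ}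
    (D : Fin t → Submodule F (ι → F))
    (hD : Cfsg.Geo.IsOrthogonalMDecomposition ⇑Q 2 D) (ht3 : 3 ≤ t)
    (hyp : ∀ j, ∃ u w : ι → F, u ∈ D j ∧ w ∈ D j ∧ Q u = 0 ∧ Q w = 0 ∧
      QuadraticMap.polar (⇑Q) u w = 1 ∧ ∀ v ∈ D j, ∃ x y : F, v = x • u + y • w) :
    ∃ K : Subgroup (Matrix.GeneralLinearGroup ι F),
      Cfsg.Geo.decompositionStabilizer D ⊓ Cfsg.Geo.omegaGL ⇑Q < K ∧
        K < Cfsg.Geo.omegaGL ⇑Q := by
  obtain ⟨i₀, hi₀⟩ : ∃ i₀ : Fin t, i₀ = ⟨0, by omega⟩ := ⟨_, rfl⟩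
  obtain ⟨i₁, hi₁⟩ : ∃ i₁ : Fin t, i₁ = ⟨1, by omega⟩ := ⟨_, rfl⟩
  obtain ⟨i₂, hi₂⟩ : ∃ i₂ : Fin t, i₂ = ⟨2, by omega⟩ := ⟨_, rfl⟩
  have h01 : i₀ ≠ i₁ := by
    rw [hi₀, hi₁]
    intro h
    simp [Fin.ext_iff] at h
  have h02 : i₀ ≠ i₂ := by
    rw [hi₀, hi₂]
    intro h
    simp [Fin.ext_iff] at h
  have h12 : i₁ ≠ i₂ := by
    rw [hi₁, hi₂]
    intro h
    simp [Fin.ext_iff] at h
  have horth := hD.decomp.orthogonal
  obtain ⟨u, w, hu, hw, hQu, hQw, huw, H0⟩ := hyp i₀
  obtain ⟨d0, u0, hd0, hu0, hQd0, hQu0, pdu0, K0⟩ :=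
    d_of_hyp hq Q (D i₀) u w hu hw hQu hQw huw H0
  obtain ⟨u', w', hu', hw', hQu', hQw', huw', H1⟩ := hyp i₁
  obtain ⟨d1, u1, hd1, hu1, hQd1, hQu1, pdu1, K1⟩ :=
    d_of_hyp hq Q (D i₁) u' w' hu' hw' hQu' hQw' huw' H1
  obtain ⟨u'', w'', hu'', hw'', hQu'', hQw'', huw'', H2⟩ := hyp i₂
  obtain ⟨d2, u2, hd2, hu2, hQd2, hQu2, pdu2, K2⟩ :=
    d_of_hyp hq Q (D i₂) u'' w'' hu'' hw'' hQu'' hQw'' huw'' H2
  have h2 : (2 : F) = 0 := by
    have h := Nat.cast_card_eq_zero F
    rw [hq] at h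
    exact_mod_cast h
  have h1ne : (1 : F) ≠ 0 := one_ne_zero
  have pd0 : QuadraticMap.polar (⇑Q) d0 d0 = 0 := by rw [polar_self_eq, hQd0, mul_one]; exact h2
  have pd1 : QuadraticMap.polar (⇑Q) d1 d1 = 0 := by rw [polar_self_eq, hQd1, mul_one]; exact h2
  have pd2 : QuadraticMap.polar (⇑Q) d2 d2 = 0 := by rw [polar_self_eq, hQd2, mul_one]; exact h2
  have pu0 : QuadraticMap.polar (⇑Q) u0 u0 = 0 := by rw [polar_self_eq, hQu0, mul_zero]
  have pu1 : QuadraticMap.polar (⇑Q) u1 u1 = 0 := by rw [polar_self_eq, hQu1, mul_zero]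
  have pud0 : QuadraticMap.polar (⇑Q) u0 d0 = 1 := by rw [QuadraticMap.polar_comm, pdu0]
  have pud1 : QuadraticMap.polar (⇑Q) u1 d1 = 1 := by rw [QuadraticMap.polar_comm, pdu1]
  have z_d0_d1 := horth i₀ i₁ h01 d0 hd0 d1 hd1
  have z_d0_u1 := horth i₀ i₁ h01 d0 hd0 u1 hu1
  have z_u0_d1 := horth i₀ i₁ h01 u0 hu0 d1 hd1
  have z_u0_u1 := horth i₀ i₁ h01 u0 hu0 u1 hu1
  have z_d0_d2 := horth i₀ i₂ h02 d0 hd0 d2 hd2
  have z_u0_d2 := horth i₀ i₂ h02 u0 hu0 d2 hd2
  have z_d1_d0 := horth i₁ i₀ h01.symm d1 hd1 d0 hd0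
  have z_d1_u0 := horth i₁ i₀ h01.symm d1 hd1 u0 hu0
  have z_u1_d0 := horth i₁ i₀ h01.symm u1 hu1 d0 hd0
  have z_u1_u0 := horth i₁ i₀ h01.symm u1 hu1 u0 hu0
  have z_d1_d2 := horth i₁ i₂ h12 d1 hd1 d2 hd2
  have z_u1_d2 := horth i₁ i₂ h12 u1 hu1 d2 hd2
  have z_d2_d0 := horth i₂ i₀ h02.symm d2 hd2 d0 hd0
  have z_d2_u0 := horth i₂ i₀ h02.symm d2 hd2 u0 hu0
  have z_d2_d1 := horth i₂ i₁ h12.symm d2 hd2 d1 hd1
  have z_d2_u1 := horth i₂ i₁ h12.symm d2 hd2 u1 hu1
  apply set_stab_not_max Q D 1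
  · have hQa : Q (d0 + d1 + d2) = 1 := by
      rw [Q_add, Q_add, hQd0, hQd1, hQd2]
      simp only [QuadraticMap.polar_add_left, QuadraticMap.polar_add_right, QuadraticMap.polar_sub_left, QuadraticMap.polar_sub_right, QuadraticMap.polar_neg_left, QuadraticMap.polar_neg_right, QuadraticMap.polar_smul_left, QuadraticMap.polar_smul_right, smul_eq_mul, pd0, pd1, pd2, pu0, pu1, pdu0, pdu1, pud0, pud1, z_d0_d1, z_d0_u1, z_u0_d1, z_u0_u1, z_d0_d2, z_u0_d2, z_d1_d0, z_d1_u0, z_u1_d0, z_u1_u0, z_d1_d2, z_u1_d2, z_d2_d0, z_d2_u0, z_d2_d1, z_d2_u1]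
      linear_combination h2
    have hQa0 : Q (d0 + d1 + d2) ≠ 0 := by rw [hQa]; exact h1ne
    have hQb0 : Q d1 ≠ 0 := by rw [hQd1]; exact h1ne
    have hg : ∀ x, (mat Q (reflEl Q (d0 + d1 + d2) * reflEl Q d1)).mulVec x
        = rf Q (d0 + d1 + d2) (rf Q d1 x) := mat_refl2 Q _ _ hQa0 hQb0
    have hfix : ∀ x, QuadraticMap.polar (⇑Q) (d0 + d1 + d2) x = 0 →
        QuadraticMap.polar (⇑Q) d1 x = 0 → (mat Q (reflEl Q (d0 + d1 + d2) * reflEl Q d1)).mulVec x = x := by
      intro x h1 h2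
      rw [hg, rf_orth Q d1 x h2, rf_orth Q _ x h1]
    have gu0 : (mat Q (reflEl Q (d0 + d1 + d2) * reflEl Q d1)).mulVec u0 = u0 - (d0 + d1 + d2) := by
      rw [hg, rf_orth Q d1 u0 z_d1_u0, rf_one Q _ _ hQa]
      simp only [QuadraticMap.polar_add_left, QuadraticMap.polar_add_right, QuadraticMap.polar_sub_left, QuadraticMap.polar_sub_right, QuadraticMap.polar_neg_left, QuadraticMap.polar_neg_right, QuadraticMap.polar_smul_left, QuadraticMap.polar_smul_right, smul_eq_mul, pd0, pd1, pd2, pu0, pu1, pdu0, pdu1, pud0, pud1, z_d0_d1, z_d0_u1, z_u0_d1, z_u0_u1, z_d0_d2, z_u0_d2, z_d1_d0, z_d1_u0, z_u1_d0, z_u1_u0, z_d1_d2, z_u1_d2, z_d2_d0, z_d2_u0, z_d2_d1, z_d2_u1]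
      funext i
      simp only [Pi.add_apply, Pi.sub_apply, Pi.smul_apply, Pi.neg_apply, smul_eq_mul]
      ring
    refine ⟨reflEl Q (d0 + d1 + d2) * reflEl Q d1,
      pair_mem_omega hh Q hQ _ _ hQa0 (hQd1.trans hQa.symm), ?_, ?_⟩
    · intro i v hv hQv
      refine ⟨i, ?_⟩
      by_cases hi0 : i = i₀
      · subst hi0
        rw [K0 v hv hQv, hfix d0 (by simp only [QuadraticMap.polar_add_left, QuadraticMap.polar_add_right, QuadraticMap.polar_sub_left, QuadraticMap.polar_sub_right, QuadraticMap.polar_neg_left, QuadraticMap.polar_neg_right, QuadraticMap.polar_smul_left, QuadraticMap.polar_smul_right, smul_eq_mul, pd0, pd1, pd2, pu0, pu1, pdu0, pdu1, pud0, pud1, z_d0_d1, z_d0_u1, z_u0_d1, z_u0_u1, z_d0_d2, z_u0_d2, z_d1_d0, z_d1_u0, z_u1_d0, z_u1_u0, z_d1_d2, z_u1_d2, z_d2_d0, z_d2_u0, z_d2_d1, z_d2_u1] <;> ring) z_d1_d0]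
        exact hd0
      · by_cases hi1 : i = i₁
        · subst hi1
          rw [K1 v hv hQv, hfix d1 (by simp only [QuadraticMap.polar_add_left, QuadraticMap.polar_add_right, QuadraticMap.polar_sub_left, QuadraticMap.polar_sub_right, QuadraticMap.polar_neg_left, QuadraticMap.polar_neg_right, QuadraticMap.polar_smul_left, QuadraticMap.polar_smul_right, smul_eq_mul, pd0, pd1, pd2, pu0, pu1, pdu0, pdu1, pud0, pud1, z_d0_d1, z_d0_u1, z_u0_d1, z_u0_u1, z_d0_d2, z_u0_d2, z_d1_d0, z_d1_u0, z_u1_d0, z_u1_u0, z_d1_d2, z_u1_d2, z_d2_d0, z_d2_u0, z_d2_d1, z_d2_u1] <;> ring) pd1]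
          exact hd1
        · by_cases hi2 : i = i₂
          · subst hi2
            rw [K2 v hv hQv, hfix d2 (by simp only [QuadraticMap.polar_add_left, QuadraticMap.polar_add_right, QuadraticMap.polar_sub_left, QuadraticMap.polar_sub_right, QuadraticMap.polar_neg_left, QuadraticMap.polar_neg_right, QuadraticMap.polar_smul_left, QuadraticMap.polar_smul_right, smul_eq_mul, pd0, pd1, pd2, pu0, pu1, pdu0, pdu1, pud0, pud1, z_d0_d1, z_d0_u1, z_u0_d1, z_u0_u1, z_d0_d2, z_u0_d2, z_d1_d0, z_d1_u0, z_u1_d0, z_u1_u0, z_d1_d2, z_u1_d2, z_d2_d0, z_d2_u0, z_d2_d1, z_d2_u1] <;> ring) z_d1_d2]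
            exact hd2
          · have a1 := horth i₀ i (Ne.symm hi0) d0 hd0 v hv
            have a2 := horth i₁ i (Ne.symm hi1) d1 hd1 v hv
            have a3 := horth i₂ i (Ne.symm hi2) d2 hd2 v hv
            rw [hfix v (by simp only [QuadraticMap.polar_add_left, QuadraticMap.polar_add_right, QuadraticMap.polar_sub_left, QuadraticMap.polar_sub_right, QuadraticMap.polar_neg_left, QuadraticMap.polar_neg_right, QuadraticMap.polar_smul_left, QuadraticMap.polar_smul_right, smul_eq_mul, a1, a2, a3] <;> ring) a2]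
            exact hv
    · intro hmem
      obtain ⟨σ, hσ⟩ := stab_maps Q D _ hmem
      have h5' := hσ i₀ u0 hu0
      rw [gu0] at h5'
      have hσ0 : σ i₀ = i₀ := block_eq Q D horth h5' hu0 (by
        intro h
        simp only [QuadraticMap.polar_add_left, QuadraticMap.polar_add_right, QuadraticMap.polar_sub_left, QuadraticMap.polar_sub_right, QuadraticMap.polar_neg_left, QuadraticMap.polar_neg_right, QuadraticMap.polar_smul_left, QuadraticMap.polar_smul_right, smul_eq_mul, pd0, pd1, pd2, pu0, pu1, pdu0, pdu1, pud0, pud1, z_d0_d1, z_d0_u1, z_u0_d1, z_u0_u1, z_d0_d2, z_u0_d2, z_d1_d0, z_d1_u0, z_u1_d0, z_u1_u0, z_d1_d2, z_u1_d2, z_d2_d0, z_d2_u0, z_d2_d1, z_d2_u1] at h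
        apply h1ne
        linear_combination (-1 : F) * h)
      have hσ1 : σ i₀ = i₁ := block_eq Q D horth h5' hu1 (by
        intro h
        simp only [QuadraticMap.polar_add_left, QuadraticMap.polar_add_right, QuadraticMap.polar_sub_left, QuadraticMap.polar_sub_right, QuadraticMap.polar_neg_left, QuadraticMap.polar_neg_right, QuadraticMap.polar_smul_left, QuadraticMap.polar_smul_right, smul_eq_mul, pd0, pd1, pd2, pu0, pu1, pdu0, pdu1, pud0, pud1, z_d0_d1, z_d0_u1, z_u0_d1, z_u0_u1, z_d0_d2, z_u0_d2, z_d1_d0, z_d1_u0, z_u1_d0, z_u1_u0, z_d1_d2, z_u1_d2, z_d2_d0, z_d2_u0, z_d2_d1, z_d2_u1] at h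
        apply h1ne
        linear_combination (-1 : F) * h)
      exact h01 (hσ0.symm.trans hσ1)
  · have hQa : Q (u0 + d1) = 1 := by
      rw [Q_add, hQu0, hQd1, z_u0_d1]
      ring
    have hQa0 : Q (u0 + d1) ≠ 0 := by rw [hQa]; exact h1ne
    have hQb0 : Q d1 ≠ 0 := by rw [hQd1]; exact h1ne
    have hg : ∀ x, (mat Q (reflEl Q (u0 + d1) * reflEl Q d1)).mulVec x
        = rf Q (u0 + d1) (rf Q d1 x) := mat_refl2 Q _ _ hQa0 hQb0
    have gd0 : (mat Q (reflEl Q (u0 + d1) * reflEl Q d1)).mulVec d0 = d0 - (u0 + d1) := by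
      rw [hg, rf_orth Q d1 d0 z_d1_d0, rf_one Q _ _ hQa]
      simp only [QuadraticMap.polar_add_left, QuadraticMap.polar_add_right, QuadraticMap.polar_sub_left, QuadraticMap.polar_sub_right, QuadraticMap.polar_neg_left, QuadraticMap.polar_neg_right, QuadraticMap.polar_smul_left, QuadraticMap.polar_smul_right, smul_eq_mul, pd0, pd1, pd2, pu0, pu1, pdu0, pdu1, pud0, pud1, z_d0_d1, z_d0_u1, z_u0_d1, z_u0_u1, z_d0_d2, z_u0_d2, z_d1_d0, z_d1_u0, z_u1_d0, z_u1_u0, z_d1_d2, z_u1_d2, z_d2_d0, z_d2_u0, z_d2_d1, z_d2_u1]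
      funext i
      simp only [Pi.add_apply, Pi.sub_apply, Pi.smul_apply, Pi.neg_apply, smul_eq_mul]
      ring
    refine ⟨reflEl Q (u0 + d1) * reflEl Q d1,
      pair_mem_omega hh Q hQ _ _ hQa0 (hQd1.trans hQa.symm), i₀, d0, hd0, hQd0, ?_⟩
    rw [gd0]
    intro j hj
    have hj0 : j = i₀ := block_eq Q D horth hj hu0 (by
      intro h
      simp only [QuadraticMap.polar_add_left, QuadraticMap.polar_add_right, QuadraticMap.polar_sub_left, QuadraticMap.polar_sub_right, QuadraticMap.polar_neg_left, QuadraticMap.polar_neg_right, QuadraticMap.polar_smul_left, QuadraticMap.polar_smul_right, smul_eq_mul, pd0, pd1, pd2, pu0, pu1, pdu0, pdu1, pud0, pud1, z_d0_d1, z_d0_u1, z_u0_d1, z_u0_u1, z_d0_d2, z_u0_d2, z_d1_d0, z_d1_u0, z_u1_d0, z_u1_u0, z_d1_d2, z_u1_d2, z_d2_d0, z_d2_u0, z_d2_d1, z_d2_u1] at h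
      apply h1ne
      linear_combination h)
    have hj1 : j = i₁ := block_eq Q D horth hj hu1 (by
      intro h
      simp only [QuadraticMap.polar_add_left, QuadraticMap.polar_add_right, QuadraticMap.polar_sub_left, QuadraticMap.polar_sub_right, QuadraticMap.polar_neg_left, QuadraticMap.polar_neg_right, QuadraticMap.polar_smul_left, QuadraticMap.polar_smul_right, smul_eq_mul, pd0, pd1, pd2, pu0, pu1, pdu0, pdu1, pud0, pud1, z_d0_d1, z_d0_u1, z_u0_d1, z_u0_u1, z_d0_d2, z_u0_d2, z_d1_d0, z_d1_u0, z_u1_d0, z_u1_u0, z_d1_d2, z_u1_d2, z_d2_d0, z_d2_u0, z_d2_d1, z_d2_u1] at h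
      apply h1ne
      linear_combination (-1 : F) * h)
    exact h01 (hj0.symm.trans hj1)

end Cases

end Cfsg.Agent.Lib.helper19.DecompPlus
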