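import Mathlib
import Cfsg.Agent.Lib.helper19.DecompPlus

set_option autoImplicit false

/-!
# Decompositions into hyperbolic planes over the field with four elements
-/

namespace Cfsg.Agent.Lib.helper19.DecompPlus

open Cfsg.Agent.Lib.helper13 Cfsg.Agent.Lib.helper4

section Lattice

variable {F : Type*} [Field F] [Fintype F] {ι : Type} [Fintype ι] [DecidableEq ι]

/-- non-maximality via the additive group generated by the block vectors of norm `ε` -/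
theorem lattice_not_max (Q : QuadraticForm F (ι → F)) {t : ℕ}
    (D : Fin t → Submodule F (ι → F)) (ε : F)
    (hb : ∃ g : ↥(Cfsg.isometryGroup F ⇑Q), g ∈ Cfsg.Omega F ⇑Q ∧
      (∀ v ∈ AddSubgroup.closure {v : ι → F | ∃ i, v ∈ D i ∧ Q v = ε}, (mat Q g).mulVec v ∈ AddSubgroup.closure {v : ι → F | ∃ i, v ∈ D i ∧ Q v = ε}) ∧
      (Cfsg.isometryGroup F ⇑Q).subtype g ∉ Cfsg.Geo.decompositionStabilizer D)
    (hc : ∃ g : ↥(Cfsg.isometryGroup F ⇑Q), g ∈ Cfsg.Omega F ⇑Q ∧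
      ∃ v ∈ AddSubgroup.closure {v : ι → F | ∃ i, v ∈ D i ∧ Q v = ε}, (mat Q g).mulVec v ∉ AddSubgroup.closure {v : ι → F | ∃ i, v ∈ D i ∧ Q v = ε}) :
    ∃ K : Subgroup (Matrix.GeneralLinearGroup ι F),
      Cfsg.Geo.decompositionStabilizer D ⊓ Cfsg.Geo.omegaGL ⇑Q < K ∧
        K < Cfsg.Geo.omegaGL ⇑Q := by
  classical
  obtain ⟨L, hL⟩ : ∃ L : AddSubgroup (ι → F), L = AddSubgroup.closure {v : ι → F | ∃ i, v ∈ D i ∧ Q v = ε} := ⟨_, rfl⟩
  rw [← hL] at hb hc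
  have hmaps : ∀ g : ↥(Cfsg.isometryGroup F ⇑Q), (∀ v ∈ L, (mat Q g).mulVec v ∈ L) →
      (Cfsg.isometryGroup F ⇑Q).subtype g
        ∈ Cfsg.stabilizing (Cfsg.glToMat ι F) (L : Set (ι → F)) :=
    fun g hg => mem_stabilizing_of_maps _ _ hg
  refine ⟨Cfsg.stabilizing (Cfsg.glToMat ι F) (L : Set (ι → F)) ⊓ Cfsg.Geo.omegaGL ⇑Q, ?_, ?_⟩
  · rw [SetLike.lt_iff_le_and_exists]
    constructor
    · rintro g ⟨hgD, hgΩ⟩
      refine ⟨?_, hgΩ⟩
      obtain ⟨y, hyΩ, rfl⟩ := hgΩ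
      apply hmaps
      obtain ⟨σ, hσ⟩ := stab_maps Q D y hgD
      intro v hv
      rw [hL] at hv ⊢
      refine AddSubgroup.closure_induction
        (p := fun x _ => (mat Q y).mulVec x ∈ AddSubgroup.closure {v : ι → F | ∃ i, v ∈ D i ∧ Q v = ε}) ?_ ?_ ?_ ?_ hv
      · intro x hx
        obtain ⟨i, hxi, hQx⟩ := hx
        exact AddSubgroup.subset_closure
          ⟨σ i, hσ i x hxi, by rw [← hQx]; exact isom_pres Q y x⟩
      · rw [Matrix.mulVec_zero]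
        exact AddSubgroup.zero_mem _
      · intro x z _ _ hx hz
        rw [Matrix.mulVec_add]
        exact AddSubgroup.add_mem _ hx hz
      · intro x _ hx
        rw [Matrix.mulVec_neg]
        exact AddSubgroup.neg_mem _ hx
    · obtain ⟨g, hgΩ, hgL, hgD⟩ := hb
      exact ⟨_, ⟨hmaps g hgL, ⟨g, hgΩ, rfl⟩⟩, fun h => hgD h.1⟩
  · rw [SetLike.lt_iff_le_and_exists]
    refine ⟨inf_le_right, ?_⟩
    obtain ⟨g, hgΩ, v, hv, hgv⟩ := hc
    refine ⟨_, ⟨g, hgΩ, rfl⟩, ?_⟩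
    rintro ⟨hst, -⟩
    exact hgv ((hst v).mp hv)

omit [Fintype ι] [DecidableEq ι] in
/-- the norm-one vectors of a hyperbolic plane over the field with four elements -/
lemma s_of_hyp4 (hq : Fintype.card F = 4) (h2 : (2 : F) = 0) (ω : F) (hω3 : ω ^ 3 = 1)
    (hωq : ω ^ 2 + ω + 1 = 0) (Q : QuadraticForm F (ι → F))
    (X : Submodule F (ι → F)) (u w : ι → F) (hu : u ∈ X) (hw : w ∈ X) (hQu : Q u = 0)
    (hQw : Q w = 0) (huw : QuadraticMap.polar (⇑Q) u w = 1)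
    (hsp : ∀ v ∈ X, ∃ x y : F, v = x • u + y • w) :
    ∃ s s' : ι → F, s ∈ X ∧ s' ∈ X ∧ Q s = 1 ∧ Q s' = 1 ∧ QuadraticMap.polar (⇑Q) s s' = 1 ∧
      ∀ v ∈ X, ∀ v' ∈ X, Q v = 1 → Q v' = 1 →
        QuadraticMap.polar (⇑Q) v v' = 0 ∨ QuadraticMap.polar (⇑Q) v v' = 1 := by
  have puu : QuadraticMap.polar (⇑Q) u u = 0 := by rw [polar_self_eq, hQu, mul_zero]
  have pww : QuadraticMap.polar (⇑Q) w w = 0 := by rw [polar_self_eq, hQw, mul_zero]
  have pwu : QuadraticMap.polar (⇑Q) w u = 1 := by rw [QuadraticMap.polar_comm, huw]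
  refine ⟨u + w, ω • u + (ω ^ 2) • w, X.add_mem hu hw,
    X.add_mem (X.smul_mem _ hu) (X.smul_mem _ hw), ?_, ?_, ?_, ?_⟩
  · have h := Q_pair Q u w hQu hQw huw 1 1
    rw [one_smul, one_smul, mul_one] at h
    exact h
  · rw [Q_pair Q u w hQu hQw huw]
    linear_combination hω3
  · simp only [QuadraticMap.polar_add_left, QuadraticMap.polar_add_right, QuadraticMap.polar_sub_left, QuadraticMap.polar_sub_right, QuadraticMap.polar_neg_left, QuadraticMap.polar_neg_right, QuadraticMap.polar_smul_left, QuadraticMap.polar_smul_right, smul_eq_mul, puu, pww, huw, pwu]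
    linear_combination hωq - h2
  · intro v hv v' hv' hQv hQv'
    obtain ⟨x, y, rfl⟩ := hsp v hv
    obtain ⟨x', y', rfl⟩ := hsp v' hv'
    rw [Q_pair Q u w hQu hQw huw] at hQv hQv'
    have hpol : QuadraticMap.polar (⇑Q) (x • u + y • w) (x' • u + y' • w) = x * y' + y * x' := by
      simp only [QuadraticMap.polar_add_left, QuadraticMap.polar_add_right, QuadraticMap.polar_sub_left, QuadraticMap.polar_sub_right, QuadraticMap.polar_neg_left, QuadraticMap.polar_neg_right, QuadraticMap.polar_smul_left, QuadraticMap.polar_smul_right, smul_eq_mul, puu, pww, huw, pwu]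
      ring
    rw [hpol]
    have hc0 : x * y' ≠ 0 := by
      intro h
      rcases mul_eq_zero.mp h with h | h
      · rw [h, zero_mul] at hQv
        exact zero_ne_one hQv
      · rw [h, mul_zero] at hQv'
        exact zero_ne_one hQv'
    have hc3 : (x * y') ^ 3 = 1 := by
      have h := FiniteField.pow_card_sub_one_eq_one (x * y') hc0
      rw [hq] at h
      exact h
    have hc' : y * x' = (x * y') ^ 2 := by
      linear_combination (-(y * x')) * hc3 + (x * y') ^ 2 * ((x' * y') * hQv + hQv')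
    have hfac : (x * y' - 1) * ((x * y') ^ 2 + x * y' + 1) = 0 := by
      linear_combination hc3
    rcases mul_eq_zero.mp hfac with h | h
    · left
      have hc1 : x * y' = 1 := by linear_combination h
      rw [hc', hc1]
      linear_combination h2
    · right
      rw [hc']
      linear_combination h - h2

/-- decompositions into hyperbolic planes over the field with four elements -/
theorem plus2_q4 (hq : Fintype.card F = 4)
    (hh : Fintype.card F ≠ 2 ∨ Fintype.card ι ≠ 4)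
    (Q : QuadraticForm F (ι → F)) (hQ : (QuadraticMap.polarBilin Q).Nondegenerate) {t : ℕ}
    (D : Fin t → Submodule F (ι → F))
    (hD : Cfsg.Geo.IsOrthogonalMDecomposition ⇑Q 2 D) (ht3 : 3 ≤ t)
    (hyp : ∀ j, ∃ u w : ι → F, u ∈ D j ∧ w ∈ D j ∧ Q u = 0 ∧ Q w = 0 ∧
      QuadraticMap.polar (⇑Q) u w = 1 ∧ ∀ v ∈ D j, ∃ x y : F, v = x • u + y • w) :
    ∃ K : Subgroup (Matrix.GeneralLinearGroup ι F),
      Cfsg.Geo.decompositionStabilizer D ⊓ Cfsg.Geo.omegaGL ⇑Q < K ∧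
        K < Cfsg.Geo.omegaGL ⇑Q := by
  classical
  obtain ⟨i₀, hi₀⟩ : ∃ i₀ : Fin t, i₀ = ⟨0, by omega⟩ := ⟨_, rfl⟩
  obtain ⟨i₁, hi₁⟩ : ∃ i₁ : Fin t, i₁ = ⟨1, by omega⟩ := ⟨_, rfl⟩
  obtain ⟨i₂, hi₂⟩ : ∃ i₂ : Fin t, i₂ = ⟨2, by omega⟩ := ⟨_, rfl⟩
  have h01 : i₀ ≠ i₁ := by
    rw [hi₀, hi₁]
    intro h
    simp [Fin.ext_iff] at h
  have h02 : i₀ ≠ i₂ := by
    rw [hi₀, hi₂]
    intro h
    simp [Fin.ext_iff] at h
  have h12 : i₁ ≠ i₂ := by
    rw [hi₁, hi₂]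
    intro h
    simp [Fin.ext_iff] at h
  have horth := hD.decomp.orthogonal
  have h2 : (2 : F) = 0 := by
    have h := Nat.cast_card_eq_zero F
    rw [hq] at h
    have h4 : (4 : F) = 0 := by exact_mod_cast h
    have h22 : (2 : F) * 2 = 0 := by linear_combination h4
    exact mul_self_eq_zero.mp h22
  have h1ne : (1 : F) ≠ 0 := one_ne_zero
  obtain ⟨ω, hω0, hω1, hω3, hωq⟩ : ∃ ω : F, ω ≠ 0 ∧ ω ≠ 1 ∧ ω ^ 3 = 1 ∧ ω ^ 2 + ω + 1 = 0 := by
    have hex : ∃ x : F, x ≠ 0 ∧ x ≠ 1 := by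
      by_contra hne
      push Not at hne
      have hsub : (Finset.univ : Finset F) ⊆ {0, 1} := by
        intro x _
        by_cases hx : x = 0
        · simp [hx]
        · simp [hne x hx]
      have h1 := Finset.card_le_card hsub
      rw [Finset.card_univ, hq] at h1
      have h3 := Finset.card_le_two (a := (0 : F)) (b := 1)
      omega
    obtain ⟨x, hx0, hx1⟩ := hex
    have hx3 : x ^ 3 = 1 := by
      have h := FiniteField.pow_card_sub_one_eq_one x hx0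
      rw [hq] at h
      exact h
    have hfac : (x - 1) * (x ^ 2 + x + 1) = 0 := by linear_combination hx3
    rcases mul_eq_zero.mp hfac with h | h
    · exact absurd (by linear_combination h) hx1
    · exact ⟨x, hx0, hx1, hx3, h⟩
  have blk : ∀ j, ∃ s s' : ι → F, s ∈ D j ∧ s' ∈ D j ∧ Q s = 1 ∧ Q s' = 1 ∧
      QuadraticMap.polar (⇑Q) s s' = 1 ∧
      ∀ v ∈ D j, ∀ v' ∈ D j, Q v = 1 → Q v' = 1 →
        QuadraticMap.polar (⇑Q) v v' = 0 ∨ QuadraticMap.polar (⇑Q) v v' = 1 := by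
    intro j
    obtain ⟨u, w, hu, hw, hQu, hQw, huw, H⟩ := hyp j
    exact s_of_hyp4 hq h2 ω hω3 hωq Q (D j) u w hu hw hQu hQw huw H
  obtain ⟨s0, t0, hs0, ht0, hQs0, hQt0, pst0, -⟩ := blk i₀
  obtain ⟨s1, t1, hs1, ht1, hQs1, hQt1, pst1, -⟩ := blk i₁
  obtain ⟨s2, t2, hs2, ht2, hQs2, hQt2, pst2, -⟩ := blk i₂
  have pss0 : QuadraticMap.polar (⇑Q) s0 s0 = 0 := by rw [polar_self_eq, hQs0, mul_one]; exact h2
  have ptt0 : QuadraticMap.polar (⇑Q) t0 t0 = 0 := by rw [polar_self_eq, hQt0, mul_one]; exact h2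
  have pts0 : QuadraticMap.polar (⇑Q) t0 s0 = 1 := by rw [QuadraticMap.polar_comm, pst0]
  have pss1 : QuadraticMap.polar (⇑Q) s1 s1 = 0 := by rw [polar_self_eq, hQs1, mul_one]; exact h2
  have ptt1 : QuadraticMap.polar (⇑Q) t1 t1 = 0 := by rw [polar_self_eq, hQt1, mul_one]; exact h2
  have pts1 : QuadraticMap.polar (⇑Q) t1 s1 = 1 := by rw [QuadraticMap.polar_comm, pst1]
  have pss2 : QuadraticMap.polar (⇑Q) s2 s2 = 0 := by rw [polar_self_eq, hQs2, mul_one]; exact h2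
  have ptt2 : QuadraticMap.polar (⇑Q) t2 t2 = 0 := by rw [polar_self_eq, hQt2, mul_one]; exact h2
  have pts2 : QuadraticMap.polar (⇑Q) t2 s2 = 1 := by rw [QuadraticMap.polar_comm, pst2]
  have z_s0_s1 := horth i₀ i₁ h01 s0 hs0 s1 hs1
  have z_s0_t1 := horth i₀ i₁ h01 s0 hs0 t1 ht1
  have z_t0_s1 := horth i₀ i₁ h01 t0 ht0 s1 hs1
  have z_t0_t1 := horth i₀ i₁ h01 t0 ht0 t1 ht1
  have z_s0_s2 := horth i₀ i₂ h02 s0 hs0 s2 hs2
  have z_s0_t2 := horth i₀ i₂ h02 s0 hs0 t2 ht2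
  have z_t0_s2 := horth i₀ i₂ h02 t0 ht0 s2 hs2
  have z_t0_t2 := horth i₀ i₂ h02 t0 ht0 t2 ht2
  have z_s1_s0 := horth i₁ i₀ h01.symm s1 hs1 s0 hs0
  have z_s1_t0 := horth i₁ i₀ h01.symm s1 hs1 t0 ht0
  have z_t1_s0 := horth i₁ i₀ h01.symm t1 ht1 s0 hs0
  have z_t1_t0 := horth i₁ i₀ h01.symm t1 ht1 t0 ht0
  have z_s1_s2 := horth i₁ i₂ h12 s1 hs1 s2 hs2
  have z_s1_t2 := horth i₁ i₂ h12 s1 hs1 t2 ht2
  have z_t1_s2 := horth i₁ i₂ h12 t1 ht1 s2 hs2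
  have z_t1_t2 := horth i₁ i₂ h12 t1 ht1 t2 ht2
  have z_s2_s0 := horth i₂ i₀ h02.symm s2 hs2 s0 hs0
  have z_s2_t0 := horth i₂ i₀ h02.symm s2 hs2 t0 ht0
  have z_t2_s0 := horth i₂ i₀ h02.symm t2 ht2 s0 hs0
  have z_t2_t0 := horth i₂ i₀ h02.symm t2 ht2 t0 ht0
  have z_s2_s1 := horth i₂ i₁ h12.symm s2 hs2 s1 hs1
  have z_s2_t1 := horth i₂ i₁ h12.symm s2 hs2 t1 ht1
  have z_t2_s1 := horth i₂ i₁ h12.symm t2 ht2 s1 hs1
  have z_t2_t1 := horth i₂ i₁ h12.symm t2 ht2 t1 ht1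
  have f2add : ∀ x y : F, (x = 0 ∨ x = 1) → (y = 0 ∨ y = 1) → (x + y = 0 ∨ x + y = 1) := by
    intro x y hx hy
    rcases hx with rfl | rfl <;> rcases hy with rfl | rfl
    · left; ring
    · right; ring
    · right; ring
    · left; linear_combination h2
  have hT : ∀ x ∈ AddSubgroup.closure {v : ι → F | ∃ i, v ∈ D i ∧ Q v = 1}, ∀ s : ι → F, (∃ i, s ∈ D i ∧ Q s = 1) →
      (QuadraticMap.polar (⇑Q) s x = 0 ∨ QuadraticMap.polar (⇑Q) s x = 1) := by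
    intro x hx s hs
    obtain ⟨i, hsi, hQs⟩ := hs
    refine AddSubgroup.closure_induction
      (p := fun x _ => QuadraticMap.polar (⇑Q) s x = 0 ∨ QuadraticMap.polar (⇑Q) s x = 1)
      ?_ ?_ ?_ ?_ hx
    · intro z hz
      obtain ⟨j, hzj, hQz⟩ := hz
      by_cases hij : i = j
      · subst hij
        obtain ⟨_, _, _, _, _, _, _, hb⟩ := blk i
        exact hb s hsi z hzj hQs hQz
      · exact Or.inl (horth i j hij s hsi z hzj)
    · left
      exact QuadraticMap.polar_zero_right _ _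
    · intro z z' _ _ hz hz'
      rw [QuadraticMap.polar_add_right]
      exact f2add _ _ hz hz'
    · intro z _ hz
      rw [QuadraticMap.polar_neg_right]
      rcases hz with hz | hz
      · left; rw [hz, neg_zero]
      · right; rw [hz]; linear_combination (-1 : F) * h2
  have hr : ∀ c : ι → F, c ∈ AddSubgroup.closure {v : ι → F | ∃ i, v ∈ D i ∧ Q v = 1} → Q c = 1 →
      (∀ x ∈ AddSubgroup.closure {v : ι → F | ∃ i, v ∈ D i ∧ Q v = 1}, QuadraticMap.polar (⇑Q) c x = 0 ∨ QuadraticMap.polar (⇑Q) c x = 1) →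
      ∀ x ∈ AddSubgroup.closure {v : ι → F | ∃ i, v ∈ D i ∧ Q v = 1}, rf Q c x ∈ AddSubgroup.closure {v : ι → F | ∃ i, v ∈ D i ∧ Q v = 1} := by
    intro c hc hQc hcx x hx
    rw [rf_one Q c x hQc]
    rcases hcx x hx with h | h
    · rw [h, zero_smul, sub_zero]
      exact hx
    · rw [h, one_smul]
      exact AddSubgroup.sub_mem _ hx hc
  have mS0 : s0 ∈ AddSubgroup.closure {v : ι → F | ∃ i, v ∈ D i ∧ Q v = 1} := AddSubgroup.subset_closure ⟨i₀, hs0, hQs0⟩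
  have mS1 : s1 ∈ AddSubgroup.closure {v : ι → F | ∃ i, v ∈ D i ∧ Q v = 1} := AddSubgroup.subset_closure ⟨i₁, hs1, hQs1⟩
  have mS2 : s2 ∈ AddSubgroup.closure {v : ι → F | ∃ i, v ∈ D i ∧ Q v = 1} := AddSubgroup.subset_closure ⟨i₂, hs2, hQs2⟩
  have mT0 : t0 ∈ AddSubgroup.closure {v : ι → F | ∃ i, v ∈ D i ∧ Q v = 1} := AddSubgroup.subset_closure ⟨i₀, ht0, hQt0⟩
  apply lattice_not_max Q D 1
  · have hQa : Q (s0 + s1 + s2) = 1 := by
      rw [Q_add, Q_add, hQs0, hQs1, hQs2]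
      simp only [QuadraticMap.polar_add_left, QuadraticMap.polar_add_right, QuadraticMap.polar_sub_left, QuadraticMap.polar_sub_right, QuadraticMap.polar_neg_left, QuadraticMap.polar_neg_right, QuadraticMap.polar_smul_left, QuadraticMap.polar_smul_right, smul_eq_mul, z_s0_s1, z_s0_t1, z_t0_s1, z_t0_t1, z_s0_s2, z_s0_t2, z_t0_s2, z_t0_t2, z_s1_s0, z_s1_t0, z_t1_s0, z_t1_t0, z_s1_s2, z_s1_t2, z_t1_s2, z_t1_t2, z_s2_s0, z_s2_t0, z_t2_s0, z_t2_t0, z_s2_s1, z_s2_t1, z_t2_s1, z_t2_t1, pss0, ptt0, pts0, pst0, pss1, ptt1, pts1, pst1, pss2, ptt2, pts2, pst2]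
      linear_combination h2
    have hQa0 : Q (s0 + s1 + s2) ≠ 0 := by rw [hQa]; exact h1ne
    have hQb0 : Q s1 ≠ 0 := by rw [hQs1]; exact h1ne
    have hg : ∀ x, (mat Q (reflEl Q (s0 + s1 + s2) * reflEl Q s1)).mulVec x
        = rf Q (s0 + s1 + s2) (rf Q s1 x) := mat_refl2 Q _ _ hQa0 hQb0
    have gt0 : (mat Q (reflEl Q (s0 + s1 + s2) * reflEl Q s1)).mulVec t0 = t0 - (s0 + s1 + s2) := by
      rw [hg, rf_orth Q s1 t0 z_s1_t0, rf_one Q _ _ hQa]
      simp only [QuadraticMap.polar_add_left, QuadraticMap.polar_add_right, QuadraticMap.polar_sub_left, QuadraticMap.polar_sub_right, QuadraticMap.polar_neg_left, QuadraticMap.polar_neg_right, QuadraticMap.polar_smul_left, QuadraticMap.polar_smul_right, smul_eq_mul, z_s0_s1, z_s0_t1, z_t0_s1, z_t0_t1, z_s0_s2, z_s0_t2, z_t0_s2, z_t0_t2, z_s1_s0, z_s1_t0, z_t1_s0, z_t1_t0, z_s1_s2, z_s1_t2, z_t1_s2, z_t1_t2, z_s2_s0, z_s2_t0, z_t2_s0, z_t2_t0, z_s2_s1,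 z_s2_t1, z_t2_s1, z_t2_t1, pss0, ptt0, pts0, pst0, pss1, ptt1, pts1, pst1, pss2, ptt2, pts2, pst2]
      funext i
      simp only [Pi.add_apply, Pi.sub_apply, Pi.smul_apply, Pi.neg_apply, smul_eq_mul]
      ring
    refine ⟨reflEl Q (s0 + s1 + s2) * reflEl Q s1,
      pair_mem_omega hh Q hQ _ _ hQa0 (hQs1.trans hQa.symm), ?_, ?_⟩
    · intro v hv
      rw [hg]
      apply hr (s0 + s1 + s2) (AddSubgroup.add_mem _ (AddSubgroup.add_mem _ mS0 mS1) mS2) hQa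
      · intro x hx
        rw [QuadraticMap.polar_add_left, QuadraticMap.polar_add_left]
        exact f2add _ _ (f2add _ _ (hT x hx s0 ⟨i₀, hs0, hQs0⟩) (hT x hx s1 ⟨i₁, hs1, hQs1⟩))
          (hT x hx s2 ⟨i₂, hs2, hQs2⟩)
      · exact hr s1 mS1 hQs1 (fun x hx => hT x hx s1 ⟨i₁, hs1, hQs1⟩) v hv
    · intro hmem
      obtain ⟨σ, hσ⟩ := stab_maps Q D _ hmem
      have h5' := hσ i₀ t0 ht0
      rw [gt0] at h5'
      have hσ1 : σ i₀ = i₁ := block_eq Q D horth h5' ht1 (by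
        intro h
        simp only [QuadraticMap.polar_add_left, QuadraticMap.polar_add_right, QuadraticMap.polar_sub_left, QuadraticMap.polar_sub_right, QuadraticMap.polar_neg_left, QuadraticMap.polar_neg_right, QuadraticMap.polar_smul_left, QuadraticMap.polar_smul_right, smul_eq_mul, z_s0_s1, z_s0_t1, z_t0_s1, z_t0_t1, z_s0_s2, z_s0_t2, z_t0_s2, z_t0_t2, z_s1_s0, z_s1_t0, z_t1_s0, z_t1_t0, z_s1_s2, z_s1_t2, z_t1_s2, z_t1_t2, z_s2_s0, z_s2_t0, z_t2_s0, z_t2_t0, z_s2_s1, z_s2_t1, z_t2_s1, z_t2_t1, pss0, ptt0, pts0, pst0, pss1, ptt1, pts1, pst1, pss2, ptt2, pts2, pst2] at h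
        apply h1ne
        linear_combination (-1 : F) * h)
      have hσ2 : σ i₀ = i₂ := block_eq Q D horth h5' ht2 (by
        intro h
        simp only [QuadraticMap.polar_add_left, QuadraticMap.polar_add_right, QuadraticMap.polar_sub_left, QuadraticMap.polar_sub_right, QuadraticMap.polar_neg_left, QuadraticMap.polar_neg_right, QuadraticMap.polar_smul_left, QuadraticMap.polar_smul_right, smul_eq_mul, z_s0_s1, z_s0_t1, z_t0_s1, z_t0_t1, z_s0_s2, z_s0_t2, z_t0_s2, z_t0_t2, z_s1_s0, z_s1_t0, z_t1_s0, z_t1_t0, z_s1_s2, z_s1_t2, z_t1_s2, z_t1_t2, z_s2_s0, z_s2_t0, z_t2_s0, z_t2_t0, z_s2_s1, z_s2_t1, z_t2_s1, z_t2_t1, pss0, ptt0, pts0, pst0, pss1, ptt1, pts1, pst1, pss2, ptt2, pts2, pst2] at h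
        apply h1ne
        linear_combination (-1 : F) * h)
      exact h12 (hσ1.symm.trans hσ2)
  · have hQa : Q (ω • s0 + s1) = ω := by
      rw [Q_add, QuadraticMap.map_smul, hQs0, hQs1]
      simp only [QuadraticMap.polar_add_left, QuadraticMap.polar_add_right, QuadraticMap.polar_sub_left, QuadraticMap.polar_sub_right, QuadraticMap.polar_neg_left, QuadraticMap.polar_neg_right, QuadraticMap.polar_smul_left, QuadraticMap.polar_smul_right, smul_eq_mul, z_s0_s1, z_s0_t1, z_t0_s1, z_t0_t1, z_s0_s2, z_s0_t2, z_t0_s2, z_t0_t2, z_s1_s0, z_s1_t0, z_t1_s0, z_t1_t0, z_s1_s2, z_s1_t2, z_t1_s2, z_t1_t2, z_s2_s0, z_s2_t0, z_t2_s0, z_t2_t0, z_s2_s1, z_s2_t1, z_t2_s1, z_t2_t1, pss0, ptt0, pts0, pst0, pss1, ptt1, pts1, pst1, pss2, ptt2, pts2, pst2]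
      linear_combination hωq - ω * h2
    have hQb : Q ((ω ^ 2) • s2) = ω := by
      rw [QuadraticMap.map_smul, hQs2]
      simp only [smul_eq_mul]
      linear_combination ω * hω3
    have hQa0 : Q (ω • s0 + s1) ≠ 0 := by rw [hQa]; exact hω0
    have hQb0 : Q ((ω ^ 2) • s2) ≠ 0 := by rw [hQb]; exact hω0
    have hg : ∀ x, (mat Q (reflEl Q (ω • s0 + s1) * reflEl Q ((ω ^ 2) • s2))).mulVec x
        = rf Q (ω • s0 + s1) (rf Q ((ω ^ 2) • s2) x) := mat_refl2 Q _ _ hQa0 hQb0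
    have gt0 : (mat Q (reflEl Q (ω • s0 + s1) * reflEl Q ((ω ^ 2) • s2))).mulVec t0 = t0 - (ω ^ 2 * ω) • (ω • s0 + s1) := by
      rw [hg, rf_orth Q _ t0 (by simp only [QuadraticMap.polar_add_left, QuadraticMap.polar_add_right, QuadraticMap.polar_sub_left, QuadraticMap.polar_sub_right, QuadraticMap.polar_neg_left, QuadraticMap.polar_neg_right, QuadraticMap.polar_smul_left, QuadraticMap.polar_smul_right, smul_eq_mul, z_s0_s1, z_s0_t1, z_t0_s1, z_t0_t1, z_s0_s2, z_s0_t2, z_t0_s2, z_t0_t2, z_s1_s0, z_s1_t0, z_t1_s0, z_t1_t0, z_s1_s2, z_s1_t2, z_t1_s2, z_t1_t2, z_s2_s0, z_s2_t0, z_t2_s0, z_t2_t0, z_s2_s1, z_s2_t1, z_t2_s1, z_t2_t1, pss0, ptt0, pts0, pst0, pss1, ptt1, pts1, pst1, pss2, ptt2, pts2, pst2] <;> ring),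
        rf_inv Q _ _ (ω ^ 2) (by rw [hQa]; linear_combination hω3)]
      simp only [QuadraticMap.polar_add_left, QuadraticMap.polar_add_right, QuadraticMap.polar_sub_left, QuadraticMap.polar_sub_right, QuadraticMap.polar_neg_left, QuadraticMap.polar_neg_right, QuadraticMap.polar_smul_left, QuadraticMap.polar_smul_right, smul_eq_mul, z_s0_s1, z_s0_t1, z_t0_s1, z_t0_t1, z_s0_s2, z_s0_t2, z_t0_s2, z_t0_t2, z_s1_s0, z_s1_t0, z_t1_s0, z_t1_t0, z_s1_s2, z_s1_t2, z_t1_s2, z_t1_t2, z_s2_s0, z_s2_t0, z_t2_s0, z_t2_t0, z_s2_s1, z_s2_t1, z_t2_s1, z_t2_t1, pss0, ptt0, pts0, pst0, pss1, ptt1, pts1, pst1, pss2, ptt2, pts2, pst2]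
      funext i
      simp only [Pi.add_apply, Pi.sub_apply, Pi.smul_apply, Pi.neg_apply, smul_eq_mul]
      ring
    refine ⟨reflEl Q (ω • s0 + s1) * reflEl Q ((ω ^ 2) • s2),
      pair_mem_omega hh Q hQ _ _ hQa0 (hQb.trans hQa.symm), t0, mT0, ?_⟩
    rw [gt0]
    intro hmem
    have h := hT _ hmem t0 ⟨i₀, ht0, hQt0⟩
    simp only [QuadraticMap.polar_add_left, QuadraticMap.polar_add_right, QuadraticMap.polar_sub_left, QuadraticMap.polar_sub_right, QuadraticMap.polar_neg_left, QuadraticMap.polar_neg_right, QuadraticMap.polar_smul_left, QuadraticMap.polar_smul_right, smul_eq_mul, z_s0_s1, z_s0_t1, z_t0_s1, z_t0_t1, z_s0_s2, z_s0_t2, z_t0_s2, z_t0_t2, z_s1_s0, z_s1_t0, z_t1_s0, z_t1_t0, z_s1_s2, z_s1_t2, z_t1_s2, z_t1_t2, z_s2_s0, z_s2_t0, z_t2_s0, z_t2_t0, z_s2_s1, z_s2_t1, z_t2_s1, z_t2_t1, pss0, ptt0, pts0, pst0, pss1, ptt1, pts1, pst1, pss2, ptt2, pts2, pst2] at h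
    rcases h with h | h
    · apply hω0
      linear_combination (-1 : F) * h - ω * hω3
    · apply hω1
      linear_combination (-1 : F) * h - ω * hω3 - h2

end Lattice

end Cfsg.Agent.Lib.helper19.DecompPlus
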