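import Mathlib
import Cfsg.Agent.Lib.helper19.DecompPlus

set_option autoImplicit false

/-!
# Decompositions into hyperbolic 4-spaces over the field with two elements
-/

namespace Cfsg.Agent.Lib.helper19.DecompPlus

open Cfsg.Agent.Lib.helper13 Cfsg.Agent.Lib.helper4

section K4

variable {F : Type*} [Field F] [Fintype F] {ι : Type} [Fintype ι] [DecidableEq ι]

omit [Fintype F] [Fintype ι] [DecidableEq ι] in
lemma dual_vec (h01 : ∀ z : F, z = 0 ∨ z = 1) (h2 : (2 : F) = 0)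
    (Q : QuadraticForm F (ι → F)) (X : Submodule F (ι → F))
    (hX : Cfsg.Geo.IsNondegenerateOn (QuadraticMap.polar ⇑Q) X) (u1 u2 : ι → F)
    (hu1 : u1 ∈ X) (hu2 : u2 ∈ X) (h1 : u1 ≠ 0) (h12 : u1 + u2 ≠ 0) :
    ∃ w ∈ X, QuadraticMap.polar (⇑Q) w u1 = 1 ∧ QuadraticMap.polar (⇑Q) w u2 = 0 := by
  obtain ⟨⟨x, hxX, hx⟩, -⟩ := hX u1 hu1 h1
  have hx1 : QuadraticMap.polar (⇑Q) x u1 = 1 := by
    rcases h01 (QuadraticMap.polar (⇑Q) x u1) with h | h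
    · exact absurd h hx
    · exact h
  rcases h01 (QuadraticMap.polar (⇑Q) x u2) with hx2 | hx2
  · exact ⟨x, hxX, hx1, hx2⟩
  · obtain ⟨⟨z, hzX, hz⟩, -⟩ := hX (u1 + u2) (X.add_mem hu1 hu2) h12
    rw [QuadraticMap.polar_add_right] at hz
    rcases h01 (QuadraticMap.polar (⇑Q) z u1) with hz1 | hz1
    · have hz2 : QuadraticMap.polar (⇑Q) z u2 = 1 := by
        rcases h01 (QuadraticMap.polar (⇑Q) z u2) with h | h
        · exfalso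
          apply hz
          rw [hz1, h, add_zero]
        · exact h
      refine ⟨x + z, X.add_mem hxX hzX, ?_, ?_⟩
      · rw [QuadraticMap.polar_add_left, hx1, hz1, add_zero]
      · rw [QuadraticMap.polar_add_left, hx2, hz2]
        linear_combination h2
    · rcases h01 (QuadraticMap.polar (⇑Q) z u2) with hz2 | hz2
      · exact ⟨z, hzX, hz1, hz2⟩
      · exfalso
        apply hz
        rw [hz1, hz2]
        linear_combination h2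

omit [DecidableEq ι] in
/-- a basis of a hyperbolic 4-space over the field with two elements adapted to its two
anisotropic planes -/
lemma block4_basis (hq : Fintype.card F = 2) (Q : QuadraticForm F (ι → F))
    (X : Submodule F (ι → F)) (hdim : Module.finrank F X = 4)
    (hX : Cfsg.Geo.IsNondegenerateOn (QuadraticMap.polar ⇑Q) X)
    (hplus : Cfsg.Geo.IsPlusTypeOn ⇑Q X) :
    ∃ a1 a2 b1 b2 : ι → F, a1 ∈ X ∧ a2 ∈ X ∧ b1 ∈ X ∧ b2 ∈ X ∧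
      Q a1 = 1 ∧ Q a2 = 1 ∧ Q b1 = 1 ∧ Q b2 = 1 ∧
      QuadraticMap.polar (⇑Q) a1 a2 = 1 ∧ QuadraticMap.polar (⇑Q) b1 b2 = 1 ∧
      QuadraticMap.polar (⇑Q) a1 b1 = 0 ∧ QuadraticMap.polar (⇑Q) a1 b2 = 0 ∧
      QuadraticMap.polar (⇑Q) a2 b1 = 0 ∧ QuadraticMap.polar (⇑Q) a2 b2 = 0 ∧
      ∀ v ∈ X, ∃ x1 x2 y1 y2 : F, v = x1 • a1 + x2 • a2 + y1 • b1 + y2 • b2 := by
  have h2 : (2 : F) = 0 := by
    have h := Nat.cast_card_eq_zero F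
    rw [hq] at h
    exact_mod_cast h
  have h01 : ∀ z : F, z = 0 ∨ z = 1 := by
    intro z
    have h := FiniteField.pow_card z
    rw [hq] at h
    have h' : z * (z - 1) = 0 := by linear_combination h
    rcases mul_eq_zero.mp h' with h | h
    · exact Or.inl h
    · exact Or.inr (by linear_combination h)
  obtain ⟨U, hUX, hUts, hUdim⟩ := hplus
  have hU2 : Module.finrank F U = 2 := by omega
  obtain ⟨⟨u1, hu1U⟩, hu1'⟩ :=
    Module.finrank_pos_iff_exists_ne_zero.mp (by omega : 0 < Module.finrank F U)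
  have hu10 : u1 ≠ 0 := fun h => hu1' (Subtype.ext h)
  obtain ⟨u2, hu2U, hu2n⟩ : ∃ u2 ∈ U, u2 ∉ Submodule.span F {u1} := by
    by_contra hne
    push Not at hne
    have hle : U ≤ Submodule.span F {u1} := fun x hx => hne x hx
    have h1 := Submodule.finrank_mono hle
    rw [finrank_span_singleton hu10, hU2] at h1
    omega
  have hu20 : u2 ≠ 0 := by
    rintro rfl
    exact hu2n (Submodule.zero_mem _)
  have hu12 : u1 + u2 ≠ 0 := by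
    intro h
    apply hu2n
    have h3 : u2 = (-1 : F) • u1 := by
      rw [neg_one_smul]
      exact eq_neg_of_add_eq_zero_right h
    rw [h3]
    exact Submodule.smul_mem _ _ (Submodule.mem_span_singleton_self u1)
  have hu1X := hUX hu1U
  have hu2X := hUX hu2U
  have hQu1 : Q u1 = 0 := hUts u1 hu1U
  have hQu2 : Q u2 = 0 := hUts u2 hu2U
  have p12 : QuadraticMap.polar (⇑Q) u1 u2 = 0 := by
    have h := hUts (u1 + u2) (U.add_mem hu1U hu2U)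
    rw [Q_add, hQu1, hQu2, zero_add, zero_add] at h
    exact h
  have p21 : QuadraticMap.polar (⇑Q) u2 u1 = 0 := by rw [QuadraticMap.polar_comm, p12]
  have p11 : QuadraticMap.polar (⇑Q) u1 u1 = 0 := by rw [polar_self_eq, hQu1, mul_zero]
  have p22 : QuadraticMap.polar (⇑Q) u2 u2 = 0 := by rw [polar_self_eq, hQu2, mul_zero]
  obtain ⟨w1₀, hw1X, hw11, hw12⟩ := dual_vec h01 h2 Q X hX u1 u2 hu1X hu2X hu10 hu12
  obtain ⟨w2₀, hw2X, hw22, hw21⟩ :=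
    dual_vec h01 h2 Q X hX u2 u1 hu2X hu1X hu20 (by rw [add_comm]; exact hu12)
  obtain ⟨w1, hw1⟩ : ∃ w1, w1 = w1₀ - Q w1₀ • u1 := ⟨_, rfl⟩
  have hw1X' : w1 ∈ X := by rw [hw1]; exact X.sub_mem hw1X (X.smul_mem _ hu1X)
  have hQw1 : Q w1 = 0 := by
    rw [hw1, Q_sub, QuadraticMap.map_smul, hQu1, QuadraticMap.polar_smul_right, hw11]
    simp only [smul_eq_mul]
    ring
  have q11 : QuadraticMap.polar (⇑Q) w1 u1 = 1 := by
    rw [hw1, QuadraticMap.polar_sub_left, QuadraticMap.polar_smul_left, p11, hw11]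
    simp
  have q12 : QuadraticMap.polar (⇑Q) w1 u2 = 0 := by
    rw [hw1, QuadraticMap.polar_sub_left, QuadraticMap.polar_smul_left, p12, hw12]
    simp
  have q11' : QuadraticMap.polar (⇑Q) u1 w1 = 1 := by rw [QuadraticMap.polar_comm, q11]
  have q12' : QuadraticMap.polar (⇑Q) u2 w1 = 0 := by rw [QuadraticMap.polar_comm, q12]
  obtain ⟨w2', hw2'⟩ : ∃ w2', w2' = w2₀ - QuadraticMap.polar (⇑Q) w2₀ w1 • u1 := ⟨_, rfl⟩
  have hw2X' : w2' ∈ X := by rw [hw2']; exact X.sub_mem hw2X (X.smul_mem _ hu1X)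
  have r1 : QuadraticMap.polar (⇑Q) w2' w1 = 0 := by
    rw [hw2', QuadraticMap.polar_sub_left, QuadraticMap.polar_smul_left, q11']
    simp
  have r2 : QuadraticMap.polar (⇑Q) w2' u1 = 0 := by
    rw [hw2', QuadraticMap.polar_sub_left, QuadraticMap.polar_smul_left, p11, hw21]
    simp
  have r3 : QuadraticMap.polar (⇑Q) w2' u2 = 1 := by
    rw [hw2', QuadraticMap.polar_sub_left, QuadraticMap.polar_smul_left, p12, hw22]
    simp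
  obtain ⟨w2, hw2⟩ : ∃ w2, w2 = w2' - Q w2' • u2 := ⟨_, rfl⟩
  have hw2X'' : w2 ∈ X := by rw [hw2]; exact X.sub_mem hw2X' (X.smul_mem _ hu2X)
  have hQw2 : Q w2 = 0 := by
    rw [hw2, Q_sub, QuadraticMap.map_smul, hQu2, QuadraticMap.polar_smul_right, r3]
    simp only [smul_eq_mul]
    ring
  have s1 : QuadraticMap.polar (⇑Q) w2 w1 = 0 := by
    rw [hw2, QuadraticMap.polar_sub_left, QuadraticMap.polar_smul_left, q12', r1]
    simp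
  have s2 : QuadraticMap.polar (⇑Q) w2 u1 = 0 := by
    rw [hw2, QuadraticMap.polar_sub_left, QuadraticMap.polar_smul_left, p21, r2]
    simp
  have s3 : QuadraticMap.polar (⇑Q) w2 u2 = 1 := by
    rw [hw2, QuadraticMap.polar_sub_left, QuadraticMap.polar_smul_left, p22, r3]
    simp
  have g_u1_w1 : QuadraticMap.polar (⇑Q) u1 w1 = 1 := by rw [QuadraticMap.polar_comm, q11]
  have g_u1_w2 : QuadraticMap.polar (⇑Q) u1 w2 = 0 := by rw [QuadraticMap.polar_comm, s2]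
  have g_w1_w1 : QuadraticMap.polar (⇑Q) w1 w1 = 0 := by rw [polar_self_eq, hQw1, mul_zero]
  have g_w1_w2 : QuadraticMap.polar (⇑Q) w1 w2 = 0 := by rw [QuadraticMap.polar_comm, s1]
  have g_u2_w1 : QuadraticMap.polar (⇑Q) u2 w1 = 0 := by rw [QuadraticMap.polar_comm, q12]
  have g_u2_w2 : QuadraticMap.polar (⇑Q) u2 w2 = 1 := by rw [QuadraticMap.polar_comm, s3]
  have g_w2_w2 : QuadraticMap.polar (⇑Q) w2 w2 = 0 := by rw [polar_self_eq, hQw2, mul_zero]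
  obtain ⟨a1, ha1⟩ : ∃ a1, a1 = u1 + w1 := ⟨_, rfl⟩
  obtain ⟨a2, ha2⟩ : ∃ a2, a2 = u1 + u2 + w2 := ⟨_, rfl⟩
  obtain ⟨b1, hb1⟩ : ∃ b1, b1 = u1 + w1 + u2 := ⟨_, rfl⟩
  obtain ⟨b2, hb2⟩ : ∃ b2, b2 = u2 + w2 := ⟨_, rfl⟩
  have ha1X : a1 ∈ X := by rw [ha1]; exact X.add_mem hu1X hw1X'
  have ha2X : a2 ∈ X := by rw [ha2]; exact X.add_mem (X.add_mem hu1X hu2X) hw2X''
  have hb1X : b1 ∈ X := by rw [hb1]; exact X.add_mem (X.add_mem hu1X hw1X') hu2X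
  have hb2X : b2 ∈ X := by rw [hb2]; exact X.add_mem hu2X hw2X''
  have hQa1 : Q a1 = 1 := by
    rw [ha1, Q_add, hQu1, hQw1, q11']
    ring
  have hQa2 : Q a2 = 1 := by
    rw [ha2, Q_add, Q_add, hQu1, hQu2, hQw2]
    simp only [QuadraticMap.polar_add_left, QuadraticMap.polar_add_right, QuadraticMap.polar_sub_left, QuadraticMap.polar_sub_right, QuadraticMap.polar_neg_left, QuadraticMap.polar_neg_right, QuadraticMap.polar_smul_left, QuadraticMap.polar_smul_right, smul_eq_mul, p11, g_u1_w1, p12, g_u1_w2, q11, g_w1_w1, q12, g_w1_w2, p21, g_u2_w1, p22, g_u2_w2, s2, s1, s3, g_w2_w2]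
    ring
  have hQb1 : Q b1 = 1 := by
    rw [hb1, Q_add, Q_add, hQu1, hQw1, hQu2]
    simp only [QuadraticMap.polar_add_left, QuadraticMap.polar_add_right, QuadraticMap.polar_sub_left, QuadraticMap.polar_sub_right, QuadraticMap.polar_neg_left, QuadraticMap.polar_neg_right, QuadraticMap.polar_smul_left, QuadraticMap.polar_smul_right, smul_eq_mul, p11, g_u1_w1, p12, g_u1_w2, q11, g_w1_w1, q12, g_w1_w2, p21, g_u2_w1, p22, g_u2_w2, s2, s1, s3, g_w2_w2]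
    ring
  have hQb2 : Q b2 = 1 := by
    rw [hb2, Q_add, hQu2, hQw2, g_u2_w2]
    ring
  have f_a1_a2 : QuadraticMap.polar (⇑Q) a1 a2 = 1 := by
    rw [ha1, ha2]
    simp only [QuadraticMap.polar_add_left, QuadraticMap.polar_add_right, QuadraticMap.polar_sub_left, QuadraticMap.polar_sub_right, QuadraticMap.polar_neg_left, QuadraticMap.polar_neg_right, QuadraticMap.polar_smul_left, QuadraticMap.polar_smul_right, smul_eq_mul, p11, g_u1_w1, p12, g_u1_w2, q11, g_w1_w1, q12, g_w1_w2, p21, g_u2_w1, p22, g_u2_w2, s2, s1, s3, g_w2_w2]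
    ring
  have f_b1_b2 : QuadraticMap.polar (⇑Q) b1 b2 = 1 := by
    rw [hb1, hb2]
    simp only [QuadraticMap.polar_add_left, QuadraticMap.polar_add_right, QuadraticMap.polar_sub_left, QuadraticMap.polar_sub_right, QuadraticMap.polar_neg_left, QuadraticMap.polar_neg_right, QuadraticMap.polar_smul_left, QuadraticMap.polar_smul_right, smul_eq_mul, p11, g_u1_w1, p12, g_u1_w2, q11, g_w1_w1, q12, g_w1_w2, p21, g_u2_w1, p22, g_u2_w2, s2, s1, s3, g_w2_w2]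
    ring
  have f_a1_b1 : QuadraticMap.polar (⇑Q) a1 b1 = 0 := by
    rw [ha1, hb1]
    simp only [QuadraticMap.polar_add_left, QuadraticMap.polar_add_right, QuadraticMap.polar_sub_left, QuadraticMap.polar_sub_right, QuadraticMap.polar_neg_left, QuadraticMap.polar_neg_right, QuadraticMap.polar_smul_left, QuadraticMap.polar_smul_right, smul_eq_mul, p11, g_u1_w1, p12, g_u1_w2, q11, g_w1_w1, q12, g_w1_w2, p21, g_u2_w1, p22, g_u2_w2, s2, s1, s3, g_w2_w2]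
    linear_combination h2
  have f_a1_b2 : QuadraticMap.polar (⇑Q) a1 b2 = 0 := by
    rw [ha1, hb2]
    simp only [QuadraticMap.polar_add_left, QuadraticMap.polar_add_right, QuadraticMap.polar_sub_left, QuadraticMap.polar_sub_right, QuadraticMap.polar_neg_left, QuadraticMap.polar_neg_right, QuadraticMap.polar_smul_left, QuadraticMap.polar_smul_right, smul_eq_mul, p11, g_u1_w1, p12, g_u1_w2, q11, g_w1_w1, q12, g_w1_w2, p21, g_u2_w1, p22, g_u2_w2, s2, s1, s3, g_w2_w2]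
    ring
  have f_a2_b1 : QuadraticMap.polar (⇑Q) a2 b1 = 0 := by
    rw [ha2, hb1]
    simp only [QuadraticMap.polar_add_left, QuadraticMap.polar_add_right, QuadraticMap.polar_sub_left, QuadraticMap.polar_sub_right, QuadraticMap.polar_neg_left, QuadraticMap.polar_neg_right, QuadraticMap.polar_smul_left, QuadraticMap.polar_smul_right, smul_eq_mul, p11, g_u1_w1, p12, g_u1_w2, q11, g_w1_w1, q12, g_w1_w2, p21, g_u2_w1, p22, g_u2_w2, s2, s1, s3, g_w2_w2]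
    linear_combination h2
  have f_a2_b2 : QuadraticMap.polar (⇑Q) a2 b2 = 0 := by
    rw [ha2, hb2]
    simp only [QuadraticMap.polar_add_left, QuadraticMap.polar_add_right, QuadraticMap.polar_sub_left, QuadraticMap.polar_sub_right, QuadraticMap.polar_neg_left, QuadraticMap.polar_neg_right, QuadraticMap.polar_smul_left, QuadraticMap.polar_smul_right, smul_eq_mul, p11, g_u1_w1, p12, g_u1_w2, q11, g_w1_w1, q12, g_w1_w2, p21, g_u2_w1, p22, g_u2_w2, s2, s1, s3, g_w2_w2]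
    linear_combination h2
  have f_a1_a1 : QuadraticMap.polar (⇑Q) a1 a1 = 0 := by rw [polar_self_eq, hQa1, mul_one]; exact h2
  have f_a2_a1 : QuadraticMap.polar (⇑Q) a2 a1 = 1 := by rw [QuadraticMap.polar_comm, f_a1_a2]
  have f_a2_a2 : QuadraticMap.polar (⇑Q) a2 a2 = 0 := by rw [polar_self_eq, hQa2, mul_one]; exact h2
  have f_b1_a1 : QuadraticMap.polar (⇑Q) b1 a1 = 0 := by rw [QuadraticMap.polar_comm, f_a1_b1]
  have f_b1_a2 : QuadraticMap.polar (⇑Q) b1 a2 = 0 := by rw [QuadraticMap.polar_comm, f_a2_b1]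
  have f_b1_b1 : QuadraticMap.polar (⇑Q) b1 b1 = 0 := by rw [polar_self_eq, hQb1, mul_one]; exact h2
  have f_b2_a1 : QuadraticMap.polar (⇑Q) b2 a1 = 0 := by rw [QuadraticMap.polar_comm, f_a1_b2]
  have f_b2_a2 : QuadraticMap.polar (⇑Q) b2 a2 = 0 := by rw [QuadraticMap.polar_comm, f_a2_b2]
  have f_b2_b1 : QuadraticMap.polar (⇑Q) b2 b1 = 1 := by rw [QuadraticMap.polar_comm, f_b1_b2]
  have f_b2_b2 : QuadraticMap.polar (⇑Q) b2 b2 = 0 := by rw [polar_self_eq, hQb2, mul_one]; exact h2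
  refine ⟨a1, a2, b1, b2, ha1X, ha2X, hb1X, hb2X, hQa1, hQa2, hQb1, hQb2, f_a1_a2, f_b1_b2,
    f_a1_b1, f_a1_b2, f_a2_b1, f_a2_b2, ?_⟩
  have hli : LinearIndependent F ![a1, a2, b1, b2] := by
    rw [Fintype.linearIndependent_iff]
    intro c hc
    simp [Fin.sum_univ_four] at hc
    have e0 := congrArg (fun z => QuadraticMap.polar (⇑Q) z a2) hc
    have e1 := congrArg (fun z => QuadraticMap.polar (⇑Q) z a1) hc
    have e2 := congrArg (fun z => QuadraticMap.polar (⇑Q) z b2) hc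
    have e3 := congrArg (fun z => QuadraticMap.polar (⇑Q) z b1) hc
    simp only [QuadraticMap.polar_add_left, QuadraticMap.polar_add_right, QuadraticMap.polar_sub_left, QuadraticMap.polar_sub_right, QuadraticMap.polar_neg_left, QuadraticMap.polar_neg_right, QuadraticMap.polar_smul_left, QuadraticMap.polar_smul_right, smul_eq_mul, f_a1_a1, f_a1_a2, f_a1_b1, f_a1_b2, f_a2_a1, f_a2_a2, f_a2_b1, f_a2_b2, f_b1_a1, f_b1_a2, f_b1_b1, f_b1_b2, f_b2_a1, f_b2_a2, f_b2_b1, f_b2_b2, QuadraticMap.polar_zero_left] at e0 e1 e2 e3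
    have c0 : c 0 = 0 := by linear_combination e0
    have c1 : c 1 = 0 := by linear_combination e1
    have c2 : c 2 = 0 := by linear_combination e2
    have c3 : c 3 = 0 := by linear_combination e3
    intro i
    fin_cases i
    · exact c0
    · exact c1
    · exact c2
    · exact c3
  have hspan : Submodule.span F (Set.range ![a1, a2, b1, b2]) = X := by
    apply Submodule.eq_of_le_of_finrank_le
    · rw [Submodule.span_le]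
      rintro z ⟨i, rfl⟩
      fin_cases i
      · exact ha1X
      · exact ha2X
      · exact hb1X
      · exact hb2X
    · rw [finrank_span_eq_card hli, hdim]
      simp
  intro v hv
  rw [← hspan] at hv
  obtain ⟨c, hc⟩ := (Submodule.mem_span_range_iff_exists_fun F).mp hv
  refine ⟨c 0, c 1, c 2, c 3, ?_⟩
  rw [← hc, Fin.sum_univ_four]
  rfl

omit [Fintype F] [Fintype ι] [DecidableEq ι] in
lemma Qform4 (h01 : ∀ z : F, z = 0 ∨ z = 1) (h2 : (2 : F) = 0)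
    (Q : QuadraticForm F (ι → F)) (a1 a2 b1 b2 : ι → F)
    (hQa1 : Q a1 = 1) (hQa2 : Q a2 = 1) (hQb1 : Q b1 = 1) (hQb2 : Q b2 = 1)
    (p12 : QuadraticMap.polar (⇑Q) a1 a2 = 1) (q12 : QuadraticMap.polar (⇑Q) b1 b2 = 1)
    (r11 : QuadraticMap.polar (⇑Q) a1 b1 = 0) (r12 : QuadraticMap.polar (⇑Q) a1 b2 = 0)
    (r21 : QuadraticMap.polar (⇑Q) a2 b1 = 0) (r22 : QuadraticMap.polar (⇑Q) a2 b2 = 0)
    (x1 x2 y1 y2 : F) (hQv : Q (x1 • a1 + x2 • a2 + y1 • b1 + y2 • b2) = 1) :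
    (y1 = 0 ∧ y2 = 0) ∨ (x1 = 0 ∧ x2 = 0) := by
  have hform : Q (x1 • a1 + x2 • a2 + y1 • b1 + y2 • b2)
      = x1 * x1 + x2 * x2 + x1 * x2 + y1 * y1 + y2 * y2 + y1 * y2 := by
    rw [Q_add, Q_add, Q_add]
    simp only [QuadraticMap.map_smul, QuadraticMap.polar_add_left, QuadraticMap.polar_add_right, QuadraticMap.polar_sub_left, QuadraticMap.polar_sub_right, QuadraticMap.polar_neg_left, QuadraticMap.polar_neg_right, QuadraticMap.polar_smul_left, QuadraticMap.polar_smul_right, smul_eq_mul, hQa1, hQa2, hQb1, hQb2, p12, q12, r11, r12, r21, r22]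
    ring
  rw [hform] at hQv
  have h1ne : (1 : F) ≠ 0 := one_ne_zero
  rcases h01 x1 with rfl | rfl <;> rcases h01 x2 with rfl | rfl <;>
    rcases h01 y1 with rfl | rfl <;> rcases h01 y2 with rfl | rfl <;>
    first
    | exact Or.inl ⟨rfl, rfl⟩
    | exact Or.inr ⟨rfl, rfl⟩
    | (exfalso; apply h1ne; linear_combination (-1 : F) * hQv + h2)
    | (exfalso; apply h1ne; linear_combination (-1 : F) * hQv + 2 * h2)
    | (exfalso; apply h1ne; linear_combination (-1 : F) * hQv + 3 * h2)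

/-- decompositions into hyperbolic 4-spaces over the field with two elements -/
theorem plus4_q2 (hq : Fintype.card F = 2)
    (hh : Fintype.card F ≠ 2 ∨ Fintype.card ι ≠ 4)
    (Q : QuadraticForm F (ι → F)) (hQ : (QuadraticMap.polarBilin Q).Nondegenerate) {t : ℕ}
    (D : Fin t → Submodule F (ι → F))
    (hD : Cfsg.Geo.IsOrthogonalMDecomposition ⇑Q 4 D)
    (hyp4 : ∀ j, ∃ a1 a2 b1 b2 : ι → F, a1 ∈ D j ∧ a2 ∈ D j ∧ b1 ∈ D j ∧ b2 ∈ D j ∧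
      Q a1 = 1 ∧ Q a2 = 1 ∧ Q b1 = 1 ∧ Q b2 = 1 ∧
      QuadraticMap.polar (⇑Q) a1 a2 = 1 ∧ QuadraticMap.polar (⇑Q) b1 b2 = 1 ∧
      QuadraticMap.polar (⇑Q) a1 b1 = 0 ∧ QuadraticMap.polar (⇑Q) a1 b2 = 0 ∧
      QuadraticMap.polar (⇑Q) a2 b1 = 0 ∧ QuadraticMap.polar (⇑Q) a2 b2 = 0 ∧
      ∀ v ∈ D j, ∃ x1 x2 y1 y2 : F, v = x1 • a1 + x2 • a2 + y1 • b1 + y2 • b2) :
    ∃ K : Subgroup (Matrix.GeneralLinearGroup ι F),
      Cfsg.Geo.decompositionStabilizer D ⊓ Cfsg.Geo.omegaGL ⇑Q < K ∧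
        K < Cfsg.Geo.omegaGL ⇑Q := by
  have ht := hD.decomp.decomp.two_le
  obtain ⟨i₀, hi₀⟩ : ∃ i₀ : Fin t, i₀ = ⟨0, by omega⟩ := ⟨_, rfl⟩
  obtain ⟨i₁, hi₁⟩ : ∃ i₁ : Fin t, i₁ = ⟨1, by omega⟩ := ⟨_, rfl⟩
  have h01 : i₀ ≠ i₁ := by
    rw [hi₀, hi₁]
    intro h
    simp [Fin.ext_iff] at h
  have horth := hD.decomp.orthogonal
  have h2 : (2 : F) = 0 := by
    have h := Nat.cast_card_eq_zero F
    rw [hq] at h
    exact_mod_cast h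
  have h1ne : (1 : F) ≠ 0 := one_ne_zero
  have hz01 : ∀ z : F, z = 0 ∨ z = 1 := by
    intro z
    have h := FiniteField.pow_card z
    rw [hq] at h
    have h' : z * (z - 1) = 0 := by linear_combination h
    rcases mul_eq_zero.mp h' with h | h
    · exact Or.inl h
    · exact Or.inr (by linear_combination h)
  obtain ⟨a1, a2, b1, b2, ha1, ha2, hb1, hb2, hQa1, hQa2, hQb1, hQb2, f_a1_a2, f_b1_b2,
    f_a1_b1, f_a1_b2, f_a2_b1, f_a2_b2, H0⟩ := hyp4 i₀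
  obtain ⟨p1, p2, q1, q2, hp1, hp2, hq1, hq2, hQp1, hQp2, hQq1, hQq2, f_p1_p2, f_q1_q2,
    f_p1_q1, f_p1_q2, f_p2_q1, f_p2_q2, H1⟩ := hyp4 i₁
  have f_a1_a1 : QuadraticMap.polar (⇑Q) a1 a1 = 0 := by rw [polar_self_eq, hQa1, mul_one]; exact h2
  have f_a2_a1 : QuadraticMap.polar (⇑Q) a2 a1 = 1 := by rw [QuadraticMap.polar_comm, f_a1_a2]
  have f_a2_a2 : QuadraticMap.polar (⇑Q) a2 a2 = 0 := by rw [polar_self_eq, hQa2, mul_one]; exact h2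
  have f_b1_a1 : QuadraticMap.polar (⇑Q) b1 a1 = 0 := by rw [QuadraticMap.polar_comm, f_a1_b1]
  have f_b1_a2 : QuadraticMap.polar (⇑Q) b1 a2 = 0 := by rw [QuadraticMap.polar_comm, f_a2_b1]
  have f_b1_b1 : QuadraticMap.polar (⇑Q) b1 b1 = 0 := by rw [polar_self_eq, hQb1, mul_one]; exact h2
  have f_b2_a1 : QuadraticMap.polar (⇑Q) b2 a1 = 0 := by rw [QuadraticMap.polar_comm, f_a1_b2]
  have f_b2_a2 : QuadraticMap.polar (⇑Q) b2 a2 = 0 := by rw [QuadraticMap.polar_comm, f_a2_b2]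
  have f_b2_b1 : QuadraticMap.polar (⇑Q) b2 b1 = 1 := by rw [QuadraticMap.polar_comm, f_b1_b2]
  have f_b2_b2 : QuadraticMap.polar (⇑Q) b2 b2 = 0 := by rw [polar_self_eq, hQb2, mul_one]; exact h2
  have f_p1_p1 : QuadraticMap.polar (⇑Q) p1 p1 = 0 := by rw [polar_self_eq, hQp1, mul_one]; exact h2
  have f_p2_p1 : QuadraticMap.polar (⇑Q) p2 p1 = 1 := by rw [QuadraticMap.polar_comm, f_p1_p2]
  have f_p2_p2 : QuadraticMap.polar (⇑Q) p2 p2 = 0 := by rw [polar_self_eq, hQp2, mul_one]; exact h2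
  have f_q1_p1 : QuadraticMap.polar (⇑Q) q1 p1 = 0 := by rw [QuadraticMap.polar_comm, f_p1_q1]
  have f_q1_p2 : QuadraticMap.polar (⇑Q) q1 p2 = 0 := by rw [QuadraticMap.polar_comm, f_p2_q1]
  have f_q1_q1 : QuadraticMap.polar (⇑Q) q1 q1 = 0 := by rw [polar_self_eq, hQq1, mul_one]; exact h2
  have f_q2_p1 : QuadraticMap.polar (⇑Q) q2 p1 = 0 := by rw [QuadraticMap.polar_comm, f_p1_q2]
  have f_q2_p2 : QuadraticMap.polar (⇑Q) q2 p2 = 0 := by rw [QuadraticMap.polar_comm, f_p2_q2]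
  have f_q2_q1 : QuadraticMap.polar (⇑Q) q2 q1 = 1 := by rw [QuadraticMap.polar_comm, f_q1_q2]
  have f_q2_q2 : QuadraticMap.polar (⇑Q) q2 q2 = 0 := by rw [polar_self_eq, hQq2, mul_one]; exact h2
  have z_a1_p1 := horth i₀ i₁ h01 a1 ha1 p1 hp1
  have z_p1_a1 := horth i₁ i₀ h01.symm p1 hp1 a1 ha1
  have z_a1_p2 := horth i₀ i₁ h01 a1 ha1 p2 hp2
  have z_p2_a1 := horth i₁ i₀ h01.symm p2 hp2 a1 ha1
  have z_a1_q1 := horth i₀ i₁ h01 a1 ha1 q1 hq1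
  have z_q1_a1 := horth i₁ i₀ h01.symm q1 hq1 a1 ha1
  have z_a1_q2 := horth i₀ i₁ h01 a1 ha1 q2 hq2
  have z_q2_a1 := horth i₁ i₀ h01.symm q2 hq2 a1 ha1
  have z_a2_p1 := horth i₀ i₁ h01 a2 ha2 p1 hp1
  have z_p1_a2 := horth i₁ i₀ h01.symm p1 hp1 a2 ha2
  have z_a2_p2 := horth i₀ i₁ h01 a2 ha2 p2 hp2
  have z_p2_a2 := horth i₁ i₀ h01.symm p2 hp2 a2 ha2
  have z_a2_q1 := horth i₀ i₁ h01 a2 ha2 q1 hq1
  have z_q1_a2 := horth i₁ i₀ h01.symm q1 hq1 a2 ha2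
  have z_a2_q2 := horth i₀ i₁ h01 a2 ha2 q2 hq2
  have z_q2_a2 := horth i₁ i₀ h01.symm q2 hq2 a2 ha2
  have z_b1_p1 := horth i₀ i₁ h01 b1 hb1 p1 hp1
  have z_p1_b1 := horth i₁ i₀ h01.symm p1 hp1 b1 hb1
  have z_b1_p2 := horth i₀ i₁ h01 b1 hb1 p2 hp2
  have z_p2_b1 := horth i₁ i₀ h01.symm p2 hp2 b1 hb1
  have z_b1_q1 := horth i₀ i₁ h01 b1 hb1 q1 hq1
  have z_q1_b1 := horth i₁ i₀ h01.symm q1 hq1 b1 hb1
  have z_b1_q2 := horth i₀ i₁ h01 b1 hb1 q2 hq2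
  have z_q2_b1 := horth i₁ i₀ h01.symm q2 hq2 b1 hb1
  have z_b2_p1 := horth i₀ i₁ h01 b2 hb2 p1 hp1
  have z_p1_b2 := horth i₁ i₀ h01.symm p1 hp1 b2 hb2
  have z_b2_p2 := horth i₀ i₁ h01 b2 hb2 p2 hp2
  have z_p2_b2 := horth i₁ i₀ h01.symm p2 hp2 b2 hb2
  have z_b2_q1 := horth i₀ i₁ h01 b2 hb2 q1 hq1
  have z_q1_b2 := horth i₁ i₀ h01.symm q1 hq1 b2 hb2
  have z_b2_q2 := horth i₀ i₁ h01 b2 hb2 q2 hq2
  have z_q2_b2 := horth i₁ i₀ h01.symm q2 hq2 b2 hb2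
  obtain ⟨c1, hc1⟩ : ∃ c1, c1 = a1 + p1 + b1 := ⟨_, rfl⟩
  obtain ⟨c2, hc2⟩ : ∃ c2, c2 = a2 + p2 + b1 := ⟨_, rfl⟩
  obtain ⟨c3, hc3⟩ : ∃ c3, c3 = a1 + a2 + (p1 + p2) + b1 := ⟨_, rfl⟩
  have hQc1 : Q c1 = 1 := by
    rw [hc1, Q_add, Q_add, hQa1, hQp1, hQb1]
    simp only [QuadraticMap.polar_add_left, QuadraticMap.polar_add_right, QuadraticMap.polar_sub_left, QuadraticMap.polar_sub_right, QuadraticMap.polar_neg_left, QuadraticMap.polar_neg_right, QuadraticMap.polar_smul_left, QuadraticMap.polar_smul_right, smul_eq_mul, f_a1_a1, f_a1_a2, f_a1_b1, f_a1_b2, f_a2_a1, f_a2_a2, f_a2_b1, f_a2_b2, f_b1_a1, f_b1_a2, f_b1_b1, f_b1_b2, f_b2_a1, f_b2_a2, f_b2_b1, f_b2_b2, f_p1_p1, f_p1_p2, f_p1_q1, f_p1_q2, f_p2_p1, f_p2_p2, f_p2_q1, f_p2_q2, f_q1_p1, f_q1_p2, f_q1_q1, f_q1_q2, f_q2_p1, f_q2_p2, f_q2_q1, f_q2_q2, z_a1_p1, z_p1_a1, z_a1_p2, z_p2_a1, z_a1_q1, z_q1_a1,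 z_a1_q2, z_q2_a1, z_a2_p1, z_p1_a2, z_a2_p2, z_p2_a2, z_a2_q1, z_q1_a2, z_a2_q2, z_q2_a2, z_b1_p1, z_p1_b1, z_b1_p2, z_p2_b1, z_b1_q1, z_q1_b1, z_b1_q2, z_q2_b1, z_b2_p1, z_p1_b2, z_b2_p2, z_p2_b2, z_b2_q1, z_q1_b2, z_b2_q2, z_q2_b2]
    linear_combination h2
  have hQc2 : Q c2 = 1 := by
    rw [hc2, Q_add, Q_add, hQa2, hQp2, hQb1]
    simp only [QuadraticMap.polar_add_left, QuadraticMap.polar_add_right, QuadraticMap.polar_sub_left, QuadraticMap.polar_sub_right, QuadraticMap.polar_neg_left, QuadraticMap.polar_neg_right, QuadraticMap.polar_smul_left, QuadraticMap.polar_smul_right, smul_eq_mul, f_a1_a1, f_a1_a2, f_a1_b1, f_a1_b2, f_a2_a1, f_a2_a2, f_a2_b1, f_a2_b2, f_b1_a1, f_b1_a2, f_b1_b1, f_b1_b2, f_b2_a1, f_b2_a2, f_b2_b1, f_b2_b2, f_p1_p1, f_p1_p2, f_p1_q1, f_p1_q2, f_p2_p1, f_p2_p2, f_p2_q1, f_p2_q2, f_q1_p1, f_q1_p2, f_q1_q1, f_q1_q2, f_q2_p1,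 f_q2_p2, f_q2_q1, f_q2_q2, z_a1_p1, z_p1_a1, z_a1_p2, z_p2_a1, z_a1_q1, z_q1_a1, z_a1_q2, z_q2_a1, z_a2_p1, z_p1_a2, z_a2_p2, z_p2_a2, z_a2_q1, z_q1_a2, z_a2_q2, z_q2_a2, z_b1_p1, z_p1_b1, z_b1_p2, z_p2_b1, z_b1_q1, z_q1_b1, z_b1_q2, z_q2_b1, z_b2_p1, z_p1_b2, z_b2_p2, z_p2_b2, z_b2_q1, z_q1_b2, z_b2_q2, z_q2_b2]
    linear_combination h2
  have hQc3 : Q c3 = 1 := by
    rw [hc3, Q_add, Q_add, Q_add, Q_add, hQa1, hQa2, hQp1, hQp2, hQb1]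
    simp only [QuadraticMap.polar_add_left, QuadraticMap.polar_add_right, QuadraticMap.polar_sub_left, QuadraticMap.polar_sub_right, QuadraticMap.polar_neg_left, QuadraticMap.polar_neg_right, QuadraticMap.polar_smul_left, QuadraticMap.polar_smul_right, smul_eq_mul, f_a1_a1, f_a1_a2, f_a1_b1, f_a1_b2, f_a2_a1, f_a2_a2, f_a2_b1, f_a2_b2, f_b1_a1, f_b1_a2, f_b1_b1, f_b1_b2, f_b2_a1, f_b2_a2, f_b2_b1, f_b2_b2, f_p1_p1, f_p1_p2, f_p1_q1, f_p1_q2, f_p2_p1, f_p2_p2, f_p2_q1, f_p2_q2, f_q1_p1, f_q1_p2, f_q1_q1, f_q1_q2, f_q2_p1, f_q2_p2, f_q2_q1, f_q2_q2, z_a1_p1, z_p1_a1, z_a1_p2, z_p2_a1, z_a1_q1, z_q1_a1, z_a1_q2, z_q2_a1, z_a2_p1, z_p1_a2, z_a2_p2, z_p2_a2, z_a2_q1, z_q1_a2, z_a2_q2, z_q2_a2, z_b1_p1, z_p1_b1, z_b1_p2, z_p2_b1, z_b1_q1, z_q1_b1, z_b1_q2, z_q2_b1, z_b2_p1, z_p1_b2, z_b2_p2, z_p2_b2, z_b2_q1, z_q1_b2, z_b2_q2, z_q2_b2]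
    linear_combination 3 * h2
  have hQc10 : Q c1 ≠ 0 := by rw [hQc1]; exact h1ne
  have hQc20 : Q c2 ≠ 0 := by rw [hQc2]; exact h1ne
  have hQc30 : Q c3 ≠ 0 := by rw [hQc3]; exact h1ne
  have hQb10 : Q b1 ≠ 0 := by rw [hQb1]; exact h1ne
  have o3b : QuadraticMap.polar (⇑Q) c3 b1 = 0 := by
    rw [hc3]
    simp only [QuadraticMap.polar_add_left, QuadraticMap.polar_add_right, QuadraticMap.polar_sub_left, QuadraticMap.polar_sub_right, QuadraticMap.polar_neg_left, QuadraticMap.polar_neg_right, QuadraticMap.polar_smul_left, QuadraticMap.polar_smul_right, smul_eq_mul, f_a1_a1, f_a1_a2, f_a1_b1, f_a1_b2, f_a2_a1, f_a2_a2, f_a2_b1, f_a2_b2, f_b1_a1, f_b1_a2, f_b1_b1, f_b1_b2, f_b2_a1, f_b2_a2, f_b2_b1, f_b2_b2, f_p1_p1, f_p1_p2, f_p1_q1, f_p1_q2, f_p2_p1, f_p2_p2, f_p2_q1, f_p2_q2, f_q1_p1, f_q1_p2, f_q1_q1, f_q1_q2, f_q2_p1, f_q2_p2, f_q2_q1, f_q2_q2, z_a1_p1,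 z_p1_a1, z_a1_p2, z_p2_a1, z_a1_q1, z_q1_a1, z_a1_q2, z_q2_a1, z_a2_p1, z_p1_a2, z_a2_p2, z_p2_a2, z_a2_q1, z_q1_a2, z_a2_q2, z_q2_a2, z_b1_p1, z_p1_b1, z_b1_p2, z_p2_b1, z_b1_q1, z_q1_b1, z_b1_q2, z_q2_b1, z_b2_p1, z_p1_b2, z_b2_p2, z_p2_b2, z_b2_q1, z_q1_b2, z_b2_q2, z_q2_b2]
    linear_combination (0 : F) * h2
  have o2b : QuadraticMap.polar (⇑Q) c2 b1 = 0 := by
    rw [hc2]
    simp only [QuadraticMap.polar_add_left, QuadraticMap.polar_add_right, QuadraticMap.polar_sub_left, QuadraticMap.polar_sub_right, QuadraticMap.polar_neg_left, QuadraticMap.polar_neg_right, QuadraticMap.polar_smul_left, QuadraticMap.polar_smul_right, smul_eq_mul, f_a1_a1, f_a1_a2, f_a1_b1, f_a1_b2, f_a2_a1, f_a2_a2, f_a2_b1, f_a2_b2, f_b1_a1, f_b1_a2, f_b1_b1, f_b1_b2, f_b2_a1, f_b2_a2, f_b2_b1, f_b2_b2, f_p1_p1, f_p1_p2, f_p1_q1, f_p1_q2, f_p2_p1, f_p2_p2, f_p2_q1, f_p2_q2,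 f_q1_p1, f_q1_p2, f_q1_q1, f_q1_q2, f_q2_p1, f_q2_p2, f_q2_q1, f_q2_q2, z_a1_p1, z_p1_a1, z_a1_p2, z_p2_a1, z_a1_q1, z_q1_a1, z_a1_q2, z_q2_a1, z_a2_p1, z_p1_a2, z_a2_p2, z_p2_a2, z_a2_q1, z_q1_a2, z_a2_q2, z_q2_a2, z_b1_p1, z_p1_b1, z_b1_p2, z_p2_b1, z_b1_q1, z_q1_b1, z_b1_q2, z_q2_b1, z_b2_p1, z_p1_b2, z_b2_p2, z_p2_b2, z_b2_q1, z_q1_b2, z_b2_q2, z_q2_b2]
    linear_combination (0 : F) * h2
  have o1b : QuadraticMap.polar (⇑Q) c1 b1 = 0 := by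
    rw [hc1]
    simp only [QuadraticMap.polar_add_left, QuadraticMap.polar_add_right, QuadraticMap.polar_sub_left, QuadraticMap.polar_sub_right, QuadraticMap.polar_neg_left, QuadraticMap.polar_neg_right, QuadraticMap.polar_smul_left, QuadraticMap.polar_smul_right, smul_eq_mul, f_a1_a1, f_a1_a2, f_a1_b1, f_a1_b2, f_a2_a1, f_a2_a2, f_a2_b1, f_a2_b2, f_b1_a1, f_b1_a2, f_b1_b1, f_b1_b2, f_b2_a1, f_b2_a2, f_b2_b1, f_b2_b2, f_p1_p1, f_p1_p2, f_p1_q1, f_p1_q2, f_p2_p1, f_p2_p2, f_p2_q1, f_p2_q2, f_q1_p1, f_q1_p2, f_q1_q1, f_q1_q2, f_q2_p1, f_q2_p2, f_q2_q1, f_q2_q2, z_a1_p1, z_p1_a1, z_a1_p2, z_p2_a1, z_a1_q1, z_q1_a1, z_a1_q2, z_q2_a1, z_a2_p1, z_p1_a2, z_a2_p2, z_p2_a2, z_a2_q1, z_q1_a2, z_a2_q2, z_q2_a2, z_b1_p1, z_p1_b1, z_b1_p2, z_p2_b1, z_b1_q1, z_q1_b1, z_b1_q2, z_q2_b1, z_b2_p1, z_p1_b2, z_b2_p2, z_p2_b2, z_b2_q1, z_q1_b2, z_b2_q2, z_q2_b2]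
    linear_combination (0 : F) * h2
  have o23 : QuadraticMap.polar (⇑Q) c2 c3 = 0 := by
    rw [hc2, hc3]
    simp only [QuadraticMap.polar_add_left, QuadraticMap.polar_add_right, QuadraticMap.polar_sub_left, QuadraticMap.polar_sub_right, QuadraticMap.polar_neg_left, QuadraticMap.polar_neg_right, QuadraticMap.polar_smul_left, QuadraticMap.polar_smul_right, smul_eq_mul, f_a1_a1, f_a1_a2, f_a1_b1, f_a1_b2, f_a2_a1, f_a2_a2, f_a2_b1, f_a2_b2, f_b1_a1, f_b1_a2, f_b1_b1, f_b1_b2, f_b2_a1, f_b2_a2, f_b2_b1, f_b2_b2, f_p1_p1, f_p1_p2, f_p1_q1, f_p1_q2, f_p2_p1, f_p2_p2, f_p2_q1, f_p2_q2, f_q1_p1, f_q1_p2, f_q1_q1, f_q1_q2, f_q2_p1, f_q2_p2, f_q2_q1, f_q2_q2, z_a1_p1, z_p1_a1, z_a1_p2, z_p2_a1, z_a1_q1, z_q1_a1, z_a1_q2, z_q2_a1, z_a2_p1, z_p1_a2, z_a2_p2, z_p2_a2, z_a2_q1, z_q1_a2, z_a2_q2, z_q2_a2, z_b1_p1, z_p1_b1, z_b1_p2, z_p2_b1, z_b1_q1, z_q1_b1, z_b1_q2,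 z_q2_b1, z_b2_p1, z_p1_b2, z_b2_p2, z_p2_b2, z_b2_q1, z_q1_b2, z_b2_q2, z_q2_b2]
    linear_combination h2
  have o13 : QuadraticMap.polar (⇑Q) c1 c3 = 0 := by
    rw [hc1, hc3]
    simp only [QuadraticMap.polar_add_left, QuadraticMap.polar_add_right, QuadraticMap.polar_sub_left, QuadraticMap.polar_sub_right, QuadraticMap.polar_neg_left, QuadraticMap.polar_neg_right, QuadraticMap.polar_smul_left, QuadraticMap.polar_smul_right, smul_eq_mul, f_a1_a1, f_a1_a2, f_a1_b1, f_a1_b2, f_a2_a1, f_a2_a2, f_a2_b1, f_a2_b2, f_b1_a1, f_b1_a2, f_b1_b1, f_b1_b2, f_b2_a1, f_b2_a2, f_b2_b1, f_b2_b2, f_p1_p1, f_p1_p2, f_p1_q1, f_p1_q2, f_p2_p1, f_p2_p2, f_p2_q1, f_p2_q2, f_q1_p1, f_q1_p2, f_q1_q1, f_q1_q2, f_q2_p1, f_q2_p2, f_q2_q1, f_q2_q2, z_a1_p1, z_p1_a1, z_a1_p2, z_p2_a1, z_a1_q1, z_q1_a1, z_a1_q2, z_q2_a1, z_a2_p1, z_p1_a2, z_a2_p2, z_p2_a2, z_a2_q1, z_q1_a2, z_a2_q2,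 z_q2_a2, z_b1_p1, z_p1_b1, z_b1_p2, z_p2_b1, z_b1_q1, z_q1_b1, z_b1_q2, z_q2_b1, z_b2_p1, z_p1_b2, z_b2_p2, z_p2_b2, z_b2_q1, z_q1_b2, z_b2_q2, z_q2_b2]
    linear_combination h2
  have o12 : QuadraticMap.polar (⇑Q) c1 c2 = 0 := by
    rw [hc1, hc2]
    simp only [QuadraticMap.polar_add_left, QuadraticMap.polar_add_right, QuadraticMap.polar_sub_left, QuadraticMap.polar_sub_right, QuadraticMap.polar_neg_left, QuadraticMap.polar_neg_right, QuadraticMap.polar_smul_left, QuadraticMap.polar_smul_right, smul_eq_mul, f_a1_a1, f_a1_a2, f_a1_b1, f_a1_b2, f_a2_a1, f_a2_a2, f_a2_b1, f_a2_b2, f_b1_a1, f_b1_a2, f_b1_b1, f_b1_b2, f_b2_a1, f_b2_a2, f_b2_b1, f_b2_b2, f_p1_p1, f_p1_p2, f_p1_q1, f_p1_q2, f_p2_p1, f_p2_p2, f_p2_q1, f_p2_q2, f_q1_p1, f_q1_p2, f_q1_q1, f_q1_q2, f_q2_p1, f_q2_p2, f_q2_q1, f_q2_q2, z_a1_p1, z_p1_a1, z_a1_p2, z_p2_a1, z_a1_q1, z_q1_a1, z_a1_q2,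 z_q2_a1, z_a2_p1, z_p1_a2, z_a2_p2, z_p2_a2, z_a2_q1, z_q1_a2, z_a2_q2, z_q2_a2, z_b1_p1, z_p1_b1, z_b1_p2, z_p2_b1, z_b1_q1, z_q1_b1, z_b1_q2, z_q2_b1, z_b2_p1, z_p1_b2, z_b2_p2, z_p2_b2, z_b2_q1, z_q1_b2, z_b2_q2, z_q2_b2]
    linear_combination h2
  apply set_stab_not_max Q D 1
  · have hg : ∀ x, (mat Q (reflEl Q c1 * reflEl Q c2 * (reflEl Q c3 * reflEl Q b1))).mulVec x = rf Q c1 (rf Q c2 (rf Q c3 (rf Q b1 x))) := by
      intro x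
      rw [mat_mul, ← Matrix.mulVec_mulVec, mat_refl2 Q c3 b1 hQc30 hQb10,
        mat_refl2 Q c1 c2 hQc10 hQc20]
    have hG : ∀ x, (mat Q (reflEl Q c1 * reflEl Q c2 * (reflEl Q c3 * reflEl Q b1))).mulVec x = x - QuadraticMap.polar (⇑Q) b1 x • b1
        - QuadraticMap.polar (⇑Q) c3 x • c3 - QuadraticMap.polar (⇑Q) c2 x • c2
        - QuadraticMap.polar (⇑Q) c1 x • c1 := by
      intro x
      rw [hg, rf_one Q b1 x hQb1, rf_one Q c3 _ hQc3, rf_one Q c2 _ hQc2, rf_one Q c1 _ hQc1]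
      simp only [QuadraticMap.polar_sub_right, QuadraticMap.polar_smul_right, smul_eq_mul,
        o3b, o2b, o23, o1b, o13, o12, mul_zero, sub_zero]
    have hfix : ∀ x, QuadraticMap.polar (⇑Q) a1 x = 0 → QuadraticMap.polar (⇑Q) a2 x = 0 →
        QuadraticMap.polar (⇑Q) p1 x = 0 → QuadraticMap.polar (⇑Q) p2 x = 0 →
        QuadraticMap.polar (⇑Q) b1 x = 0 → (mat Q (reflEl Q c1 * reflEl Q c2 * (reflEl Q c3 * reflEl Q b1))).mulVec x = x := by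
      intro x e1 e2 e3 e4 e5
      have k1 : QuadraticMap.polar (⇑Q) c1 x = 0 := by
        rw [hc1]
        simp only [QuadraticMap.polar_add_left, e1, e2, e3, e4, e5] <;> ring
      have k2 : QuadraticMap.polar (⇑Q) c2 x = 0 := by
        rw [hc2]
        simp only [QuadraticMap.polar_add_left, e1, e2, e3, e4, e5] <;> ring
      have k3 : QuadraticMap.polar (⇑Q) c3 x = 0 := by
        rw [hc3]
        simp only [QuadraticMap.polar_add_left, e1, e2, e3, e4, e5] <;> ring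
      rw [hG, e5, k1, k2, k3]
      simp only [zero_smul, sub_zero]
    have ga1 : (mat Q (reflEl Q c1 * reflEl Q c2 * (reflEl Q c3 * reflEl Q b1))).mulVec a1 = p1 := by
      rw [hG, hc1, hc2, hc3]
      simp only [QuadraticMap.polar_add_left, QuadraticMap.polar_add_right, QuadraticMap.polar_sub_left, QuadraticMap.polar_sub_right, QuadraticMap.polar_neg_left, QuadraticMap.polar_neg_right, QuadraticMap.polar_smul_left, QuadraticMap.polar_smul_right, smul_eq_mul, f_a1_a1, f_a1_a2, f_a1_b1, f_a1_b2, f_a2_a1, f_a2_a2, f_a2_b1, f_a2_b2, f_b1_a1, f_b1_a2, f_b1_b1, f_b1_b2, f_b2_a1, f_b2_a2, f_b2_b1, f_b2_b2, f_p1_p1, f_p1_p2, f_p1_q1, f_p1_q2, f_p2_p1, f_p2_p2, f_p2_q1, f_p2_q2, f_q1_p1, f_q1_p2, f_q1_q1, f_q1_q2, f_q2_p1, f_q2_p2, f_q2_q1, f_q2_q2, z_a1_p1, z_p1_a1, z_a1_p2, z_p2_a1, z_a1_q1, z_q1_a1, z_a1_q2, z_q2_a1, z_a2_p1, z_p1_a2, z_a2_p2, z_p2_a2,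 z_a2_q1, z_q1_a2, z_a2_q2, z_q2_a2, z_b1_p1, z_p1_b1, z_b1_p2, z_p2_b1, z_b1_q1, z_q1_b1, z_b1_q2, z_q2_b1, z_b2_p1, z_p1_b2, z_b2_p2, z_p2_b2, z_b2_q1, z_q1_b2, z_b2_q2, z_q2_b2]
      funext i
      simp only [Pi.add_apply, Pi.sub_apply, Pi.smul_apply, Pi.neg_apply, smul_eq_mul]
      linear_combination ((-1) * a2 i + (-1) * p1 i + (-1) * p2 i + (-1) * b1 i) * h2
    have ga2 : (mat Q (reflEl Q c1 * reflEl Q c2 * (reflEl Q c3 * reflEl Q b1))).mulVec a2 = p2 := by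
      rw [hG, hc1, hc2, hc3]
      simp only [QuadraticMap.polar_add_left, QuadraticMap.polar_add_right, QuadraticMap.polar_sub_left, QuadraticMap.polar_sub_right, QuadraticMap.polar_neg_left, QuadraticMap.polar_neg_right, QuadraticMap.polar_smul_left, QuadraticMap.polar_smul_right, smul_eq_mul, f_a1_a1, f_a1_a2, f_a1_b1, f_a1_b2, f_a2_a1, f_a2_a2, f_a2_b1, f_a2_b2, f_b1_a1, f_b1_a2, f_b1_b1, f_b1_b2, f_b2_a1, f_b2_a2, f_b2_b1, f_b2_b2, f_p1_p1, f_p1_p2, f_p1_q1, f_p1_q2, f_p2_p1, f_p2_p2, f_p2_q1, f_p2_q2, f_q1_p1, f_q1_p2, f_q1_q1, f_q1_q2, f_q2_p1, f_q2_p2, f_q2_q1, f_q2_q2, z_a1_p1, z_p1_a1, z_a1_p2, z_p2_a1, z_a1_q1, z_q1_a1, z_a1_q2, z_q2_a1, z_a2_p1, z_p1_a2, z_a2_p2, z_p2_a2, z_a2_q1, z_q1_a2, z_a2_q2, z_q2_a2, z_b1_p1, z_p1_b1, z_b1_p2, z_p2_b1, z_b1_q1, z_q1_b1, z_b1_q2, z_q2_b1, z_b2_p1, z_p1_b2, z_b2_p2, z_p2_b2, z_b2_q1, z_q1_b2, z_b2_q2,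 z_q2_b2]
      funext i
      simp only [Pi.add_apply, Pi.sub_apply, Pi.smul_apply, Pi.neg_apply, smul_eq_mul]
      linear_combination ((-1) * a1 i + (-1) * p1 i + (-1) * p2 i + (-1) * b1 i) * h2
    have gp1 : (mat Q (reflEl Q c1 * reflEl Q c2 * (reflEl Q c3 * reflEl Q b1))).mulVec p1 = a1 := by
      rw [hG, hc1, hc2, hc3]
      simp only [QuadraticMap.polar_add_left, QuadraticMap.polar_add_right, QuadraticMap.polar_sub_left, QuadraticMap.polar_sub_right, QuadraticMap.polar_neg_left, QuadraticMap.polar_neg_right, QuadraticMap.polar_smul_left, QuadraticMap.polar_smul_right, smul_eq_mul, f_a1_a1, f_a1_a2, f_a1_b1, f_a1_b2, f_a2_a1, f_a2_a2, f_a2_b1, f_a2_b2, f_b1_a1, f_b1_a2, f_b1_b1, f_b1_b2, f_b2_a1, f_b2_a2, f_b2_b1, f_b2_b2, f_p1_p1, f_p1_p2, f_p1_q1, f_p1_q2, f_p2_p1, f_p2_p2, f_p2_q1, f_p2_q2, f_q1_p1, f_q1_p2, f_q1_q1, f_q1_q2, f_q2_p1, f_q2_p2,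 f_q2_q1, f_q2_q2, z_a1_p1, z_p1_a1, z_a1_p2, z_p2_a1, z_a1_q1, z_q1_a1, z_a1_q2, z_q2_a1, z_a2_p1, z_p1_a2, z_a2_p2, z_p2_a2, z_a2_q1, z_q1_a2, z_a2_q2, z_q2_a2, z_b1_p1, z_p1_b1, z_b1_p2, z_p2_b1, z_b1_q1, z_q1_b1, z_b1_q2, z_q2_b1, z_b2_p1, z_p1_b2, z_b2_p2, z_p2_b2, z_b2_q1, z_q1_b2, z_b2_q2, z_q2_b2]
      funext i
      simp only [Pi.add_apply, Pi.sub_apply, Pi.smul_apply, Pi.neg_apply, smul_eq_mul]
      linear_combination ((-1) * a1 i + (-1) * a2 i + (-1) * p2 i + (-1) * b1 i) * h2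
    have gp2 : (mat Q (reflEl Q c1 * reflEl Q c2 * (reflEl Q c3 * reflEl Q b1))).mulVec p2 = a2 := by
      rw [hG, hc1, hc2, hc3]
      simp only [QuadraticMap.polar_add_left, QuadraticMap.polar_add_right, QuadraticMap.polar_sub_left, QuadraticMap.polar_sub_right, QuadraticMap.polar_neg_left, QuadraticMap.polar_neg_right, QuadraticMap.polar_smul_left, QuadraticMap.polar_smul_right, smul_eq_mul, f_a1_a1, f_a1_a2, f_a1_b1, f_a1_b2, f_a2_a1, f_a2_a2, f_a2_b1, f_a2_b2, f_b1_a1, f_b1_a2, f_b1_b1, f_b1_b2, f_b2_a1, f_b2_a2, f_b2_b1, f_b2_b2, f_p1_p1, f_p1_p2, f_p1_q1, f_p1_q2, f_p2_p1, f_p2_p2, f_p2_q1, f_p2_q2, f_q1_p1, f_q1_p2, f_q1_q1, f_q1_q2, f_q2_p1, f_q2_p2, f_q2_q1, f_q2_q2, z_a1_p1, z_p1_a1, z_a1_p2, z_p2_a1, z_a1_q1, z_q1_a1, z_a1_q2, z_q2_a1, z_a2_p1, z_p1_a2, z_a2_p2, z_p2_a2, z_a2_q1, z_q1_a2, z_a2_q2, z_q2_a2, z_b1_p1, z_p1_b1, z_b1_p2, z_p2_b1,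 z_b1_q1, z_q1_b1, z_b1_q2, z_q2_b1, z_b2_p1, z_p1_b2, z_b2_p2, z_p2_b2, z_b2_q1, z_q1_b2, z_b2_q2, z_q2_b2]
      funext i
      simp only [Pi.add_apply, Pi.sub_apply, Pi.smul_apply, Pi.neg_apply, smul_eq_mul]
      linear_combination ((-1) * a1 i + (-1) * a2 i + (-1) * p1 i + (-1) * b1 i) * h2
    have gb1 : (mat Q (reflEl Q c1 * reflEl Q c2 * (reflEl Q c3 * reflEl Q b1))).mulVec b1 = b1 := hfix b1 f_a1_b1 f_a2_b1 z_p1_b1 z_p2_b1 f_b1_b1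
    have gb2 : (mat Q (reflEl Q c1 * reflEl Q c2 * (reflEl Q c3 * reflEl Q b1))).mulVec b2 = b2 := by
      rw [hG, hc1, hc2, hc3]
      simp only [QuadraticMap.polar_add_left, QuadraticMap.polar_add_right, QuadraticMap.polar_sub_left, QuadraticMap.polar_sub_right, QuadraticMap.polar_neg_left, QuadraticMap.polar_neg_right, QuadraticMap.polar_smul_left, QuadraticMap.polar_smul_right, smul_eq_mul, f_a1_a1, f_a1_a2, f_a1_b1, f_a1_b2, f_a2_a1, f_a2_a2, f_a2_b1, f_a2_b2, f_b1_a1, f_b1_a2, f_b1_b1, f_b1_b2, f_b2_a1, f_b2_a2, f_b2_b1, f_b2_b2, f_p1_p1, f_p1_p2, f_p1_q1, f_p1_q2, f_p2_p1, f_p2_p2, f_p2_q1, f_p2_q2, f_q1_p1, f_q1_p2, f_q1_q1, f_q1_q2, f_q2_p1, f_q2_p2, f_q2_q1, f_q2_q2, z_a1_p1, z_p1_a1, z_a1_p2, z_p2_a1, z_a1_q1, z_q1_a1, z_a1_q2, z_q2_a1, z_a2_p1, z_p1_a2, z_a2_p2, z_p2_a2, z_a2_q1, z_q1_a2, z_a2_q2, z_q2_a2, z_b1_p1, z_p1_b1, z_b1_p2, z_p2_b1,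 z_b1_q1, z_q1_b1, z_b1_q2, z_q2_b1, z_b2_p1, z_p1_b2, z_b2_p2, z_p2_b2, z_b2_q1, z_q1_b2, z_b2_q2, z_q2_b2]
      funext i
      simp only [Pi.add_apply, Pi.sub_apply, Pi.smul_apply, Pi.neg_apply, smul_eq_mul]
      linear_combination ((-2) * b1 i + (-1) * a1 i + (-1) * a2 i + (-1) * p1 i + (-1) * p2 i) * h2
    have gq1 : (mat Q (reflEl Q c1 * reflEl Q c2 * (reflEl Q c3 * reflEl Q b1))).mulVec q1 = q1 := hfix q1 z_a1_q1 z_a2_q1 f_p1_q1 f_p2_q1 z_b1_q1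
    have gq2 : (mat Q (reflEl Q c1 * reflEl Q c2 * (reflEl Q c3 * reflEl Q b1))).mulVec q2 = q2 := hfix q2 z_a1_q2 z_a2_q2 f_p1_q2 f_p2_q2 z_b1_q2
    refine ⟨reflEl Q c1 * reflEl Q c2 * (reflEl Q c3 * reflEl Q b1),
      Subgroup.mul_mem _ (pair_mem_omega hh Q hQ _ _ hQc10 (hQc2.trans hQc1.symm))
        (pair_mem_omega hh Q hQ _ _ hQc30 (hQb1.trans hQc3.symm)), ?_, ?_⟩
    · intro i v hv hQv
      by_cases hi0 : i = i₀
      · subst hi0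
        obtain ⟨x1, x2, y1, y2, rfl⟩ := H0 v hv
        have hgv : (mat Q (reflEl Q c1 * reflEl Q c2 * (reflEl Q c3 * reflEl Q b1))).mulVec (x1 • a1 + x2 • a2 + y1 • b1 + y2 • b2)
            = x1 • p1 + x2 • p2 + y1 • b1 + y2 • b2 := by
          rw [Matrix.mulVec_add, Matrix.mulVec_add, Matrix.mulVec_add, Matrix.mulVec_smul,
            Matrix.mulVec_smul, Matrix.mulVec_smul, Matrix.mulVec_smul, ga1, ga2, gb1, gb2]
        rcases Qform4 hz01 h2 Q a1 a2 b1 b2 hQa1 hQa2 hQb1 hQb2 f_a1_a2 f_b1_b2 f_a1_b1 f_a1_b2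
          f_a2_b1 f_a2_b2 x1 x2 y1 y2 hQv with ⟨rfl, rfl⟩ | ⟨rfl, rfl⟩
        · refine ⟨i₁, ?_⟩
          rw [hgv, zero_smul, zero_smul, add_zero, add_zero]
          exact (D i₁).add_mem ((D i₁).smul_mem _ hp1) ((D i₁).smul_mem _ hp2)
        · refine ⟨i, ?_⟩
          rw [hgv, zero_smul, zero_smul, zero_add, zero_add]
          exact (D i).add_mem ((D i).smul_mem _ hb1) ((D i).smul_mem _ hb2)
      · by_cases hi1 : i = i₁
        · subst hi1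
          obtain ⟨x1, x2, y1, y2, rfl⟩ := H1 v hv
          have hgv : (mat Q (reflEl Q c1 * reflEl Q c2 * (reflEl Q c3 * reflEl Q b1))).mulVec (x1 • p1 + x2 • p2 + y1 • q1 + y2 • q2)
              = x1 • a1 + x2 • a2 + y1 • q1 + y2 • q2 := by
            rw [Matrix.mulVec_add, Matrix.mulVec_add, Matrix.mulVec_add, Matrix.mulVec_smul,
              Matrix.mulVec_smul, Matrix.mulVec_smul, Matrix.mulVec_smul, gp1, gp2, gq1, gq2]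
          rcases Qform4 hz01 h2 Q p1 p2 q1 q2 hQp1 hQp2 hQq1 hQq2 f_p1_p2 f_q1_q2 f_p1_q1
            f_p1_q2 f_p2_q1 f_p2_q2 x1 x2 y1 y2 hQv with ⟨rfl, rfl⟩ | ⟨rfl, rfl⟩
          · refine ⟨i₀, ?_⟩
            rw [hgv, zero_smul, zero_smul, add_zero, add_zero]
            exact (D i₀).add_mem ((D i₀).smul_mem _ ha1) ((D i₀).smul_mem _ ha2)
          · refine ⟨i, ?_⟩
            rw [hgv, zero_smul, zero_smul, zero_add, zero_add]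
            exact (D i).add_mem ((D i).smul_mem _ hq1) ((D i).smul_mem _ hq2)
        · refine ⟨i, ?_⟩
          rw [hfix v (horth i₀ i (Ne.symm hi0) a1 ha1 v hv) (horth i₀ i (Ne.symm hi0) a2 ha2 v hv)
            (horth i₁ i (Ne.symm hi1) p1 hp1 v hv) (horth i₁ i (Ne.symm hi1) p2 hp2 v hv)
            (horth i₀ i (Ne.symm hi0) b1 hb1 v hv)]
          exact hv
    · intro hmem
      obtain ⟨σ, hσ⟩ := stab_maps Q D _ hmem
      have h5' := hσ i₀ a1 ha1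
      have h6 := hσ i₀ b1 hb1
      rw [ga1] at h5'
      rw [gb1] at h6
      have hσ1 : σ i₀ = i₁ := block_eq Q D horth h5' hp2 (by rw [f_p1_p2]; exact h1ne)
      have hσ0 : σ i₀ = i₀ := block_eq Q D horth h6 hb2 (by rw [f_b1_b2]; exact h1ne)
      exact h01 (hσ0.symm.trans hσ1)
  · have hg : ∀ x, (mat Q (reflEl Q c1 * reflEl Q b1)).mulVec x = rf Q c1 (rf Q b1 x) := mat_refl2 Q _ _ hQc10 hQb10
    have ga2 : (mat Q (reflEl Q c1 * reflEl Q b1)).mulVec a2 = a2 - (a1 + p1 + b1) := by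
      rw [hg, rf_orth Q b1 a2 f_b1_a2, rf_one Q _ _ hQc1, hc1]
      simp only [QuadraticMap.polar_add_left, QuadraticMap.polar_add_right, QuadraticMap.polar_sub_left, QuadraticMap.polar_sub_right, QuadraticMap.polar_neg_left, QuadraticMap.polar_neg_right, QuadraticMap.polar_smul_left, QuadraticMap.polar_smul_right, smul_eq_mul, f_a1_a1, f_a1_a2, f_a1_b1, f_a1_b2, f_a2_a1, f_a2_a2, f_a2_b1, f_a2_b2, f_b1_a1, f_b1_a2, f_b1_b1, f_b1_b2, f_b2_a1, f_b2_a2, f_b2_b1, f_b2_b2, f_p1_p1, f_p1_p2, f_p1_q1, f_p1_q2, f_p2_p1, f_p2_p2, f_p2_q1, f_p2_q2, f_q1_p1, f_q1_p2, f_q1_q1, f_q1_q2, f_q2_p1, f_q2_p2, f_q2_q1, f_q2_q2, z_a1_p1, z_p1_a1, z_a1_p2, z_p2_a1, z_a1_q1, z_q1_a1, z_a1_q2, z_q2_a1, z_a2_p1, z_p1_a2, z_a2_p2, z_p2_a2, z_a2_q1, z_q1_a2, z_a2_q2, z_q2_a2, z_b1_p1, z_p1_b1, z_b1_p2, z_p2_b1, z_b1_q1, z_q1_b1, z_b1_q2, z_q2_b1, z_b2_p1, z_p1_b2, z_b2_p2,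 z_p2_b2, z_b2_q1, z_q1_b2, z_b2_q2, z_q2_b2]
      funext i
      simp only [Pi.add_apply, Pi.sub_apply, Pi.smul_apply, Pi.neg_apply, smul_eq_mul]
      ring
    refine ⟨reflEl Q c1 * reflEl Q b1,
      pair_mem_omega hh Q hQ _ _ hQc10 (hQb1.trans hQc1.symm), i₀, a2, ha2, hQa2, ?_⟩
    rw [ga2]
    intro j hj
    have hj0 : j = i₀ := block_eq Q D horth hj ha1 (by
      intro h
      simp only [QuadraticMap.polar_add_left, QuadraticMap.polar_add_right, QuadraticMap.polar_sub_left, QuadraticMap.polar_sub_right, QuadraticMap.polar_neg_left, QuadraticMap.polar_neg_right, QuadraticMap.polar_smul_left, QuadraticMap.polar_smul_right, smul_eq_mul, f_a1_a1, f_a1_a2, f_a1_b1, f_a1_b2, f_a2_a1, f_a2_a2, f_a2_b1, f_a2_b2, f_b1_a1, f_b1_a2, f_b1_b1, f_b1_b2, f_b2_a1, f_b2_a2, f_b2_b1, f_b2_b2, f_p1_p1, f_p1_p2, f_p1_q1, f_p1_q2, f_p2_p1, f_p2_p2, f_p2_q1, f_p2_q2,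 f_q1_p1, f_q1_p2, f_q1_q1, f_q1_q2, f_q2_p1, f_q2_p2, f_q2_q1, f_q2_q2, z_a1_p1, z_p1_a1, z_a1_p2, z_p2_a1, z_a1_q1, z_q1_a1, z_a1_q2, z_q2_a1, z_a2_p1, z_p1_a2, z_a2_p2, z_p2_a2, z_a2_q1, z_q1_a2, z_a2_q2, z_q2_a2, z_b1_p1, z_p1_b1, z_b1_p2, z_p2_b1, z_b1_q1, z_q1_b1, z_b1_q2, z_q2_b1, z_b2_p1, z_p1_b2, z_b2_p2, z_p2_b2, z_b2_q1, z_q1_b2, z_b2_q2, z_q2_b2] at h
      apply h1ne
      linear_combination h)
    have hj1 : j = i₁ := block_eq Q D horth hj hp2 (by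
      intro h
      simp only [QuadraticMap.polar_add_left, QuadraticMap.polar_add_right, QuadraticMap.polar_sub_left, QuadraticMap.polar_sub_right, QuadraticMap.polar_neg_left, QuadraticMap.polar_neg_right, QuadraticMap.polar_smul_left, QuadraticMap.polar_smul_right, smul_eq_mul, f_a1_a1, f_a1_a2, f_a1_b1, f_a1_b2, f_a2_a1, f_a2_a2, f_a2_b1, f_a2_b2, f_b1_a1, f_b1_a2, f_b1_b1, f_b1_b2, f_b2_a1, f_b2_a2, f_b2_b1, f_b2_b2, f_p1_p1, f_p1_p2, f_p1_q1, f_p1_q2, f_p2_p1, f_p2_p2, f_p2_q1, f_p2_q2, f_q1_p1, f_q1_p2, f_q1_q1, f_q1_q2, f_q2_p1, f_q2_p2, f_q2_q1, f_q2_q2, z_a1_p1, z_p1_a1, z_a1_p2, z_p2_a1, z_a1_q1, z_q1_a1, z_a1_q2, z_q2_a1, z_a2_p1, z_p1_a2, z_a2_p2, z_p2_a2, z_a2_q1, z_q1_a2, z_a2_q2, z_q2_a2, z_b1_p1, z_p1_b1, z_b1_p2, z_p2_b1, z_b1_q1, z_q1_b1, z_b1_q2, z_q2_b1, z_b2_p1, z_p1_b2, z_b2_p2, z_p2_b2, z_b2_q1, z_q1_b2, z_b2_q2, z_q2_b2] at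 h
      apply h1ne
      linear_combination (-1 : F) * h)
    exact h01 (hj0.symm.trans hj1)

end K4

end Cfsg.Agent.Lib.helper19.DecompPlus
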