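import Mathlib
import Cfsg.Agent.Lib.helper4.UPerp
import Cfsg.Agent.Lib.helper4.USU

set_option autoImplicit false

/-!
A unitary 3x3 matrix with a quadratic minimal polynomial: an orthogonal eigenframe.
-/

namespace Cfsg.Agent.Lib.helper19.E27k3

open Matrix Cfsg.Agent.Lib.helper4

theorem det_of_eigen {F : Type*} [Field F] (M : Matrix (Fin 3) (Fin 3) F)
    (T : Fin 3 → (Fin 3 → F)) (hT : LinearIndependent F T) (μ : Fin 3 → F)
    (h : ∀ i, M *ᵥ T i = μ i • T i) : M.det = ∏ i, μ i := by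
  obtain ⟨P, hP⟩ : ∃ P : Matrix (Fin 3) (Fin 3) F, P = (Matrix.of T)ᵀ := ⟨_, rfl⟩
  have hMP : M * P = P * Matrix.diagonal μ := by
    ext i j
    rw [Matrix.mul_diagonal, hP]
    have h1 := congrFun (h j) i
    rw [Matrix.mul_apply]
    simp only [Matrix.transpose_apply, Matrix.of_apply]
    rw [Pi.smul_apply, smul_eq_mul] at h1
    rw [mul_comm (T j i)]
    exact h1
  have hPu : IsUnit P := by
    rw [hP, Matrix.isUnit_transpose]
    exact Matrix.linearIndependent_rows_iff_isUnit.mp hT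
  have hdP : P.det ≠ 0 := ((Matrix.isUnit_iff_isUnit_det P).mp hPu).ne_zero
  have h2 := congrArg Matrix.det hMP
  rw [Matrix.det_mul, Matrix.det_mul, Matrix.det_diagonal] at h2
  have h3 : M.det * P.det = (∏ i, μ i) * P.det := by rw [h2, mul_comm]
  exact mul_right_cancel₀ hdP h3

theorem two_eig {F : Type*} [Field F] [Fintype F] {q : ℕ} (hF : Fintype.card F = q ^ 2)
    (X : GL (Fin 3) F) (hX : X ∈ Cfsg.GU 3 F q) (l m : F) (hlm : l ≠ m) (hl : l * m ^ q ≠ 1)
    (hquad : ((X : Matrix (Fin 3) (Fin 3) F) - l • 1) *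
      ((X : Matrix (Fin 3) (Fin 3) F) - m • 1) = 0)
    (hdet : (X : Matrix (Fin 3) (Fin 3) F).det = l * m ^ 2)
    (hns : ∀ z : F, (X : Matrix (Fin 3) (Fin 3) F) ≠ z • (1 : Matrix (Fin 3) (Fin 3) F)) :
    ∃ W : Fin 3 → (Fin 3 → F), LinearIndependent F W ∧
      (∀ i j, i ≠ j → Cfsg.hermForm 3 F q (W i) (W j) = 0) ∧
      (X : Matrix (Fin 3) (Fin 3) F) *ᵥ W 0 = l • W 0 ∧
      (X : Matrix (Fin 3) (Fin 3) F) *ᵥ W 1 = m • W 1 ∧
      (X : Matrix (Fin 3) (Fin 3) F) *ᵥ W 2 = m • W 2 := by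
  classical
  have hq := uq_ge_two hF
  have hpres₀ : ∀ u v, Cfsg.hermForm 3 F q ((X : Matrix (Fin 3) (Fin 3) F) *ᵥ u)
      ((X : Matrix (Fin 3) (Fin 3) F) *ᵥ v) = Cfsg.hermForm 3 F q u v := hX
  have hinv₀ : ((X⁻¹ : GL (Fin 3) F) : Matrix (Fin 3) (Fin 3) F) *
      (X : Matrix (Fin 3) (Fin 3) F) = 1 := by
    rw [← Units.val_mul, inv_mul_cancel, Units.val_one]
  obtain ⟨M, hM⟩ : ∃ M : Matrix (Fin 3) (Fin 3) F, M = (X : Matrix (Fin 3) (Fin 3) F) :=
    ⟨_, rfl⟩
  rw [← hM] at hquad hdet hns hpres₀ hinv₀ ⊢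
  have hpres : ∀ u v, Cfsg.hermForm 3 F q (M *ᵥ u) (M *ᵥ v) = Cfsg.hermForm 3 F q u v :=
    hpres₀
  have hinj : ∀ v, M *ᵥ v = 0 → v = 0 := by
    intro v hv
    have h2 : ((X⁻¹ : GL (Fin 3) F) : Matrix (Fin 3) (Fin 3) F) *ᵥ (M *ᵥ v) = v := by
      rw [Matrix.mulVec_mulVec, hinv₀, Matrix.one_mulVec]
    rw [hv, Matrix.mulVec_zero] at h2
    exact h2.symm
  have hAv : ∀ v, (M - l • (1 : Matrix (Fin 3) (Fin 3) F)) *ᵥ v = M *ᵥ v - l • v := by
    intro v
    rw [Matrix.sub_mulVec, Matrix.smul_mulVec, Matrix.one_mulVec]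
  have hBv : ∀ v, (M - m • (1 : Matrix (Fin 3) (Fin 3) F)) *ᵥ v = M *ᵥ v - m • v := by
    intro v
    rw [Matrix.sub_mulVec, Matrix.smul_mulVec, Matrix.one_mulVec]
  have hBA : (M - m • (1 : Matrix (Fin 3) (Fin 3) F)) * (M - l • 1) = 0 := by
    have hc1 : ∀ z : F, Commute M (z • (1 : Matrix (Fin 3) (Fin 3) F)) :=
      fun z => (Commute.one_right M).smul_right z
    have hc2 : Commute (l • (1 : Matrix (Fin 3) (Fin 3) F))
        (m • (1 : Matrix (Fin 3) (Fin 3) F)) :=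
      (Commute.one_left (m • (1 : Matrix (Fin 3) (Fin 3) F))).smul_left l
    have h1 : Commute (M - l • (1 : Matrix (Fin 3) (Fin 3) F))
        (M - m • (1 : Matrix (Fin 3) (Fin 3) F)) :=
      ((Commute.refl M).sub_right (hc1 m)).sub_left (((hc1 l).symm).sub_right hc2)
    rw [← h1.eq, hquad]
  have hEl : ∀ v, (M - l • (1 : Matrix (Fin 3) (Fin 3) F)) *ᵥ v = 0 → M *ᵥ v = l • v := by
    intro v hv
    rw [hAv] at hv
    exact sub_eq_zero.mp hv
  have hEm : ∀ v, (M - m • (1 : Matrix (Fin 3) (Fin 3) F)) *ᵥ v = 0 → M *ᵥ v = m • v := by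
    intro v hv
    rw [hBv] at hv
    exact sub_eq_zero.mp hv
  have hBl : ∀ y, M *ᵥ ((M - m • (1 : Matrix (Fin 3) (Fin 3) F)) *ᵥ y) =
      l • ((M - m • (1 : Matrix (Fin 3) (Fin 3) F)) *ᵥ y) := by
    intro y
    apply hEl
    rw [Matrix.mulVec_mulVec, hquad, Matrix.zero_mulVec]
  have hAm : ∀ y, M *ᵥ ((M - l • (1 : Matrix (Fin 3) (Fin 3) F)) *ᵥ y) =
      m • ((M - l • (1 : Matrix (Fin 3) (Fin 3) F)) *ᵥ y) := by
    intro y
    apply hEm
    rw [Matrix.mulVec_mulVec, hBA, Matrix.zero_mulVec]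
  have horth : ∀ a b, M *ᵥ a = l • a → M *ᵥ b = m • b → Cfsg.hermForm 3 F q a b = 0 := by
    intro a b ha hb
    have h1 := hpres a b
    rw [ha, hb, herm_smul_left, herm_smul_right] at h1
    have h2 : (l * m ^ q - 1) * Cfsg.hermForm 3 F q a b = 0 := by linear_combination h1
    rcases mul_eq_zero.mp h2 with h3 | h3
    · exact absurd (sub_eq_zero.mp h3) hl
    · exact h3
  have hzero : ∀ N : Matrix (Fin 3) (Fin 3) F, (∀ v, N *ᵥ v = 0) → N = 0 := by
    intro N hN
    apply Matrix.toLin'.injective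
    apply LinearMap.ext
    intro v
    rw [Matrix.toLin'_apply, hN v, map_zero, LinearMap.zero_apply]
  obtain ⟨u, hu⟩ : ∃ u, (M - m • (1 : Matrix (Fin 3) (Fin 3) F)) *ᵥ u ≠ 0 := by
    by_contra hcon
    push_neg at hcon
    exact hns m (sub_eq_zero.mp (hzero _ hcon))
  obtain ⟨u', hu'⟩ : ∃ u, (M - l • (1 : Matrix (Fin 3) (Fin 3) F)) *ᵥ u ≠ 0 := by
    by_contra hcon
    push_neg at hcon
    exact hns l (sub_eq_zero.mp (hzero _ hcon))
  obtain ⟨W0, hW0⟩ : ∃ W0, W0 = (M - m • (1 : Matrix (Fin 3) (Fin 3) F)) *ᵥ u := ⟨_, rfl⟩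
  obtain ⟨V, hV⟩ : ∃ V, V = (M - l • (1 : Matrix (Fin 3) (Fin 3) F)) *ᵥ u' := ⟨_, rfl⟩
  have hW0ne : W0 ≠ 0 := by rw [hW0]; exact hu
  have hVne : V ≠ 0 := by rw [hV]; exact hu'
  have hW0l : M *ᵥ W0 = l • W0 := by rw [hW0]; exact hBl u
  have hVm : M *ᵥ V = m • V := by rw [hV]; exact hAm u'
  have hl0 : l ≠ 0 := by
    intro h0
    rw [h0, zero_smul] at hW0l
    exact hW0ne (hinj W0 hW0l)
  have hm0 : m ≠ 0 := by
    intro h0
    rw [h0, zero_smul] at hVm
    exact hVne (hinj V hVm)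
  have hrank : ∀ y, ∃ t : F, (M - m • (1 : Matrix (Fin 3) (Fin 3) F)) *ᵥ y = t • W0 := by
    intro y
    by_contra hcon
    push_neg at hcon
    obtain ⟨W0', hW0'⟩ : ∃ W0', W0' = (M - m • (1 : Matrix (Fin 3) (Fin 3) F)) *ᵥ y :=
      ⟨_, rfl⟩
    rw [← hW0'] at hcon
    have hW0'l : M *ᵥ W0' = l • W0' := by rw [hW0']; exact hBl y
    have hA0 : (M - l • (1 : Matrix (Fin 3) (Fin 3) F)) *ᵥ W0 = 0 := by
      rw [hAv, hW0l, sub_self]
    have hA0' : (M - l • (1 : Matrix (Fin 3) (Fin 3) F)) *ᵥ W0' = 0 := by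
      rw [hAv, hW0'l, sub_self]
    have hAV : (M - l • (1 : Matrix (Fin 3) (Fin 3) F)) *ᵥ V = (m - l) • V := by
      rw [hAv, hVm, sub_smul]
    have hind : LinearIndependent F ![W0, W0', V] := by
      rw [Fintype.linearIndependent_iff]
      intro g hg
      rw [Fin.sum_univ_three] at hg
      have hg' : g 0 • W0 + g 1 • W0' + g 2 • V = 0 := hg
      have h1 := congrArg (fun v => (M - l • (1 : Matrix (Fin 3) (Fin 3) F)) *ᵥ v) hg'
      simp only [Matrix.mulVec_add, Matrix.mulVec_smul, hA0, hA0', hAV, Matrix.mulVec_zero,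
        smul_zero, zero_add, smul_smul] at h1
      have hg2 : g 2 = 0 := by
        rcases smul_eq_zero.mp h1 with h | h
        · rcases mul_eq_zero.mp h with h' | h'
          · exact h'
          · exact absurd (sub_eq_zero.mp h').symm hlm
        · exact absurd h hVne
      rw [hg2, zero_smul, add_zero] at hg'
      have hg1 : g 1 = 0 := by
        by_contra h1ne
        have h3 : g 1 • W0' = (-(g 0)) • W0 := by
          rw [neg_smul]
          exact eq_neg_of_add_eq_zero_right hg'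
        have h4 : W0' = (g 1)⁻¹ • ((-(g 0)) • W0) := by
          rw [← h3, smul_smul, inv_mul_cancel₀ h1ne, one_smul]
        rw [smul_smul] at h4
        exact hcon _ h4
      rw [hg1, zero_smul, add_zero] at hg'
      have hg0 : g 0 = 0 := (smul_eq_zero.mp hg').resolve_right hW0ne
      intro i
      fin_cases i
      · exact hg0
      · exact hg1
      · exact hg2
    have hdetT := det_of_eigen M ![W0, W0', V] hind ![l, l, m] (by
      intro i
      fin_cases i
      · exact hW0l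
      · exact hW0'l
      · exact hVm)
    rw [Fin.prod_univ_three, hdet] at hdetT
    have hdetT' : l * m ^ 2 = l * l * m := hdetT
    have h5 : l * m * (m - l) = 0 := by linear_combination hdetT'
    rcases mul_eq_zero.mp h5 with h | h
    · rcases mul_eq_zero.mp h with h' | h'
      · exact hl0 h'
      · exact hm0 h'
    · exact hlm (sub_eq_zero.mp h).symm
  have hW0an : Cfsg.hermForm 3 F q W0 W0 ≠ 0 := by
    intro h0
    apply hW0ne
    apply herm_nondeg hF
    intro y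
    obtain ⟨t, ht⟩ := hrank y
    have hdec : (l - m) • y = (M - m • (1 : Matrix (Fin 3) (Fin 3) F)) *ᵥ y -
        (M - l • (1 : Matrix (Fin 3) (Fin 3) F)) *ᵥ y := by
      rw [hAv, hBv, sub_smul]
      abel
    have h1 : Cfsg.hermForm 3 F q W0 ((l - m) • y) = 0 := by
      rw [hdec, herm_sub_right hF, ht, herm_smul_right, h0, mul_zero,
        horth W0 _ hW0l (hAm y), sub_zero]
    rw [herm_smul_right] at h1
    rcases mul_eq_zero.mp h1 with h | h
    · exact absurd ((pow_eq_zero_iff (by omega)).mp h) (sub_ne_zero.mpr hlm)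
    · exact h
  have hperp : ∀ y, Cfsg.hermForm 3 F q y W0 = 0 → M *ᵥ y = m • y := by
    intro y hy
    apply hEm
    obtain ⟨t, ht⟩ := hrank y
    have h1 : Cfsg.hermForm 3 F q ((M - m • (1 : Matrix (Fin 3) (Fin 3) F)) *ᵥ y) W0 = 0 := by
      rw [hBv, herm_sub_left, herm_smul_left, hy, mul_zero, sub_zero]
      have hW : W0 = M *ᵥ (l⁻¹ • W0) := by
        rw [Matrix.mulVec_smul, hW0l, smul_smul, inv_mul_cancel₀ hl0, one_smul]
      rw [hW, hpres, herm_smul_right, hy, mul_zero]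
    rw [ht, herm_smul_left] at h1
    rw [ht]
    rcases mul_eq_zero.mp h1 with h | h
    · rw [h, zero_smul]
    · exact absurd h hW0an
  obtain ⟨W1, -, hW1o, hW1an⟩ := exists_aniso_in hF (⊤ : Submodule F (Fin 3 → F)) (by
      intro y _ hy0
      by_contra hcon
      push_neg at hcon
      exact hy0 (herm_nondeg hF y (fun x => hcon x Submodule.mem_top)))
    (by simp) W0 Submodule.mem_top
  obtain ⟨f, hf⟩ : ∃ f : (Fin 3 → F) →ₗ[F] F × F,
      ∀ x, f x = (Cfsg.hermForm 3 F q x W0, Cfsg.hermForm 3 F q x W1) :=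
    ⟨(uB hF 3 W0).prod (uB hF 3 W1), fun x => rfl⟩
  have hker : LinearMap.ker f ≠ ⊥ := LinearMap.ker_ne_bot_of_finrank_lt (by simp)
  obtain ⟨W2, hW2k, hW2ne⟩ := (Submodule.ne_bot_iff _).mp hker
  have hW2 := LinearMap.mem_ker.mp hW2k
  rw [hf] at hW2
  have hW20 : Cfsg.hermForm 3 F q W2 W0 = 0 := congrArg Prod.fst hW2
  have hW21 : Cfsg.hermForm 3 F q W2 W1 = 0 := congrArg Prod.snd hW2
  have hW1m : M *ᵥ W1 = m • W1 := hperp W1 hW1o
  have hW2m : M *ᵥ W2 = m • W2 := hperp W2 hW20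
  have h01 : Cfsg.hermForm 3 F q W0 W1 = 0 := horth W0 W1 hW0l hW1m
  have h02 : Cfsg.hermForm 3 F q W0 W2 = 0 := horth W0 W2 hW0l hW2m
  have h12 : Cfsg.hermForm 3 F q W1 W2 = 0 := by
    rw [← herm_symm hF, hW21, zero_pow (by omega)]
  refine ⟨![W0, W1, W2], ?_, ?_, hW0l, hW1m, hW2m⟩
  · rw [Fintype.linearIndependent_iff]
    intro g hg
    rw [Fin.sum_univ_three] at hg
    have hg' : g 0 • W0 + g 1 • W1 + g 2 • W2 = 0 := hg
    have e0 := congrArg (fun v => Cfsg.hermForm 3 F q v W0) hg'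
    simp only [herm_add_left, herm_smul_left, hW1o, hW20, herm_zero_left, mul_zero,
      add_zero] at e0
    have hg0 : g 0 = 0 := (mul_eq_zero.mp e0).resolve_right hW0an
    have e1 := congrArg (fun v => Cfsg.hermForm 3 F q v W1) hg'
    simp only [herm_add_left, herm_smul_left, h01, hW21, herm_zero_left, mul_zero, add_zero,
      zero_add] at e1
    have hg1 : g 1 = 0 := (mul_eq_zero.mp e1).resolve_right hW1an
    rw [hg0, hg1, zero_smul, zero_smul, zero_add, zero_add] at hg'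
    have hg2 : g 2 = 0 := (smul_eq_zero.mp hg').resolve_right hW2ne
    intro i
    fin_cases i
    · exact hg0
    · exact hg1
    · exact hg2
  · intro i j hij
    fin_cases i <;> fin_cases j <;>
      first
        | exact absurd rfl hij
        | exact h01
        | exact h02
        | exact hW1o
        | exact h12
        | exact hW20
        | exact hW21

end Cfsg.Agent.Lib.helper19.E27k3
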