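import Mathlib
import Cfsg.Agent.Lib.helper4.UPerp
import Cfsg.Agent.Lib.helper4.USU

set_option autoImplicit false

/-!
Conjugacy in the special unitary group of two matrices that are diagonal, with the same
eigenvalues, in two orthogonal frames.
-/

namespace Cfsg.Agent.Lib.helper19.E27k4

open Matrix Cfsg.Agent.Lib.helper4

theorem norm_ne_zero {F : Type*} [Field F] [Fintype F] {q : ℕ} (hF : Fintype.card F = q ^ 2)
    (W : Fin 3 → (Fin 3 → F)) (hW : LinearIndependent F W)
    (hWo : ∀ i j, i ≠ j → Cfsg.hermForm 3 F q (W i) (W j) = 0) (i : Fin 3) :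
    Cfsg.hermForm 3 F q (W i) (W i) ≠ 0 := by
  intro h0
  have hspan : Submodule.span F (Set.range W) = ⊤ :=
    hW.span_eq_top_of_card_eq_finrank' (by simp)
  have hall : ∀ y, Cfsg.hermForm 3 F q (W i) y = 0 := by
    intro y
    have hy : y ∈ Submodule.span F (Set.range W) := by
      rw [hspan]
      exact Submodule.mem_top
    refine Submodule.span_induction (p := fun y _ => Cfsg.hermForm 3 F q (W i) y = 0)
      ?_ ?_ ?_ ?_ hy
    · rintro _ ⟨j, rfl⟩
      by_cases hij : i = j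
      · subst hij
        exact h0
      · exact hWo i j hij
    · exact herm_zero_right hF _
    · intro a b _ _ ha hb
      rw [herm_add_right hF, ha, hb, add_zero]
    · intro a b _ hb
      rw [herm_smul_right, hb, mul_zero]
  have hz : W i = 0 := herm_nondeg hF (W i) hall
  exact hW.ne_zero i hz

theorem mat_ext {F : Type*} [Field F] (U : Fin 3 → (Fin 3 → F)) (hU : LinearIndependent F U)
    (M N : Matrix (Fin 3) (Fin 3) F) (h : ∀ i, M *ᵥ U i = N *ᵥ U i) : M = N := by
  have hspan : Submodule.span F (Set.range U) = ⊤ :=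
    hU.span_eq_top_of_card_eq_finrank' (by simp)
  apply Matrix.toLin'.injective
  apply LinearMap.ext_on hspan
  rintro _ ⟨i, rfl⟩
  rw [Matrix.toLin'_apply, Matrix.toLin'_apply]
  exact h i

theorem uconj {F : Type*} [Field F] [Fintype F] {q : ℕ} (hF : Fintype.card F = q ^ 2)
    (x w : GL (Fin 3) F) (l : Fin 3 → F) (W U : Fin 3 → (Fin 3 → F))
    (hW : LinearIndependent F W) (hU : LinearIndependent F U)
    (hWo : ∀ i j, i ≠ j → Cfsg.hermForm 3 F q (W i) (W j) = 0)
    (hUo : ∀ i j, i ≠ j → Cfsg.hermForm 3 F q (U i) (U j) = 0)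
    (hxW : ∀ i, (x : Matrix (Fin 3) (Fin 3) F) *ᵥ W i = l i • W i)
    (hwU : ∀ i, (w : Matrix (Fin 3) (Fin 3) F) *ᵥ U i = l i • U i) :
    ∃ g ∈ Cfsg.GU 3 F q ⊓ Cfsg.Geo.specialLinear (Fin 3) F, g⁻¹ * x * g = w := by
  classical
  have hq := uq_ge_two hF
  have hnW := norm_ne_zero hF W hW hWo
  have hnU := norm_ne_zero hF U hU hUo
  have hc : ∀ i, ∃ c : F, c ^ (q + 1) =
      Cfsg.hermForm 3 F q (U i) (U i) / Cfsg.hermForm 3 F q (W i) (W i) := by
    intro i
    apply unorm_surj hF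
    rw [div_pow, herm_self_fixed hF, herm_self_fixed hF]
  choose c hc using hc
  have hc0 : ∀ i, c i ≠ 0 := by
    intro i h0
    have h := hc i
    rw [h0, zero_pow (by omega)] at h
    exact div_ne_zero (hnU i) (hnW i) h.symm
  have hW' : LinearIndependent F (fun i => c i • W i) :=
    hW.units_smul (fun i => Units.mk0 (c i) (hc0 i))
  have hiso : ∀ i j, Cfsg.hermForm 3 F q (c i • W i) (c j • W j) =
      Cfsg.hermForm 3 F q (U i) (U j) := by
    intro i j
    rw [herm_smul_left, herm_smul_right]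
    by_cases hij : i = j
    · subst hij
      have e : c i * (c i ^ q * Cfsg.hermForm 3 F q (W i) (W i)) =
          c i ^ (q + 1) * Cfsg.hermForm 3 F q (W i) (W i) := by ring
      rw [e, hc i, div_mul_cancel₀ _ (hnW i)]
    · rw [hWo i j hij, hUo i j hij, mul_zero, mul_zero]
  obtain ⟨A, hA, hAU₀⟩ := u_witt_frames hF U (fun i => c i • W i) hU hW' hiso
  have hAU : ∀ i, (A : Matrix (Fin 3) (Fin 3) F) *ᵥ U i = c i • W i := hAU₀
  have hdetA : (Matrix.GeneralLinearGroup.det A) ^ (q + 1) = 1 :=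
    Cfsg.Agent.S0783.det_pow_of_mem hF 3 A hA
  obtain ⟨δ, hδ⟩ : ∃ δ : F, δ = (((Matrix.GeneralLinearGroup.det A)⁻¹ : Fˣ) : F) := ⟨_, rfl⟩
  have hδ1 : δ ^ (q + 1) = 1 := by
    rw [hδ, ← Units.val_pow_eq_pow_val, inv_pow, hdetA, inv_one, Units.val_one]
  obtain ⟨r, hr, hrx, hrdet⟩ := exists_gu_refl hF (U 0) (hnU 0) δ hδ1
  have hrU : ∀ i, (r : Matrix (Fin 3) (Fin 3) F) *ᵥ U i = (if i = 0 then δ else 1) • U i := by
    intro i
    rw [hrx]
    by_cases hi : i = 0
    · subst hi
      rw [if_pos rfl, div_mul_cancel₀ _ (hnU 0), sub_smul, one_smul]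
      abel
    · rw [if_neg hi, hUo i 0 hi, mul_zero, zero_smul, add_zero, one_smul]
  refine ⟨A * r, Subgroup.mem_inf.mpr ⟨Subgroup.mul_mem _ hA hr, ?_⟩, ?_⟩
  · show A * r ∈ (Matrix.GeneralLinearGroup.det : GL (Fin 3) F →* Fˣ).ker
    rw [MonoidHom.mem_ker, map_mul]
    apply Units.ext
    rw [Units.val_mul, Units.val_one]
    have h1 : ((Matrix.GeneralLinearGroup.det r : Fˣ) : F) = δ := hrdet
    rw [h1, hδ, ← Units.val_mul, mul_inv_cancel, Units.val_one]
  · have key : x * (A * r) = (A * r) * w := by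
      apply Units.ext
      apply mat_ext U hU
      intro i
      have e1 : (x : Matrix (Fin 3) (Fin 3) F) *ᵥ ((A : Matrix (Fin 3) (Fin 3) F) *ᵥ
          ((r : Matrix (Fin 3) (Fin 3) F) *ᵥ U i)) =
          ((if i = 0 then δ else 1) * c i * l i) • W i := by
        rw [hrU, Matrix.mulVec_smul, hAU, Matrix.mulVec_smul, Matrix.mulVec_smul, hxW,
          smul_smul, smul_smul]
      have e2 : (A : Matrix (Fin 3) (Fin 3) F) *ᵥ ((r : Matrix (Fin 3) (Fin 3) F) *ᵥ
          ((w : Matrix (Fin 3) (Fin 3) F) *ᵥ U i)) =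
          ((if i = 0 then δ else 1) * c i * l i) • W i := by
        rw [hwU, Matrix.mulVec_smul, hrU, Matrix.mulVec_smul, Matrix.mulVec_smul, hAU,
          smul_smul, smul_smul]
        congr 1
        ring
      simp only [Units.val_mul, ← Matrix.mulVec_mulVec]
      rw [e1, e2]
    rw [mul_assoc, key, ← mul_assoc, inv_mul_cancel, one_mul]

end Cfsg.Agent.Lib.helper19.E27k4
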