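import Mathlib
import Cfsg.Prelude.Def_Solvable
import Cfsg.Prelude.Def_Local
import Cfsg.Agent.Lib.helper9.PPrimeCore
import Cfsg.Agent.Lib.helper15.PCore
import Cfsg.Agent.Lib.helper16.PSolv

set_option autoImplicit false

/-!
# The upper `p`-series: chain characterisation, images, additivity of `p`-length
-/

namespace Cfsg.Agent.Lib.helper19.PLen

open Cfsg

universe u

theorem ups_zero (p : ℕ) (G : Type*) [Group G] : (upperPSeries p G 0).1 = ⊥ := by
  simp [upperPSeries]

theorem ups_even (p : ℕ) (G : Type*) [Group G] (n : ℕ) (h : Even n) :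
    (upperPSeries p G (n + 1)).1 =
      (pPrimeCore p (G ⧸ (upperPSeries p G n).1)).comap
        (QuotientGroup.mk' (upperPSeries p G n).1) := by
  rw [upperPSeries, if_pos h]

theorem ups_odd (p : ℕ) (G : Type*) [Group G] (n : ℕ) (h : ¬ Even n) :
    (upperPSeries p G (n + 1)).1 =
      (pCore p (G ⧸ (upperPSeries p G n).1)).comap
        (QuotientGroup.mk' (upperPSeries p G n).1) := by
  rw [upperPSeries, if_neg h]

theorem ups_le_succ (p : ℕ) (G : Type*) [Group G] (n : ℕ) :
    (upperPSeries p G n).1 ≤ (upperPSeries p G (n + 1)).1 := by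
  intro x hx
  by_cases h : Even n
  · rw [ups_even p G n h, Subgroup.mem_comap,
      show QuotientGroup.mk' (upperPSeries p G n).1 x = 1 from (QuotientGroup.eq_one_iff x).mpr hx]
    exact one_mem _
  · rw [ups_odd p G n h, Subgroup.mem_comap,
      show QuotientGroup.mk' (upperPSeries p G n).1 x = 1 from (QuotientGroup.eq_one_iff x).mpr hx]
    exact one_mem _

theorem card_ups_even {G : Type*} [Group G] [Finite G] (p : ℕ) (n : ℕ) (h : Even n) :
    ∃ r : ℕ, r.Coprime p ∧
      Nat.card (upperPSeries p G (n + 1)).1 = Nat.card (upperPSeries p G n).1 * r := by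
  refine ⟨Nat.card (pPrimeCore p (G ⧸ (upperPSeries p G n).1)),
    Cfsg.Agent.Lib.helper9.pPrimeCore_coprime p _, ?_⟩
  rw [ups_even p G n h, Cfsg.Agent.Lib.helper9.card_comap_of_surjective' _
    (QuotientGroup.mk'_surjective _), QuotientGroup.ker_mk']

theorem card_ups_odd {G : Type*} [Group G] [Finite G] (p : ℕ) [Fact p.Prime] (n : ℕ)
    (h : ¬ Even n) :
    ∃ m : ℕ, Nat.card (upperPSeries p G (n + 1)).1 = Nat.card (upperPSeries p G n).1 * p ^ m := by
  obtain ⟨m, hm⟩ := IsPGroup.iff_card.mp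
    (Cfsg.Agent.Lib.helper15.pCore_isPGroup p (G ⧸ (upperPSeries p G n).1))
  refine ⟨m, ?_⟩
  rw [ups_odd p G n h, Cfsg.Agent.Lib.helper9.card_comap_of_surjective' _
    (QuotientGroup.mk'_surjective _), QuotientGroup.ker_mk', hm]

theorem le_ups_even {G : Type*} [Group G] (p : ℕ) (n : ℕ) (h : Even n)
    (K : Subgroup G) [hK : K.Normal]
    (hc : (Nat.card (K.map (QuotientGroup.mk' (upperPSeries p G n).1))).Coprime p) :
    K ≤ (upperPSeries p G (n + 1)).1 := by
  rw [ups_even p G n h]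
  intro x hx
  exact Cfsg.Agent.Lib.helper9.le_pPrimeCore
    (Subgroup.Normal.map hK _ (QuotientGroup.mk'_surjective _)) hc (Subgroup.mem_map_of_mem _ hx)

theorem le_ups_odd {G : Type*} [Group G] (p : ℕ) [Fact p.Prime] (n : ℕ) (h : ¬ Even n)
    (K : Subgroup G) [hK : K.Normal]
    (hc : ∃ m : ℕ, Nat.card (K.map (QuotientGroup.mk' (upperPSeries p G n).1)) = p ^ m) :
    K ≤ (upperPSeries p G (n + 1)).1 := by
  rw [ups_odd p G n h]
  intro x hx
  obtain ⟨m, hm⟩ := hc
  exact Cfsg.Agent.Lib.helper15.le_pCore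
    (Subgroup.Normal.map hK _ (QuotientGroup.mk'_surjective _)) (IsPGroup.of_card hm)
    (Subgroup.mem_map_of_mem _ hx)

theorem card_inf_ker_mul_map {G H : Type*} [Group G] [Group H] [Finite G] (f : G →* H)
    (K : Subgroup G) :
    Nat.card K = Nat.card (K ⊓ f.ker : Subgroup G) * Nat.card (K.map f) := by
  have h2 := Subgroup.card_mul_index ((K ⊓ f.ker).subgroupOf K)
  rw [Nat.card_congr (Subgroup.subgroupOfEquivOfLe (inf_le_left : K ⊓ f.ker ≤ K)).toEquiv] at h2
  have h3 : (K ⊓ f.ker).relIndex K = Nat.card (K.map f) := by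
    rw [Subgroup.inf_relIndex_left, Subgroup.relIndex_ker]
  rw [← h2, ← h3]; rfl

theorem card_map_dvd_of_le_ker {G H : Type*} [Group G] [Group H] [Finite G] (f : G →* H)
    (A K : Subgroup G) (hAK : A ≤ K) (hA : A ≤ f.ker) (r : ℕ)
    (hr : Nat.card K = Nat.card A * r) : Nat.card (K.map f) ∣ r := by
  have h1 := card_inf_ker_mul_map f K
  obtain ⟨k, hk⟩ := Subgroup.card_dvd_of_le (le_inf hAK hA : A ≤ K ⊓ f.ker)
  have hpos : 0 < Nat.card A := Nat.card_pos
  refine ⟨k, ?_⟩
  apply Nat.eq_of_mul_eq_mul_left hpos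
  calc Nat.card A * r = Nat.card K := hr.symm
    _ = Nat.card (K ⊓ f.ker : Subgroup G) * Nat.card (K.map f) := h1
    _ = (Nat.card A * k) * Nat.card (K.map f) := by rw [hk]
    _ = Nat.card A * (Nat.card (K.map f) * k) := by ring

theorem card_map_ratio {G H : Type*} [Group G] [Group H] [Finite G] (f : G →* H)
    (A B : Subgroup G) (hAB : A ≤ B) (r : ℕ) (hr : Nat.card B = Nat.card A * r) :
    ∃ r' : ℕ, r' ∣ r ∧ Nat.card (B.map f) = Nat.card (A.map f) * r' := by
  have h1 := card_inf_ker_mul_map f B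
  have h2 := card_inf_ker_mul_map f A
  obtain ⟨k, hk⟩ := Subgroup.card_dvd_of_le (inf_le_inf_right f.ker hAB : A ⊓ f.ker ≤ B ⊓ f.ker)
  obtain ⟨r', hr'⟩ := Subgroup.card_dvd_of_le (Subgroup.map_mono hAB : A.map f ≤ B.map f)
  refine ⟨r', ⟨k, ?_⟩, hr'⟩
  have hpos : 0 < Nat.card A := Nat.card_pos
  have e : Nat.card A * r = Nat.card A * (r' * k) := by
    calc Nat.card A * r = Nat.card B := hr.symm
      _ = Nat.card (B ⊓ f.ker : Subgroup G) * Nat.card (B.map f) := h1
      _ = (Nat.card (A ⊓ f.ker : Subgroup G) * k) * (Nat.card (A.map f) * r') := by rw [hk, hr']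
      _ = (Nat.card (A ⊓ f.ker : Subgroup G) * Nat.card (A.map f)) * (r' * k) := by ring
      _ = Nat.card A * (r' * k) := by rw [← h2]
  exact Nat.eq_of_mul_eq_mul_left hpos e

/-- A chain of normal subgroups whose successive indices alternate between `p'`-numbers and
powers of `p`, the type of the step from `V i` being decided by the parity of `s + i`. -/
def IsPSerFrom (p : ℕ) {G : Type*} [Group G] (s : ℕ) (V : ℕ → Subgroup G) : Prop :=
  (∀ i, (V i).Normal) ∧ (∀ i, V i ≤ V (i + 1)) ∧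
  (∀ i, Even (s + i) → ∃ r : ℕ, r.Coprime p ∧ Nat.card (V (i + 1)) = Nat.card (V i) * r) ∧
  (∀ i, ¬ Even (s + i) → ∃ m : ℕ, Nat.card (V (i + 1)) = Nat.card (V i) * p ^ m)

theorem IsPSerFrom.le_ups {G : Type*} [Group G] [Finite G] {p : ℕ} [Fact p.Prime] {s : ℕ}
    {V : ℕ → Subgroup G} (h : IsPSerFrom p s V) (h0 : V 0 ≤ (upperPSeries p G s).1) :
    ∀ i, V i ≤ (upperPSeries p G (s + i)).1 := by
  intro i
  induction i with
  | zero => exact h0
  | succ i ih =>
    haveI := h.1 (i + 1)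
    by_cases he : Even (s + i)
    · obtain ⟨r, hr, hc⟩ := h.2.2.1 i he
      apply le_ups_even p (s + i) he
      have hd := card_map_dvd_of_le_ker (QuotientGroup.mk' (upperPSeries p G (s + i)).1) (V i)
        (V (i + 1)) (h.2.1 i) (by rw [QuotientGroup.ker_mk']; exact ih) r hc
      exact Nat.Coprime.coprime_dvd_left hd hr
    · obtain ⟨m, hc⟩ := h.2.2.2 i he
      apply le_ups_odd p (s + i) he
      have hd := card_map_dvd_of_le_ker (QuotientGroup.mk' (upperPSeries p G (s + i)).1) (V i)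
        (V (i + 1)) (h.2.1 i) (by rw [QuotientGroup.ker_mk']; exact ih) (p ^ m) hc
      obtain ⟨j, -, hj⟩ := (Nat.dvd_prime_pow (Fact.out : p.Prime)).mp hd
      exact ⟨j, hj⟩

theorem isPSerFrom_ups (p : ℕ) [Fact p.Prime] (G : Type*) [Group G] [Finite G] (s : ℕ) :
    IsPSerFrom p s (fun i => (upperPSeries p G (s + i)).1) :=
  ⟨fun i => (upperPSeries p G (s + i)).2, fun i => ups_le_succ p G (s + i),
    fun i he => card_ups_even p (s + i) he, fun i he => card_ups_odd p (s + i) he⟩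

theorem IsPSerFrom.map {G Q : Type*} [Group G] [Group Q] [Finite G] {p : ℕ} [Fact p.Prime]
    {s : ℕ} {V : ℕ → Subgroup G} (h : IsPSerFrom p s V) (f : G →* Q)
    (hf : Function.Surjective f) : IsPSerFrom p s (fun i => (V i).map f) := by
  refine ⟨fun i => (h.1 i).map f hf, fun i => Subgroup.map_mono (h.2.1 i), ?_, ?_⟩
  · intro i he
    obtain ⟨r, hr, hc⟩ := h.2.2.1 i he
    obtain ⟨r', hd, hc'⟩ := card_map_ratio f (V i) (V (i + 1)) (h.2.1 i) r hc
    exact ⟨r', Nat.Coprime.coprime_dvd_left hd hr, hc'⟩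
  · intro i he
    obtain ⟨m, hc⟩ := h.2.2.2 i he
    obtain ⟨r', hd, hc'⟩ := card_map_ratio f (V i) (V (i + 1)) (h.2.1 i) (p ^ m) hc
    obtain ⟨j, -, hj⟩ := (Nat.dvd_prime_pow (Fact.out : p.Prime)).mp hd
    exact ⟨j, by rw [hc', hj]⟩

theorem IsPSerFrom.comap {G Q : Type*} [Group G] [Group Q] {p : ℕ} {s : ℕ}
    {W : ℕ → Subgroup Q} (h : IsPSerFrom p s W) (f : G →* Q) (hf : Function.Surjective f) :
    IsPSerFrom p s (fun i => (W i).comap f) := by
  refine ⟨fun i => (h.1 i).comap f, fun i => Subgroup.comap_mono (h.2.1 i), ?_, ?_⟩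
  · intro i he
    obtain ⟨r, hr, hc⟩ := h.2.2.1 i he
    refine ⟨r, hr, ?_⟩
    show Nat.card ((W (i + 1)).comap f) = Nat.card ((W i).comap f) * r
    rw [Cfsg.Agent.Lib.helper9.card_comap_of_surjective' f hf,
      Cfsg.Agent.Lib.helper9.card_comap_of_surjective' f hf, hc, mul_assoc]
  · intro i he
    obtain ⟨m, hc⟩ := h.2.2.2 i he
    refine ⟨m, ?_⟩
    show Nat.card ((W (i + 1)).comap f) = Nat.card ((W i).comap f) * p ^ m
    rw [Cfsg.Agent.Lib.helper9.card_comap_of_surjective' f hf,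
      Cfsg.Agent.Lib.helper9.card_comap_of_surjective' f hf, hc, mul_assoc]

theorem IsPSerFrom.parity {G : Type*} [Group G] {p : ℕ} {s s' : ℕ} {V : ℕ → Subgroup G}
    (h : IsPSerFrom p s V) (hs : Even s ↔ Even s') : IsPSerFrom p s' V := by
  have key : ∀ i, Even (s' + i) ↔ Even (s + i) := by
    intro i; rw [Nat.even_add, Nat.even_add, hs]
  exact ⟨h.1, h.2.1, fun i he => h.2.2.1 i ((key i).mp he),
    fun i he => h.2.2.2 i (fun h' => he ((key i).mpr h'))⟩

/-- The image of the upper `p`-series under a surjection lies in the upper `p`-series. -/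
theorem map_ups_le {G Q : Type*} [Group G] [Group Q] [Finite G] (p : ℕ) [Fact p.Prime]
    (f : G →* Q) (hf : Function.Surjective f) (i : ℕ) :
    (upperPSeries p G i).1.map f ≤ (upperPSeries p Q i).1 := by
  haveI : Finite Q := Finite.of_surjective f hf
  have h0 : (upperPSeries p G (0 + 0)).1.map f ≤ (upperPSeries p Q 0).1 := by
    show (upperPSeries p G 0).1.map f ≤ (upperPSeries p Q 0).1
    rw [ups_zero, ups_zero, Subgroup.map_bot]
  have h := ((isPSerFrom_ups p G 0).map f hf).le_ups h0 i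
  have e : 0 + i = i := zero_add i
  rw [e] at h
  exact h

theorem pLengthLE_of_surjective {G Q : Type*} [Group G] [Group Q] [Finite G] (p : ℕ)
    [Fact p.Prime] (f : G →* Q) (hf : Function.Surjective f) (k : ℕ) (h : PLengthLE p k G) :
    PLengthLE p k Q := by
  have h1 := map_ups_le p f hf (2 * k + 1)
  have h2 : (upperPSeries p G (2 * k + 1)).1 = ⊤ := h
  rw [h2, Subgroup.map_top_of_surjective f hf] at h1
  exact eq_top_iff.mpr h1

theorem le_ups_one {G : Type*} [Group G] [Finite G] (p : ℕ) (K : Subgroup G) [K.Normal]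
    (hc : (Nat.card K).Coprime p) : K ≤ (upperPSeries p G 1).1 := by
  show K ≤ (upperPSeries p G (0 + 1)).1
  apply le_ups_even p 0 ⟨0, rfl⟩
  exact Nat.Coprime.coprime_dvd_left
    (Dvd.intro_left _ (card_inf_ker_mul_map (QuotientGroup.mk' (upperPSeries p G 0).1) K).symm) hc

theorem ups_one_le_pPrimeCore {G : Type*} [Group G] [Finite G] (p : ℕ) :
    (upperPSeries p G 1).1 ≤ pPrimeCore p G := by
  obtain ⟨r, hr, hc⟩ := card_ups_even (G := G) p 0 ⟨0, rfl⟩
  have hc' : Nat.card (upperPSeries p G 1).1 = Nat.card (upperPSeries p G 0).1 * r := hc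
  apply Cfsg.Agent.Lib.helper9.le_pPrimeCore (upperPSeries p G 1).2
  have h0 : Nat.card (upperPSeries p G 0).1 = 1 := by rw [ups_zero]; exact Subgroup.card_bot
  rw [hc', h0, one_mul]
  exact hr

/-- Additivity of `p`-length along a normal subgroup. -/
theorem radd {G : Type u} [Group G] [Finite G] (p : ℕ) [Fact p.Prime] (N M : Subgroup G)
    [hNn : N.Normal] [M.Normal] (a b : ℕ)
    (hN : N ≤ (upperPSeries p G (2 * a + 1)).1)
    (hM : M.map (QuotientGroup.mk' N) ≤ (upperPSeries p (G ⧸ N) (2 * b + 1)).1) :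
    M ≤ (upperPSeries p G (2 * (a + b) + 1)).1 := by
  obtain ⟨A, hA⟩ : ∃ A : Subgroup G, A = (upperPSeries p G (2 * a + 1)).1 := ⟨_, rfl⟩
  haveI hAn : A.Normal := by rw [hA]; exact (upperPSeries p G (2 * a + 1)).2
  have hbot : pPrimeCore p (G ⧸ A) = ⊥ :=
    Cfsg.Agent.Lib.helper16.pPrimeCore_quot_eq_bot_of_comap (upperPSeries p G (2 * a)).1 A
      (by rw [hA]; exact ups_even p G (2 * a) (even_two_mul a))
  have hU1 : (upperPSeries p (G ⧸ A) 1).1 = ⊥ :=
    eq_bot_iff.mpr (hbot ▸ ups_one_le_pPrimeCore p)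
  have hsurj : Function.Surjective (QuotientGroup.mk' A) := QuotientGroup.mk'_surjective A
  have hV : IsPSerFrom p (2 * a + 1)
      (fun j => (upperPSeries p (G ⧸ A) (1 + j)).1.comap (QuotientGroup.mk' A)) :=
    ((isPSerFrom_ups p (G ⧸ A) 1).comap (QuotientGroup.mk' A) hsurj).parity
      ⟨fun h => absurd h (by decide), fun h => absurd h (Nat.not_even_two_mul_add_one a)⟩
  have h0 : (upperPSeries p (G ⧸ A) (1 + 0)).1.comap (QuotientGroup.mk' A) ≤
      (upperPSeries p G (2 * a + 1)).1 := by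
    show (upperPSeries p (G ⧸ A) 1).1.comap (QuotientGroup.mk' A) ≤ _
    rw [hU1, ← hA]
    intro x hx
    rw [Subgroup.mem_comap, Subgroup.mem_bot] at hx
    exact (QuotientGroup.eq_one_iff x).mp hx
  have h5 := hV.le_ups h0 (2 * b)
  have hNA : N ≤ A.comap (MonoidHom.id G) := by rw [hA]; exact hN
  have hg : ∀ x : G, QuotientGroup.map N A (MonoidHom.id G) hNA (QuotientGroup.mk' N x) =
      QuotientGroup.mk' A x := fun x => rfl
  have hgs : Function.Surjective (QuotientGroup.map N A (MonoidHom.id G) hNA) := by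
    intro y
    obtain ⟨x, rfl⟩ := QuotientGroup.mk'_surjective A y
    exact ⟨QuotientGroup.mk' N x, hg x⟩
  have h6 := map_ups_le p (QuotientGroup.map N A (MonoidHom.id G) hNA) hgs (2 * b + 1)
  have e1 : 1 + 2 * b = 2 * b + 1 := by omega
  have e2 : 2 * a + 1 + 2 * b = 2 * (a + b) + 1 := by omega
  intro x hx
  rw [← e2]
  apply h5
  show QuotientGroup.mk' A x ∈ (upperPSeries p (G ⧸ A) (1 + 2 * b)).1
  rw [e1, ← hg x]
  exact h6 (Subgroup.mem_map_of_mem _ (hM (Subgroup.mem_map_of_mem _ hx)))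

theorem card_inf_ratio {G : Type*} [Group G] [Finite G] (X A B : Subgroup G) [A.Normal]
    (hAB : A ≤ B) (r : ℕ) (hr : Nat.card B = Nat.card A * r) :
    ∃ t : ℕ, t ∣ r ∧ Nat.card (X ⊓ B : Subgroup G) = Nat.card (X ⊓ A : Subgroup G) * t := by
  have hker : (QuotientGroup.mk' A).ker = A := QuotientGroup.ker_mk' A
  have h1 := card_inf_ker_mul_map (QuotientGroup.mk' A) (X ⊓ B)
  have e1 : (X ⊓ B) ⊓ (QuotientGroup.mk' A).ker = X ⊓ A := by
    rw [hker, inf_assoc, inf_eq_right.mpr hAB]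
  have h2 := card_inf_ker_mul_map (QuotientGroup.mk' A) B
  have e2 : B ⊓ (QuotientGroup.mk' A).ker = A := by rw [hker, inf_eq_right.mpr hAB]
  rw [e1] at h1
  rw [e2] at h2
  have h3 : Nat.card (B.map (QuotientGroup.mk' A)) = r :=
    Nat.eq_of_mul_eq_mul_left Nat.card_pos (by rw [← h2, hr])
  refine ⟨Nat.card ((X ⊓ B).map (QuotientGroup.mk' A)), ?_, h1⟩
  rw [← h3]
  exact Subgroup.card_dvd_of_le (Subgroup.map_mono inf_le_right)

theorem card_map_mk {G : Type*} [Group G] [Finite G] (K L : Subgroup G) [K.Normal] (h : K ≤ L) :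
    Nat.card L = Nat.card K * Nat.card (L.map (QuotientGroup.mk' K)) := by
  have h1 := card_inf_ker_mul_map (QuotientGroup.mk' K) L
  rwa [QuotientGroup.ker_mk', inf_eq_right.mpr h] at h1

/-- Derived length: transport along surjections. -/
theorem ds_surj {H H' : Type*} [Group H] [Group H'] (φ : H →* H') (hφ : Function.Surjective φ)
    (k : ℕ) (h : derivedSeries H k = ⊥) : derivedSeries H' k = ⊥ :=
  eq_bot_iff.mpr ((derivedSeries_le_map_derivedSeries hφ k).trans (by rw [h, Subgroup.map_bot]))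

/-- Derived length: transport along injections. -/
theorem ds_inj {H H' : Type*} [Group H] [Group H'] (φ : H →* H') (hφ : Function.Injective φ)
    (k : ℕ) (h : derivedSeries H' k = ⊥) : derivedSeries H k = ⊥ := by
  have h1 := map_derivedSeries_le_derivedSeries φ k
  rw [h] at h1
  exact (Subgroup.map_eq_bot_iff_of_injective _ hφ).mp (eq_bot_iff.mpr h1)

theorem ds_add {G : Type*} [Group G] (H : Subgroup G) (n m : ℕ) (h1 : derivedSeries G n ≤ H)
    (h2 : derivedSeries ↥H m = ⊥) : derivedSeries G (n + m) = ⊥ := by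
  have key : ∀ m, derivedSeries G (n + m) ≤ (derivedSeries ↥H m).map H.subtype := by
    intro m
    induction m with
    | zero =>
      rw [derivedSeries_zero, ← MonoidHom.range_eq_map, Subgroup.range_subtype]
      exact h1
    | succ m ih =>
      show derivedSeries G (n + m + 1) ≤ _
      rw [derivedSeries_succ, derivedSeries_succ, Subgroup.map_commutator]
      exact Subgroup.commutator_mono ih ih
  have := key m
  rw [h2, Subgroup.map_bot] at this
  exact eq_bot_iff.mpr this

end Cfsg.Agent.Lib.helper19.PLen
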