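import Mathlib

namespace Cfsg.Agent.Lib.helper19.S1454X3

theorem inf_cent_eq_map {G : Type*} [Group G] (T : Subgroup G) :
    T ⊓ Subgroup.centralizer (T : Set G) = (Subgroup.center ↥T).map T.subtype := by
  ext x
  constructor
  · rintro ⟨hxT, hxC⟩
    refine ⟨⟨x, hxT⟩, ?_, rfl⟩
    rw [SetLike.mem_coe, Subgroup.mem_center_iff]
    intro g
    exact Subtype.ext (hxC g.1 g.2)
  · rintro ⟨t, ht, rfl⟩
    rw [SetLike.mem_coe, Subgroup.mem_center_iff] at ht
    refine ⟨t.2, ?_⟩
    intro g hg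
    exact congrArg Subtype.val (ht ⟨g, hg⟩)

theorem card_inf_cent {G : Type*} [Group G] (T : Subgroup G) :
    Nat.card ↥(T ⊓ Subgroup.centralizer (T : Set G)) = Nat.card ↥(Subgroup.center ↥T) := by
  rw [inf_cent_eq_map]
  exact Nat.card_congr
    ((Subgroup.center ↥T).equivMapOfInjective T.subtype T.subtype_injective).symm.toEquiv

theorem card_center_cube {G : Type*} [Group G] [Finite G] (p : ℕ) [Fact p.Prime]
    (T : Subgroup G) (hT3 : Nat.card T = p ^ 3)
    (hTna : ¬ ∀ x ∈ T, ∀ y ∈ T, x * y = y * x) :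
    Nat.card ↥(T ⊓ Subgroup.centralizer (T : Set G)) = p := by
  have hp : p.Prime := Fact.out
  rw [card_inf_cent]
  have hTp : IsPGroup p ↥T := IsPGroup.of_card hT3
  have hnt : Nontrivial ↥T := by
    rw [← Finite.one_lt_card_iff_nontrivial, hT3]
    exact Nat.one_lt_pow (by norm_num) hp.one_lt
  have hZnt : Nontrivial ↥(Subgroup.center ↥T) := hTp.center_nontrivial
  have hdvd : Nat.card ↥(Subgroup.center ↥T) ∣ p ^ 3 := by
    rw [← hT3]; exact Subgroup.card_subgroup_dvd_card _
  obtain ⟨k, hk, hkc⟩ := (Nat.dvd_prime_pow hp).1 hdvd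
  have hmul := Subgroup.card_eq_card_quotient_mul_card_subgroup (Subgroup.center ↥T)
  rw [hT3, hkc] at hmul
  have hcomm_contra : (∀ a b : ↥T, a * b = b * a) → False := by
    intro h
    apply hTna
    intro x hx y hy
    exact congrArg Subtype.val (h ⟨x, hx⟩ ⟨y, hy⟩)
  have hk0 : k ≠ 0 := by
    rintro rfl
    rw [pow_zero] at hkc
    have := Finite.one_lt_card_iff_nontrivial.2 hZnt
    omega
  have hk2 : k ≠ 2 := by
    rintro rfl
    have hq : Nat.card (↥T ⧸ Subgroup.center ↥T) = p := by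
      have hpos : 0 < p ^ 2 := pow_pos hp.pos 2
      have : p ^ 3 = p * p ^ 2 := by ring
      rw [this] at hmul
      exact (Nat.eq_of_mul_eq_mul_right hpos hmul).symm
    haveI : IsCyclic (↥T ⧸ Subgroup.center ↥T) := isCyclic_of_prime_card hq
    apply hcomm_contra
    intro a b
    exact commutative_of_cyclic_center_quotient (QuotientGroup.mk' (Subgroup.center ↥T))
      (by rw [QuotientGroup.ker_mk']) a b
  have hk3 : k ≠ 3 := by
    rintro rfl
    have htop : Subgroup.center ↥T = ⊤ := by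
      apply Subgroup.eq_top_of_card_eq
      rw [hkc, hT3]
    apply hcomm_contra
    intro a b
    have hb : b ∈ Subgroup.center ↥T := by rw [htop]; trivial
    exact ((Subgroup.mem_center_iff.1 hb) a)
  have hk1 : k = 1 := by omega
  rw [hkc, hk1, pow_one]

end Cfsg.Agent.Lib.helper19.S1454X3
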