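import Mathlib
import Cfsg.Prelude.Def_CaseTheorems

set_option autoImplicit false

/-!
The `p`-rank of a group is bounded by the `p`-rank of a Sylow `p`-subgroup.
-/

namespace Cfsg.Agent.Lib.helper19.S1455Q3

theorem pRankLE_of_sylow {G : Type*} [Group G] [Finite G] (p : ℕ) [Fact p.Prime] (S : Sylow p G)
    (h : Cfsg.PRankLE p 2 ↥(S : Subgroup G)) : Cfsg.PRankLE p 2 G := by
  intro A hA hAp
  have hpA : IsPGroup p A := by
    intro a
    refine ⟨1, ?_⟩
    rw [pow_one]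
    exact Subtype.ext (hAp a.1 a.2)
  obtain ⟨Q, hQ⟩ := hpA.exists_le_sylow
  obtain ⟨g, hg⟩ := MulAction.exists_smul_eq G Q S
  have hmem : ∀ a ∈ A, g * a * g⁻¹ ∈ (S : Subgroup G) := by
    intro a ha
    have h1 : a ∈ (Q : Subgroup G) := hQ ha
    rw [← hg, Sylow.coe_subgroup_smul]
    exact Subgroup.smul_mem_pointwise_smul a (MulAut.conj g) (Q : Subgroup G) h1
  obtain ⟨ψ, hψ⟩ : ∃ ψ : ↥A →* ↥(S : Subgroup G), ∀ a : ↥A, ((ψ a : ↥(S : Subgroup G)) : G) =
      g * (a : G) * g⁻¹ :=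
    ⟨((MulAut.conj g).toMonoidHom.comp A.subtype).codRestrict (S : Subgroup G)
      (fun a => hmem a.1 a.2), fun a => rfl⟩
  have hinj : Function.Injective ψ := by
    intro a b hab
    have h1 : g * (a : G) * g⁻¹ = g * (b : G) * g⁻¹ := by
      rw [← hψ a, ← hψ b, hab]
    exact Subtype.ext (mul_left_cancel (mul_right_cancel h1))
  have hBc : IsMulCommutative ↥ψ.range := by
    refine ⟨⟨?_⟩⟩
    rintro ⟨x, a, rfl⟩ ⟨y, b, rfl⟩
    apply Subtype.ext
    show ψ a * ψ b = ψ b * ψ a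
    rw [← map_mul, ← map_mul, hA.is_comm.comm a b]
  have hBp : ∀ x ∈ ψ.range, x ^ p = 1 := by
    rintro x ⟨a, rfl⟩
    rw [← map_pow]
    have h1 : a ^ p = 1 := Subtype.ext (hAp a.1 a.2)
    rw [h1, map_one]
  have hcard : Nat.card ↥ψ.range = Nat.card ↥A :=
    (Nat.card_congr (MonoidHom.ofInjective hinj).toEquiv).symm
  rw [← hcard]
  exact h ψ.range hBc hBp

end Cfsg.Agent.Lib.helper19.S1455Q3
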