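import Mathlib
import Cfsg.Agent.Lib.helper12.DkRec

set_option autoImplicit false

/-!
# Recognition of `S₄` from a self-centralizing normal four-group
-/

namespace Cfsg.Agent.Lib.helper19

/-- Conjugation action of `E` on the non-identity elements of a normal subgroup `U`. -/
noncomputable def nzAct {E : Type*} [Group E] (U : Subgroup E) [hU : U.Normal] :
    MulAction E {u : ↥U // u ≠ 1} where
  smul g u := ⟨⟨g * (u.1 : E) * g⁻¹, hU.conj_mem _ u.1.2 g⟩, by
    intro h
    apply u.2
    have h1 : g * (u.1 : E) * g⁻¹ = 1 := congrArg Subtype.val h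
    have h2 : (u.1 : E) = 1 := by
      have := congrArg (fun t => g⁻¹ * t * g) h1
      simpa [mul_assoc] using this
    exact Subtype.ext h2⟩
  one_smul u := by
    apply Subtype.ext; apply Subtype.ext
    show 1 * (u.1 : E) * 1⁻¹ = _
    simp
  mul_smul a b u := by
    apply Subtype.ext; apply Subtype.ext
    show (a * b) * (u.1 : E) * (a * b)⁻¹ = a * (b * (u.1 : E) * b⁻¹) * a⁻¹
    group

theorem perm3_facts : ∀ τ : Equiv.Perm (Fin 3),
    τ ^ 2 = 1 ∨ (τ ^ 3 = 1 ∧ (τ = 1 ∨ ∀ i, τ i ≠ i)) := by decide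

theorem perm3_facts' {α : Type*} [Finite α] (h3 : Nat.card α = 3) (σ : Equiv.Perm α) :
    σ ^ 2 = 1 ∨ (σ ^ 3 = 1 ∧ (σ = 1 ∨ ∀ a, σ a ≠ a)) := by
  let e : α ≃ Fin 3 := Finite.equivFinOfCardEq h3
  have hinj : Function.Injective (Equiv.permCongrHom e) := (Equiv.permCongrHom e).injective
  rcases perm3_facts (Equiv.permCongrHom e σ) with h | ⟨h, h'⟩
  · left
    apply hinj
    rw [map_pow, h, map_one]
  · right
    refine ⟨?_, ?_⟩
    · apply hinj
      rw [map_pow, h, map_one]
    · rcases h' with h' | h'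
      · left
        apply hinj
        rw [h', map_one]
      · right
        intro a ha
        apply h' (e a)
        show e.permCongr σ (e a) = e a
        rw [Equiv.permCongr_apply, Equiv.symm_apply_apply, ha]

/-- A finite group with a normal self-centralizing subgroup of order 4 and exponent 2, which is
not a 2-group and has an element outside the four-group whose square is inside, is `S₄`. -/
theorem s4_of_klein {E : Type*} [Group E] [Finite E] (U : Subgroup E) [hUn : U.Normal]
    (hU : Nat.card U = 4) (hUexp : ∀ u ∈ U, u ^ 2 = 1)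
    (hC : ∀ c : E, (∀ u ∈ U, c * u = u * c) → c ∈ U)
    (h2 : ¬ IsPGroup 2 E) (g : E) (hg : g ∉ U) (hg2 : g ^ 2 ∈ U) :
    Nonempty (E ≃* Equiv.Perm (Fin 4)) := by
  classical
  haveI : Fact (Nat.Prime 2) := ⟨Nat.prime_two⟩
  haveI : Fact (Nat.Prime 3) := ⟨Nat.prime_three⟩
  have hUab : ∀ u ∈ U, ∀ v ∈ U, u * v = v * u := by
    intro u hu v hv
    have h1 : (u * v) ^ 2 = 1 := hUexp _ (U.mul_mem hu hv)
    have h3 : u * v = (u * v)⁻¹ := by
      rw [eq_inv_iff_mul_eq_one, ← pow_two, h1]
    have hu' : u⁻¹ = u := by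
      rw [inv_eq_iff_eq_inv, eq_inv_iff_mul_eq_one, ← pow_two, hUexp u hu]
    have hv' : v⁻¹ = v := by
      rw [inv_eq_iff_eq_inv, eq_inv_iff_mul_eq_one, ← pow_two, hUexp v hv]
    rw [h3, mul_inv_rev, hu', hv']
  letI := nzAct U
  obtain ⟨ρ, hρdef⟩ : ∃ ρ : E →* Equiv.Perm {u : ↥U // u ≠ 1}, ρ = MulAction.toPermHom E _ :=
    ⟨_, rfl⟩
  have hρ : ∀ (y : E) (u : {u : ↥U // u ≠ 1}), ((ρ y u).1.1 : E) = y * (u.1.1 : E) * y⁻¹ := by
    intro y u
    rw [hρdef]
    rfl
  have hker : ∀ y : E, ρ y = 1 ↔ y ∈ U := by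
    intro y
    constructor
    · intro h
      apply hC
      intro u hu
      by_cases hu1 : u = 1
      · rw [hu1, mul_one, one_mul]
      · have h1 := hρ y ⟨⟨u, hu⟩, fun h' => hu1 (congrArg Subtype.val h')⟩
        rw [h] at h1
        have h2' : u = y * u * y⁻¹ := h1
        calc y * u = y * u * y⁻¹ * y := by group
          _ = u * y := by rw [← h2']
    · intro hy
      apply Equiv.ext
      intro u
      apply Subtype.ext; apply Subtype.ext
      rw [hρ y u]
      show y * (u.1.1 : E) * y⁻¹ = (u.1.1 : E)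
      rw [hUab y hy _ u.1.2, mul_assoc, mul_inv_cancel, mul_one]
  have hkerU : ρ.ker = U := by
    ext y
    rw [MonoidHom.mem_ker]
    exact hker y
  have hα : Nat.card {u : ↥U // u ≠ 1} = 3 := by
    have h1 := Nat.card_congr (Equiv.optionSubtypeNe (1 : ↥U))
    rw [Finite.card_option, hU] at h1
    omega
  have hperm : Nat.card (Equiv.Perm {u : ↥U // u ≠ 1}) = 6 := by
    rw [Nat.card_perm, hα]
    rfl
  have hE : Nat.card E = 4 * Nat.card ρ.range := by
    have h1 := Subgroup.card_mul_index ρ.ker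
    rw [Subgroup.index_ker, hkerU, hU] at h1
    exact h1.symm
  have hrd : Nat.card ρ.range ∣ 6 := by
    rw [← hperm]
    exact Subgroup.card_subgroup_dvd_card ρ.range
  have hr2 : 2 ∣ Nat.card ρ.range := by
    have h1 : orderOf (ρ g) = 2 := by
      apply orderOf_eq_prime
      · rw [← map_pow]
        exact (hker _).mpr hg2
      · intro h
        exact hg ((hker g).mp h)
    rw [← h1]
    exact Subgroup.orderOf_dvd_natCard ρ.range ⟨g, rfl⟩
  have hr6 : Nat.card ρ.range = 6 := by
    have hle : Nat.card ρ.range ≤ 6 := Nat.le_of_dvd (by norm_num) hrd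
    have hpos : 0 < Nat.card ρ.range := Nat.card_pos
    by_contra hne
    have h2c : Nat.card ρ.range = 2 := by
      obtain ⟨k, hk⟩ := hr2
      rw [hk] at hrd hne
      have hk3 : k ∣ 3 := Nat.dvd_of_mul_dvd_mul_left (by norm_num : 0 < 2) (by norm_num; exact hrd)
      rcases (Nat.dvd_prime Nat.prime_three).mp hk3 with h | h
      · rw [hk, h]
      · exfalso; apply hne; rw [h]
    apply h2
    exact IsPGroup.of_card (n := 3) (by rw [hE, h2c]; norm_num)
  have h24 : Nat.card E = 24 := by rw [hE, hr6]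
  have hfacts := fun y : E => perm3_facts' hα (ρ y)
  have hord : ∀ y : E, y ^ 2 = 1 ∨ y ^ 3 = 1 ∨ y ^ 4 = 1 := by
    intro y
    rcases hfacts y with h | ⟨h3, h | h⟩
    · right; right
      have h1 : y ^ 2 ∈ U := by
        rw [← hker, map_pow]; exact h
      have h2' := hUexp _ h1
      rw [← pow_mul] at h2'
      exact h2'
    · left
      exact hUexp y ((hker y).mp h)
    · right; left
      have h1 : y ^ 3 ∈ U := by
        rw [← hker, map_pow]; exact h3
      by_contra hne
      apply h ⟨⟨y ^ 3, h1⟩, fun h' => hne (congrArg Subtype.val h')⟩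
      apply Subtype.ext; apply Subtype.ext
      rw [hρ]
      show y * y ^ 3 * y⁻¹ = y ^ 3
      group
  obtain ⟨y, hy⟩ := exists_prime_orderOf_dvd_card' (G := E) 3 (by rw [h24]; norm_num)
  have hy3 : y ^ 3 = 1 := by rw [← hy]; exact pow_orderOf_eq_one y
  have hyU : y ∉ U := by
    intro h
    have h1 := orderOf_dvd_of_pow_eq_one (hUexp y h)
    rw [hy] at h1
    omega
  have hnofix : ∀ a : {u : ↥U // u ≠ 1}, ρ y a ≠ a := by
    rcases hfacts y with h | ⟨-, h | h⟩
    · exfalso
      have h1 : y ^ 2 ∈ U := by rw [← hker, map_pow]; exact h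
      apply hyU
      have e : y = (y ^ 2)⁻¹ := by
        rw [eq_inv_iff_mul_eq_one, ← pow_succ']
        exact hy3
      rw [e]
      exact U.inv_mem h1
    · exact absurd ((hker y).mp h) hyU
    · exact h
  obtain ⟨P, hPdef⟩ : ∃ P : Subgroup E, P = Subgroup.zpowers y := ⟨_, rfl⟩
  have hP : Nat.card P = 3 := by rw [hPdef, Nat.card_zpowers, hy]
  have hyP : y ∈ P := by rw [hPdef]; exact Subgroup.mem_zpowers y
  have hP3 : ∀ c ∈ P, c ^ 3 = 1 := by
    intro c hc
    have := pow_card_eq_one' (G := P) (x := ⟨c, hc⟩)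
    rw [hP] at this
    exact congrArg Subtype.val this
  obtain ⟨N, hNdef⟩ : ∃ N : Subgroup E, N = Subgroup.normalizer (P : Set E) := ⟨_, rfl⟩
  have hNU : ∀ u ∈ N, u ∈ U → u = 1 := by
    intro u huN huU
    by_contra hu1
    have h1 : u * y * u⁻¹ ∈ P := by
      rw [hNdef, Subgroup.mem_normalizer_iff] at huN
      exact (huN y).mp hyP
    have hc : u * y * u⁻¹ * y⁻¹ = 1 := by
      have hcP : u * y * u⁻¹ * y⁻¹ ∈ P := P.mul_mem h1 (P.inv_mem hyP)
      have hcU : u * y * u⁻¹ * y⁻¹ ∈ U := by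
        have h2' : y * u⁻¹ * y⁻¹ ∈ U := hUn.conj_mem _ (U.inv_mem huU) y
        have e : u * y * u⁻¹ * y⁻¹ = u * (y * u⁻¹ * y⁻¹) := by group
        rw [e]
        exact U.mul_mem huU h2'
      have e3 := hP3 _ hcP
      have e2 := hUexp _ hcU
      have e : u * y * u⁻¹ * y⁻¹ = (u * y * u⁻¹ * y⁻¹) ^ 3 * ((u * y * u⁻¹ * y⁻¹) ^ 2)⁻¹ := by
        group
      rw [e, e3, e2, inv_one, mul_one]
    have hcomm : y * u * y⁻¹ = u := by
      have e : y * u * y⁻¹ = (u * y * u⁻¹ * y⁻¹)⁻¹ * u := by group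
      rw [e, hc, inv_one, one_mul]
    apply hnofix ⟨⟨u, huU⟩, fun h' => hu1 (congrArg Subtype.val h')⟩
    apply Subtype.ext; apply Subtype.ext
    rw [hρ]
    exact hcomm
  have hNle : Nat.card N ≤ 6 := by
    have hQ : Nat.card (E ⧸ U) = 6 := by
      have h1 := Subgroup.card_eq_card_quotient_mul_card_subgroup U
      rw [h24, hU] at h1
      omega
    rw [← hQ]
    apply Nat.card_le_card_of_injective (fun x : ↥N => (QuotientGroup.mk (x : E) : E ⧸ U))
    intro a b hab
    have h1 : (a : E)⁻¹ * (b : E) ∈ U := QuotientGroup.eq.mp hab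
    have h2' := hNU _ (N.mul_mem (N.inv_mem a.2) b.2) h1
    apply Subtype.ext
    rw [inv_mul_eq_one] at h2'
    exact h2'
  have hPp : IsPGroup 3 P := IsPGroup.of_card (n := 1) (by rw [hP]; norm_num)
  obtain ⟨S, hS⟩ := hPp.exists_le_sylow
  have hSP : (S : Subgroup E) = P := by
    obtain ⟨k, hk⟩ := IsPGroup.iff_card.mp S.isPGroup'
    have hd : 3 ^ k ∣ 24 := by
      rw [← hk, ← h24]; exact Subgroup.card_subgroup_dvd_card _
    have hk1 : k ≤ 1 := by
      by_contra hcon
      have h9 : 3 ^ 2 ∣ 3 ^ k := pow_dvd_pow 3 (by omega)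
      have := h9.trans hd
      omega
    symm
    apply Subgroup.eq_of_le_of_card_ge hS
    rw [hk, hP]
    calc 3 ^ k ≤ 3 ^ 1 := Nat.pow_le_pow_right (by norm_num) hk1
      _ = 3 := by norm_num
  have hidx : N.index = Nat.card (Sylow 3 E) := by
    rw [Sylow.card_eq_index_normalizer S]
    show N.index = (Subgroup.normalizer ((S : Subgroup E) : Set E)).index
    rw [hSP, hNdef]
  have hN : N.index = 4 := by
    have h1 := card_sylow_modEq_one 3 E
    have h2' := Sylow.card_dvd_index S
    rw [← hidx] at h1 h2'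
    have h3 : (S : Subgroup E).index = 8 := by
      rw [hSP]
      have := Subgroup.card_mul_index P
      rw [hP, h24] at this
      omega
    rw [h3] at h2'
    have h4 := Subgroup.card_mul_index N
    rw [h24] at h4
    have h6 : N.index % 3 = 1 := h1
    have h8 : N.index ∈ Nat.divisors 8 := Nat.mem_divisors.mpr ⟨h2', by norm_num⟩
    have h9 : Nat.divisors 8 = {1, 2, 4, 8} := by decide
    rw [h9] at h8
    simp only [Finset.mem_insert, Finset.mem_singleton] at h8
    rcases h8 with h | h | h | h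
    · rw [h] at h4; omega
    · omega
    · exact h
    · omega
  rw [hNdef] at hN
  exact Cfsg.Agent.Lib.helper12.s4_rec h24 hord P hP hN

end Cfsg.Agent.Lib.helper19
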