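import Mathlib
import Cfsg.Agent.S5957

/-!
Normal form for an isometry `x` with `x ^ 2` scalar of a nondegenerate alternating form:
the space is an orthogonal sum of hyperbolic planes permuted by `x`.
-/

namespace Cfsg.Agent.Lib.helper19.SympNF

open Module

theorem exists_max2 {α β : Type*} (Φ : α → β → Prop) (μ : α → β → ℕ) (N : ℕ)
    (h0 : ∃ a b, Φ a b) (hb : ∀ a b, Φ a b → μ a b ≤ N) :
    ∃ a b, Φ a b ∧ ∀ a' b', Φ a' b' → μ a' b' ≤ μ a b := by
  by_contra hcon
  push Not at hcon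
  have key : ∀ k, ∃ a b, Φ a b ∧ k ≤ μ a b := by
    intro k
    induction k with
    | zero =>
      obtain ⟨a, b, h⟩ := h0
      exact ⟨a, b, h, Nat.zero_le _⟩
    | succ k ih =>
      obtain ⟨a, b, h, hk⟩ := ih
      obtain ⟨a', b', h', hlt⟩ := hcon a b h
      exact ⟨a', b', h', by omega⟩
  obtain ⟨a, b, h, hk⟩ := key (N + 1)
  have := hb a b h
  omega

section

variable {F : Type*} [Field F] {V : Type*} [AddCommGroup V] [Module F V]

/-- the vectors occurring in a finite set of pairs -/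
def vec [DecidableEq V] (S : Finset (V × V)) : Finset V := S.image Prod.fst ∪ S.image Prod.snd

theorem mem_vec [DecidableEq V] (S : Finset (V × V)) (v : V) :
    v ∈ vec S ↔ ∃ s ∈ S, v = s.1 ∨ v = s.2 := by
  unfold vec
  simp only [Finset.mem_union, Finset.mem_image]
  constructor
  · rintro (⟨s, hs, rfl⟩ | ⟨s, hs, rfl⟩)
    · exact ⟨s, hs, Or.inl rfl⟩
    · exact ⟨s, hs, Or.inr rfl⟩
  · rintro ⟨s, hs, rfl | rfl⟩
    · exact Or.inl ⟨s, hs, rfl⟩
    · exact Or.inr ⟨s, hs, rfl⟩

theorem vec_mono [DecidableEq V] {S S' : Finset (V × V)} (h : S ⊆ S') : vec S ⊆ vec S' := by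
  intro v hv
  rw [mem_vec] at hv ⊢
  obtain ⟨s, hs, h'⟩ := hv
  exact ⟨s, h hs, h'⟩

theorem vec_union [DecidableEq V] (S S' : Finset (V × V)) : vec (S ∪ S') = vec S ∪ vec S' := by
  ext v
  simp only [Finset.mem_union, mem_vec]
  constructor
  · rintro ⟨s, hs | hs, h⟩
    · exact Or.inl ⟨s, hs, h⟩
    · exact Or.inr ⟨s, hs, h⟩
  · rintro (⟨s, hs, h⟩ | ⟨s, hs, h⟩)
    · exact ⟨s, Or.inl hs, h⟩
    · exact ⟨s, Or.inr hs, h⟩

/-- a family of mutually orthogonal hyperbolic pairs -/
def Sys (B : LinearMap.BilinForm F V) (S : Finset (V × V)) : Prop :=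
  (∀ s ∈ S, B s.1 s.2 = 1) ∧
  (∀ s ∈ S, ∀ s' ∈ S, s ≠ s' →
    B s.1 s'.1 = 0 ∧ B s.1 s'.2 = 0 ∧ B s.2 s'.1 = 0 ∧ B s.2 s'.2 = 0)

theorem sys_mono {B : LinearMap.BilinForm F V} {S S' : Finset (V × V)} (h : Sys B S)
    (hsub : S' ⊆ S) : Sys B S' :=
  ⟨fun s hs => h.1 s (hsub hs), fun s hs s' hs' hne => h.2 s (hsub hs) s' (hsub hs') hne⟩

theorem anti (B : LinearMap.BilinForm F V) (halt : ∀ v, B v v = 0) (u v : V) :
    B u v = - B v u := by
  have h := halt (u + v)
  simp only [map_add, LinearMap.add_apply, halt, zero_add, add_zero] at h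
  linear_combination h

theorem span_orth (B : LinearMap.BilinForm F V) (A A' : Set V)
    (h : ∀ a ∈ A, ∀ b ∈ A', B a b = 0) :
    ∀ u ∈ Submodule.span F A, ∀ v ∈ Submodule.span F A', B u v = 0 := by
  intro u hu v hv
  have h1 : ∀ a ∈ A, B a v = 0 := by
    intro a ha
    have : Submodule.span F A' ≤ LinearMap.ker (B a) :=
      Submodule.span_le.mpr (fun b hb => LinearMap.mem_ker.mpr (h a ha b hb))
    exact LinearMap.mem_ker.mp (this hv)
  have h2 : Submodule.span F A ≤ LinearMap.ker (B.flip v) :=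
    Submodule.span_le.mpr (fun a ha => LinearMap.mem_ker.mpr (h1 a ha))
  exact LinearMap.mem_ker.mp (h2 hu)

theorem vec_orth [DecidableEq V] (B : LinearMap.BilinForm F V) (S : Finset (V × V))
    (hS : Sys B S) (S₁ S₂ : Finset (V × V)) (h₁ : S₁ ⊆ S) (h₂ : S₂ ⊆ S) (hd : Disjoint S₁ S₂) :
    ∀ u ∈ Submodule.span F ((vec S₁ : Finset V) : Set V),
      ∀ v ∈ Submodule.span F ((vec S₂ : Finset V) : Set V), B u v = 0 := by
  apply span_orth
  intro a ha b hb
  rw [Finset.mem_coe, mem_vec] at ha hb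
  obtain ⟨s, hs, ha⟩ := ha
  obtain ⟨s', hs', hb⟩ := hb
  have hne : s ≠ s' := fun h => Finset.disjoint_left.mp hd hs (h ▸ hs')
  obtain ⟨e1, e2, e3, e4⟩ := hS.2 s (h₁ hs) s' (h₂ hs') hne
  rcases ha with rfl | rfl <;> rcases hb with rfl | rfl
  · exact e1
  · exact e2
  · exact e3
  · exact e4

theorem sys_finrank [DecidableEq V] (B : LinearMap.BilinForm F V) (halt : ∀ v, B v v = 0)
    (S : Finset (V × V)) (hS : Sys B S) :
    Module.finrank F (Submodule.span F ((vec S : Finset V) : Set V)) = 2 * S.card := by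
  classical
  have hanti := anti B halt
  obtain ⟨g, hg1, hg2⟩ : ∃ g : ↥S ⊕ ↥S → V, (∀ s, g (Sum.inl s) = s.1.1) ∧
      (∀ s, g (Sum.inr s) = s.1.2) :=
    ⟨Sum.elim (fun s => s.1.1) (fun s => s.1.2), fun _ => rfl, fun _ => rfl⟩
  have hrange : Set.range g = ((vec S : Finset V) : Set V) := by
    ext v
    rw [Set.mem_range, Finset.mem_coe, mem_vec]
    constructor
    · rintro ⟨i | i, rfl⟩
      · exact ⟨i.1, i.2, Or.inl (hg1 i)⟩
      · exact ⟨i.1, i.2, Or.inr (hg2 i)⟩
    · rintro ⟨s, hs, rfl | rfl⟩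
      · exact ⟨Sum.inl ⟨s, hs⟩, hg1 _⟩
      · exact ⟨Sum.inr ⟨s, hs⟩, hg2 _⟩
  have hli : LinearIndependent F g := by
    rw [Fintype.linearIndependent_iff]
    intro α hα
    rw [Fintype.sum_sum_type] at hα
    have key1 : ∀ s' : ↥S, α (Sum.inl s') = 0 := by
      intro s'
      have h := congrArg (fun v => B v s'.1.2) hα
      simp only [map_add, map_sum, map_smul, LinearMap.add_apply, LinearMap.sum_apply,
        LinearMap.smul_apply, smul_eq_mul, map_zero, LinearMap.zero_apply, hg1, hg2] at h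
      have h' : (∑ s : ↥S, α (Sum.inl s) * B s.1.1 s'.1.2) +
          ∑ s : ↥S, α (Sum.inr s) * B s.1.2 s'.1.2 = 0 := h
      have e1 : ∑ s : ↥S, α (Sum.inl s) * B s.1.1 s'.1.2 = α (Sum.inl s') := by
        rw [Finset.sum_eq_single s']
        · rw [hS.1 _ s'.2, mul_one]
        · intro s _ hne
          rw [(hS.2 _ s.2 _ s'.2 (fun h => hne (Subtype.ext h))).2.1, mul_zero]
        · intro h; exact absurd (Finset.mem_univ _) h
      have e2 : ∑ s : ↥S, α (Sum.inr s) * B s.1.2 s'.1.2 = 0 := by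
        apply Finset.sum_eq_zero
        intro s _
        by_cases hss : s = s'
        · rw [hss, halt, mul_zero]
        · rw [(hS.2 _ s.2 _ s'.2 (fun h => hss (Subtype.ext h))).2.2.2, mul_zero]
      rw [e1, e2, add_zero] at h'
      exact h'
    have key2 : ∀ s' : ↥S, α (Sum.inr s') = 0 := by
      intro s'
      have h := congrArg (fun v => B v s'.1.1) hα
      simp only [map_add, map_sum, map_smul, LinearMap.add_apply, LinearMap.sum_apply,
        LinearMap.smul_apply, smul_eq_mul, map_zero, LinearMap.zero_apply, hg1, hg2] at h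
      have h' : (∑ s : ↥S, α (Sum.inl s) * B s.1.1 s'.1.1) +
          ∑ s : ↥S, α (Sum.inr s) * B s.1.2 s'.1.1 = 0 := h
      have e1 : ∑ s : ↥S, α (Sum.inl s) * B s.1.1 s'.1.1 = 0 := by
        apply Finset.sum_eq_zero
        intro s _
        by_cases hss : s = s'
        · rw [hss, halt, mul_zero]
        · rw [(hS.2 _ s.2 _ s'.2 (fun h => hss (Subtype.ext h))).1, mul_zero]
      have e2 : ∑ s : ↥S, α (Sum.inr s) * B s.1.2 s'.1.1 = - α (Sum.inr s') := by
        rw [Finset.sum_eq_single s']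
        · rw [hanti, hS.1 _ s'.2, mul_neg, mul_one]
        · intro s _ hne
          rw [(hS.2 _ s.2 _ s'.2 (fun h => hne (Subtype.ext h))).2.2.1, mul_zero]
        · intro h; exact absurd (Finset.mem_univ _) h
      rw [e1, e2, zero_add] at h'
      exact neg_eq_zero.mp h'
    rintro (i | i)
    · exact key1 i
    · exact key2 i
  have h1 := finrank_span_eq_card hli
  rw [hrange] at h1
  rw [h1, Fintype.card_sum, Fintype.card_coe]; ring

/-- the orthogonal complement of the vectors of `S` -/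
def perp (B : LinearMap.BilinForm F V) (S : Finset (V × V)) : Submodule F V where
  carrier := {v | ∀ s ∈ S, B v s.1 = 0 ∧ B v s.2 = 0}
  add_mem' := by
    intro a b ha hb
    show ∀ s ∈ S, B (a + b) s.1 = 0 ∧ B (a + b) s.2 = 0
    intro s hs
    simp only [map_add, LinearMap.add_apply, (ha s hs).1, (ha s hs).2, (hb s hs).1,
      (hb s hs).2, add_zero, and_self]
  zero_mem' := by
    show ∀ s ∈ S, B 0 s.1 = 0 ∧ B 0 s.2 = 0
    intro s hs
    simp only [map_zero, LinearMap.zero_apply, and_self]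
  smul_mem' := by
    intro c a ha
    show ∀ s ∈ S, B (c • a) s.1 = 0 ∧ B (c • a) s.2 = 0
    intro s hs
    simp only [map_smul, LinearMap.smul_apply, (ha s hs).1, (ha s hs).2, smul_zero, and_self]

theorem mem_perp (B : LinearMap.BilinForm F V) (S : Finset (V × V)) (v : V) :
    v ∈ perp B S ↔ ∀ s ∈ S, B v s.1 = 0 ∧ B v s.2 = 0 := Iff.rfl

theorem perp_span [DecidableEq V] (B : LinearMap.BilinForm F V) (S : Finset (V × V)) (v : V)
    (hv : v ∈ perp B S) (y : V) (hy : y ∈ Submodule.span F ((vec S : Finset V) : Set V)) :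
    B v y = 0 := by
  have hle : Submodule.span F ((vec S : Finset V) : Set V) ≤ LinearMap.ker (B v) := by
    rw [Submodule.span_le]
    intro b hb
    rw [Finset.mem_coe, mem_vec] at hb
    obtain ⟨s, hs, rfl | rfl⟩ := hb
    · exact LinearMap.mem_ker.mpr (hv s hs).1
    · exact LinearMap.mem_ker.mpr (hv s hs).2
  exact LinearMap.mem_ker.mp (hle hy)

theorem proj [DecidableEq V] (B : LinearMap.BilinForm F V) (halt : ∀ v, B v v = 0)
    (S : Finset (V × V)) (hS : Sys B S) (v : V) :
    ∃ v', v' ∈ perp B S ∧ v - v' ∈ Submodule.span F ((vec S : Finset V) : Set V) := by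
  classical
  have hanti := anti B halt
  refine ⟨v - ∑ s ∈ S, (B v s.2 • s.1 - B v s.1 • s.2), ?_, ?_⟩
  · rw [mem_perp]
    intro s' hs'
    have hex : ∀ y : V, B (v - ∑ s ∈ S, (B v s.2 • s.1 - B v s.1 • s.2)) y =
        B v y - ∑ s ∈ S, (B v s.2 * B s.1 y - B v s.1 * B s.2 y) := by
      intro y
      simp only [map_sub, map_sum, map_smul, LinearMap.sub_apply, LinearMap.sum_apply,
        LinearMap.smul_apply, smul_eq_mul]
    constructor
    · rw [hex, Finset.sum_eq_single s']
      · rw [halt, hanti s'.2 s'.1, hS.1 s' hs']; ring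
      · intro s hs hne
        rw [(hS.2 s hs s' hs' hne).1, (hS.2 s hs s' hs' hne).2.2.1]; ring
      · intro h; exact absurd hs' h
    · rw [hex, Finset.sum_eq_single s']
      · rw [halt, hS.1 s' hs']; ring
      · intro s hs hne
        rw [(hS.2 s hs s' hs' hne).2.1, (hS.2 s hs s' hs' hne).2.2.2]; ring
      · intro h; exact absurd hs' h
  · rw [sub_sub_cancel]
    refine Submodule.sum_mem _ (fun s hs => ?_)
    exact Submodule.sub_mem _
      (Submodule.smul_mem _ _ (Submodule.subset_span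
        (Finset.mem_coe.mpr ((mem_vec S _).mpr ⟨s, hs, Or.inl rfl⟩))))
      (Submodule.smul_mem _ _ (Submodule.subset_span
        (Finset.mem_coe.mpr ((mem_vec S _).mpr ⟨s, hs, Or.inr rfl⟩))))

theorem sys_insert [DecidableEq V] (B : LinearMap.BilinForm F V) (halt : ∀ v, B v v = 0)
    (S : Finset (V × V)) (hS : Sys B S) (s₀ : V × V) (h1 : B s₀.1 s₀.2 = 1)
    (h2 : ∀ s ∈ S, (B s₀.1 s.1 = 0 ∧ B s₀.1 s.2 = 0) ∧ (B s₀.2 s.1 = 0 ∧ B s₀.2 s.2 = 0)) :
    Sys B (insert s₀ S) := by
  have hanti := anti B halt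
  refine ⟨?_, ?_⟩
  · intro s hs
    rcases Finset.mem_insert.mp hs with h | hs
    · rw [h]; exact h1
    · exact hS.1 s hs
  · intro s hs s' hs' hne
    rcases Finset.mem_insert.mp hs with h | hs <;> rcases Finset.mem_insert.mp hs' with h' | hs'
    · exact absurd (h.trans h'.symm) hne
    · obtain ⟨⟨a, b⟩, c, d⟩ := h2 s' hs'
      rw [h]
      exact ⟨a, b, c, d⟩
    · obtain ⟨⟨a, b⟩, c, d⟩ := h2 s hs
      rw [h']
      refine ⟨?_, ?_, ?_, ?_⟩
      · rw [hanti, a, neg_zero]
      · rw [hanti, c, neg_zero]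
      · rw [hanti, b, neg_zero]
      · rw [hanti, d, neg_zero]
    · exact hS.2 s hs s' hs' hne

theorem step (B : LinearMap.BilinForm F V) (halt : ∀ v, B v v = 0)
    (x : V →ₗ[F] V) (z : F) (hx : ∀ v, x (x v) = z • v)
    (M : Submodule F V) (hMx : ∀ v ∈ M, x v ∈ M)
    (hMnd : ∀ u ∈ M, u ≠ 0 → ∃ v ∈ M, B u v ≠ 0) (hM : M ≠ ⊥) :
    ∃ u ∈ M, ∃ w ∈ M, B u w = 1 ∧
      ((∃ c c' : F, x u = c • w ∧ x w = c' • u) ∨ (∃ c c' : F, x u = c • u ∧ x w = c' • w) ∨
       (B u (x u) = 0 ∧ B u (x w) = 0 ∧ B w (x u) = 0 ∧ B w (x w) = 0)) := by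
  have hanti := anti B halt
  by_cases hA : ∃ v ∈ M, B v (x v) ≠ 0
  · obtain ⟨v, hv, hc⟩ := hA
    refine ⟨v, hv, (B v (x v))⁻¹ • x v, M.smul_mem _ (hMx v hv), ?_,
      Or.inl ⟨B v (x v), (B v (x v))⁻¹ * z, ?_, ?_⟩⟩
    · rw [map_smul, smul_eq_mul, inv_mul_cancel₀ hc]
    · rw [smul_smul, mul_inv_cancel₀ hc, one_smul]
    · rw [map_smul, hx, smul_smul]
  · push Not at hA
    have hpol : ∀ a ∈ M, ∀ b ∈ M, B a (x b) = - B b (x a) := by
      intro a ha b hb
      have h := hA (a + b) (M.add_mem ha hb)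
      simp only [map_add, LinearMap.add_apply, hA a ha, hA b hb, zero_add, add_zero] at h
      linear_combination h
    by_cases hB1 : ∃ u ∈ M, ∀ c : F, x u ≠ c • u
    · obtain ⟨u, hu, hne⟩ := hB1
      have hu0 : u ≠ 0 := by
        rintro rfl
        exact hne 0 (by simp)
      have hw : ∃ w ∈ M, B u w ≠ 0 ∧ B (x u) w = 0 := by
        by_contra hcon
        push Not at hcon
        have hcon' : ∀ w ∈ M, B (x u) w = 0 → B u w = 0 := fun w hw h => by
          by_contra h'
          exact hcon w hw h' h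
        have hxu0 : x u ≠ 0 := by
          intro h
          exact hne 0 (by rw [h, zero_smul])
        obtain ⟨w₁, hw₁, hw₁'⟩ := hMnd (x u) (hMx u hu) hxu0
        obtain ⟨lam, hlam⟩ : ∃ lam : F, lam = B u w₁ / B (x u) w₁ := ⟨_, rfl⟩
        have hall : ∀ y ∈ M, B (u - lam • x u) y = 0 := by
          intro y hy
          have h1 : B (x u) (y - (B (x u) y / B (x u) w₁) • w₁) = 0 := by
            rw [map_sub, map_smul, smul_eq_mul, div_mul_cancel₀ _ hw₁', sub_self]
          have h2 := hcon' _ (M.sub_mem hy (M.smul_mem _ hw₁)) h1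
          rw [map_sub, map_smul, smul_eq_mul] at h2
          rw [map_sub, LinearMap.sub_apply, map_smul, LinearMap.smul_apply, smul_eq_mul, hlam]
          linear_combination h2
        have hzero : u - lam • x u = 0 := by
          by_contra hne0
          obtain ⟨y, hy, hy'⟩ := hMnd _ (M.sub_mem hu (M.smul_mem _ (hMx u hu))) hne0
          exact hy' (hall y hy)
        have hlam0 : lam ≠ 0 := by
          intro h0
          rw [h0, zero_smul, sub_zero] at hzero
          exact hu0 hzero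
        apply hne lam⁻¹
        have hu' : u = lam • x u := sub_eq_zero.mp hzero
        calc x u = lam⁻¹ • (lam • x u) := by rw [smul_smul, inv_mul_cancel₀ hlam0, one_smul]
          _ = lam⁻¹ • u := by rw [← hu']
      obtain ⟨w₀, hw₀, hne0, horth⟩ := hw
      have hwM : (B u w₀)⁻¹ • w₀ ∈ M := M.smul_mem _ hw₀
      have h1 : B u ((B u w₀)⁻¹ • w₀) = 1 := by
        rw [map_smul, smul_eq_mul, inv_mul_cancel₀ hne0]
      have h2 : B (x u) ((B u w₀)⁻¹ • w₀) = 0 := by
        rw [map_smul, smul_eq_mul, horth, mul_zero]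
      have h3 : B ((B u w₀)⁻¹ • w₀) (x u) = 0 := by
        rw [hanti, h2, neg_zero]
      refine ⟨u, hu, _, hwM, h1, Or.inr (Or.inr ⟨hA u hu, ?_, h3, hA _ hwM⟩)⟩
      rw [hpol u hu _ hwM, h3, neg_zero]
    · push Not at hB1
      obtain ⟨u, hu, hu0⟩ := Submodule.exists_mem_ne_zero_of_ne_bot hM
      obtain ⟨w₀, hw₀, hne0⟩ := hMnd u hu hu0
      have hwM : (B u w₀)⁻¹ • w₀ ∈ M := M.smul_mem _ hw₀
      have h1 : B u ((B u w₀)⁻¹ • w₀) = 1 := by
        rw [map_smul, smul_eq_mul, inv_mul_cancel₀ hne0]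
      obtain ⟨c, hc⟩ := hB1 u hu
      obtain ⟨c', hc'⟩ := hB1 _ hwM
      exact ⟨u, hu, _, hwM, h1, Or.inr (Or.inl ⟨c, c', hc, hc'⟩)⟩

theorem nf [DecidableEq V] [Finite V] (B : LinearMap.BilinForm F V) (halt : ∀ v, B v v = 0)
    (hnd : ∀ u, u ≠ 0 → ∃ v, B u v ≠ 0)
    (x : V →ₗ[F] V) (z : F) (hz : z ≠ 0) (hiso : ∀ u v, B (x u) (x v) = B u v)
    (hx : ∀ v, x (x v) = z • v)
    (R : V × V → Prop) (allow : Prop)
    (hR : ∀ s : V × V, R s → x s.1 ∈ Submodule.span F {s.1, s.2} ∧
      x s.2 ∈ Submodule.span F {s.1, s.2})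
    (hstep : ∀ M : Submodule F V, (∀ v ∈ M, x v ∈ M) →
      (∀ u ∈ M, u ≠ 0 → ∃ v ∈ M, B u v ≠ 0) → M ≠ ⊥ →
      ∃ u ∈ M, ∃ w ∈ M, B u w = 1 ∧ (R (u, w) ∨
        (allow ∧ B u (x u) = 0 ∧ B u (x w) = 0 ∧ B w (x u) = 0 ∧ B w (x w) = 0))) :
    ∃ P Q : Finset (V × V), Disjoint P (P.image (Prod.map x x)) ∧
      Disjoint (P ∪ P.image (Prod.map x x)) Q ∧
      Sys B (P ∪ P.image (Prod.map x x) ∪ Q) ∧ (∀ s ∈ Q, R s) ∧ (¬ allow → P = ∅) ∧
      Submodule.span F ((vec (P ∪ P.image (Prod.map x x) ∪ Q) : Finset V) : Set V) = ⊤ := by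
  classical
  haveI : Fintype V := Fintype.ofFinite V
  have hanti := anti B halt
  obtain ⟨P, Q, ⟨hPT, hPQ, hSys, hQR, hPe⟩, hmax⟩ := exists_max2
    (fun P Q : Finset (V × V) =>
      Disjoint P (P.image (Prod.map x x)) ∧
      Disjoint (P ∪ P.image (Prod.map x x)) Q ∧
      Sys B (P ∪ P.image (Prod.map x x) ∪ Q) ∧ (∀ s ∈ Q, R s) ∧ (¬ allow → P = ∅))
    (fun P Q => 2 * P.card + Q.card) (3 * Fintype.card (V × V))
    ⟨∅, ∅, by simp, by simp, ⟨by simp, by simp⟩, by simp, fun _ => rfl⟩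
    (by
      intro P Q _
      have h1 := Finset.card_le_univ P
      have h2 := Finset.card_le_univ Q
      show 2 * P.card + Q.card ≤ 3 * Fintype.card (V × V)
      omega)
  refine ⟨P, Q, hPT, hPQ, hSys, hQR, hPe, ?_⟩
  by_contra hW
  obtain ⟨S, hSdef⟩ : ∃ S, S = P ∪ P.image (Prod.map x x) ∪ Q := ⟨_, rfl⟩
  rw [← hSdef] at hSys hW
  have hPS : P ⊆ S := by
    rw [hSdef]; exact fun a ha => Finset.mem_union_left _ (Finset.mem_union_left _ ha)
  have hTPS : P.image (Prod.map x x) ⊆ S := by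
    rw [hSdef]; exact fun a ha => Finset.mem_union_left _ (Finset.mem_union_right _ ha)
  have hQS : Q ⊆ S := by
    rw [hSdef]; exact fun a ha => Finset.mem_union_right _ ha
  have hScases : ∀ s ∈ S, s ∈ P ∨ s ∈ P.image (Prod.map x x) ∨ s ∈ Q := by
    intro s hs
    rw [hSdef, Finset.mem_union, Finset.mem_union] at hs
    tauto
  have hvec : ∀ s ∈ S, s.1 ∈ Submodule.span F ((vec S : Finset V) : Set V) ∧
      s.2 ∈ Submodule.span F ((vec S : Finset V) : Set V) := fun s hs =>
    ⟨Submodule.subset_span (Finset.mem_coe.mpr ((mem_vec S _).mpr ⟨s, hs, Or.inl rfl⟩)),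
     Submodule.subset_span (Finset.mem_coe.mpr ((mem_vec S _).mpr ⟨s, hs, Or.inr rfl⟩))⟩
  have hWx : ∀ y ∈ Submodule.span F ((vec S : Finset V) : Set V),
      x y ∈ Submodule.span F ((vec S : Finset V) : Set V) := by
    intro y hy
    have hle : Submodule.span F ((vec S : Finset V) : Set V) ≤
        (Submodule.span F ((vec S : Finset V) : Set V)).comap x := by
      rw [Submodule.span_le]
      intro b hb
      rw [Finset.mem_coe, mem_vec] at hb
      obtain ⟨s, hs, hb⟩ := hb
      rw [SetLike.mem_coe, Submodule.mem_comap]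
      have hxs : x s.1 ∈ Submodule.span F ((vec S : Finset V) : Set V) ∧
          x s.2 ∈ Submodule.span F ((vec S : Finset V) : Set V) := by
        rcases hScases s hs with h | h | h
        · exact hvec (Prod.map x x s) (hTPS (Finset.mem_image_of_mem _ h))
        · obtain ⟨p, hp, rfl⟩ := Finset.mem_image.mp h
          have hp' := hvec p (hPS hp)
          constructor
          · show x (x p.1) ∈ _
            rw [hx]; exact Submodule.smul_mem _ _ hp'.1
          · show x (x p.2) ∈ _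
            rw [hx]; exact Submodule.smul_mem _ _ hp'.2
        · have hsub : Submodule.span F ({s.1, s.2} : Set V) ≤
              Submodule.span F ((vec S : Finset V) : Set V) := by
            rw [Submodule.span_le]
            intro y hy
            rcases hy with rfl | rfl
            · exact (hvec s hs).1
            · exact (hvec s hs).2
          exact ⟨hsub (hR s (hQR s h)).1, hsub (hR s (hQR s h)).2⟩
      rcases hb with rfl | rfl
      · exact hxs.1
      · exact hxs.2
    exact hle hy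
  have hxinv : ∀ y, x (z⁻¹ • x y) = y := by
    intro y
    rw [map_smul, hx, smul_smul, inv_mul_cancel₀ hz, one_smul]
  have hMx : ∀ v ∈ perp B S, x v ∈ perp B S := by
    intro v hv
    have key : ∀ y ∈ Submodule.span F ((vec S : Finset V) : Set V), B (x v) y = 0 := by
      intro y hy
      rw [← hxinv y, hiso]
      exact perp_span B S v hv _ (Submodule.smul_mem _ _ (hWx y hy))
    rw [mem_perp]
    intro s hs
    exact ⟨key _ (hvec s hs).1, key _ (hvec s hs).2⟩
  have hMnd : ∀ u ∈ perp B S, u ≠ 0 → ∃ v ∈ perp B S, B u v ≠ 0 := by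
    intro u hu hu0
    obtain ⟨v, hv⟩ := hnd u hu0
    obtain ⟨v', hv'M, hv'W⟩ := proj B halt S hSys v
    refine ⟨v', hv'M, ?_⟩
    have h0 := perp_span B S u hu _ hv'W
    rw [map_sub, sub_eq_zero] at h0
    rw [← h0]; exact hv
  have hMne : perp B S ≠ ⊥ := by
    intro hbot
    apply hW
    rw [eq_top_iff]
    intro v _
    obtain ⟨v', hv'M, hv'W⟩ := proj B halt S hSys v
    have hv'0 : v' = 0 := by
      rw [hbot, Submodule.mem_bot] at hv'M
      exact hv'M
    rw [hv'0, sub_zero] at hv'W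
    exact hv'W
  obtain ⟨u, hu, w, hw, huw, hcase⟩ := hstep (perp B S) hMx hMnd hMne
  have hnotin : ∀ a b : V, a ∈ perp B S → B a b = 1 → (a, b) ∉ S := by
    intro a b ha hab h
    have h2 : B a b = 0 := (ha (a, b) h).2
    rw [hab] at h2
    exact one_ne_zero h2
  have hnew : ∀ s ∈ S, (B u s.1 = 0 ∧ B u s.2 = 0) ∧ (B w s.1 = 0 ∧ B w s.2 = 0) :=
    fun s hs => ⟨hu s hs, hw s hs⟩
  have h1S : (u, w) ∉ S := hnotin u w hu huw
  rcases hcase with hRuw | ⟨hallow, e1, e2, e3, e4⟩
  · have hΦ : Disjoint P (P.image (Prod.map x x)) ∧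
        Disjoint (P ∪ P.image (Prod.map x x)) (insert (u, w) Q) ∧
        Sys B (P ∪ P.image (Prod.map x x) ∪ insert (u, w) Q) ∧
        (∀ s ∈ insert (u, w) Q, R s) ∧ (¬ allow → P = ∅) := by
      refine ⟨hPT, ?_, ?_, ?_, hPe⟩
      · rw [Finset.disjoint_insert_right]
        refine ⟨fun h => h1S ?_, hPQ⟩
        rw [hSdef]; exact Finset.mem_union_left _ h
      · rw [Finset.union_insert, ← hSdef]
        exact sys_insert B halt S hSys (u, w) huw hnew
      · intro s hs
        rcases Finset.mem_insert.mp hs with h | hs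
        · rw [h]; exact hRuw
        · exact hQR s hs
    have hlt : 2 * P.card + (insert (u, w) Q).card ≤ 2 * P.card + Q.card :=
      hmax P (insert (u, w) Q) hΦ
    rw [Finset.card_insert_of_notMem (fun h => h1S (hQS h))] at hlt
    omega
  · have hxu : x u ∈ perp B S := hMx u hu
    have hxw : x w ∈ perp B S := hMx w hw
    have hxuw : B (x u) (x w) = 1 := by rw [hiso]; exact huw
    have h2S : (x u, x w) ∉ S := hnotin _ _ hxu hxuw
    have h12 : (u, w) ≠ (x u, x w) := by
      intro h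
      have hw' : w = x w := congrArg Prod.snd h
      rw [← hw', huw] at e2
      exact one_ne_zero e2
    have hΦ : Disjoint (insert (u, w) P) ((insert (u, w) P).image (Prod.map x x)) ∧
        Disjoint (insert (u, w) P ∪ (insert (u, w) P).image (Prod.map x x)) Q ∧
        Sys B (insert (u, w) P ∪ (insert (u, w) P).image (Prod.map x x) ∪ Q) ∧
        (∀ s ∈ Q, R s) ∧ (¬ allow → insert (u, w) P = ∅) := by
      have himg : (insert (u, w) P).image (Prod.map x x) =
          insert (x u, x w) (P.image (Prod.map x x)) := by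
        rw [Finset.image_insert]; rfl
      refine ⟨?_, ?_, ?_, hQR, fun h => absurd hallow h⟩
      · rw [himg, Finset.disjoint_left]
        intro a ha ha'
        rcases Finset.mem_insert.mp ha with h | haP <;>
          rcases Finset.mem_insert.mp ha' with h' | h'
        · exact h12 (h.symm.trans h')
        · exact h1S (hTPS (h ▸ h'))
        · exact h2S (h' ▸ hPS haP)
        · exact Finset.disjoint_left.mp hPT haP h'
      · rw [himg, Finset.disjoint_left]
        intro a ha haQ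
        rcases Finset.mem_union.mp ha with ha | ha
        · rcases Finset.mem_insert.mp ha with h | haP
          · exact h1S (hQS (h ▸ haQ))
          · exact Finset.disjoint_left.mp hPQ (Finset.mem_union_left _ haP) haQ
        · rcases Finset.mem_insert.mp ha with h | haP
          · exact h2S (hQS (h ▸ haQ))
          · exact Finset.disjoint_left.mp hPQ (Finset.mem_union_right _ haP) haQ
      · have hset : insert (u, w) P ∪ (insert (u, w) P).image (Prod.map x x) ∪ Q =
            insert (u, w) (insert (x u, x w) S) := by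
          rw [himg, hSdef]
          ext a
          simp only [Finset.mem_union, Finset.mem_insert]
          tauto
        rw [hset]
        have hS2 : Sys B (insert (x u, x w) S) :=
          sys_insert B halt S hSys (x u, x w) hxuw (fun s hs => ⟨hxu s hs, hxw s hs⟩)
        refine sys_insert B halt _ hS2 (u, w) huw ?_
        intro s hs
        rcases Finset.mem_insert.mp hs with h | hs
        · rw [h]; exact ⟨⟨e1, e2⟩, e3, e4⟩
        · exact hnew s hs
    have hlt : 2 * (insert (u, w) P).card + Q.card ≤ 2 * P.card + Q.card :=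
      hmax (insert (u, w) P) Q hΦ
    rw [Finset.card_insert_of_notMem (fun h => h1S (hPS h))] at hlt
    omega

theorem step_fix (B : LinearMap.BilinForm F V) (h2 : (2 : F) ≠ 0)
    (x : V →ₗ[F] V) (hiso : ∀ u v, B (x u) (x v) = B u v) (hx : ∀ v, x (x v) = v)
    (M : Submodule F V) (hMx : ∀ v ∈ M, x v ∈ M)
    (hMnd : ∀ u ∈ M, u ≠ 0 → ∃ v ∈ M, B u v ≠ 0) (hM : M ≠ ⊥) :
    ∃ u ∈ M, ∃ w ∈ M, B u w = 1 ∧ ∃ c c' : F, x u = c • u ∧ x w = c' • w := by
  obtain ⟨u₀, hu₀, hne⟩ := Submodule.exists_mem_ne_zero_of_ne_bot hM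
  have he : ∃ e ∈ M, e ≠ 0 ∧ ∃ ε : F, ε * ε = 1 ∧ x e = ε • e := by
    by_cases h : u₀ + x u₀ = 0
    · refine ⟨u₀, hu₀, hne, -1, by ring, ?_⟩
      rw [neg_one_smul]; exact eq_neg_of_add_eq_zero_right h
    · refine ⟨u₀ + x u₀, M.add_mem hu₀ (hMx u₀ hu₀), h, 1, by ring, ?_⟩
      rw [map_add, hx, one_smul, add_comm]
  obtain ⟨e, heM, he0, ε, hε, hxe⟩ := he
  obtain ⟨w₀, hw₀, hne'⟩ := hMnd e heM he0
  have hBe : B e (x w₀) = ε * B e w₀ := by
    have h := hiso e (x w₀)
    rw [hx, hxe, map_smul, LinearMap.smul_apply, smul_eq_mul] at h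
    exact h.symm
  have hB : B e (w₀ + ε • x w₀) = 2 * B e w₀ := by
    rw [map_add, map_smul, smul_eq_mul, hBe, ← mul_assoc, hε]; ring
  have hB0 : B e (w₀ + ε • x w₀) ≠ 0 := by
    rw [hB]; exact mul_ne_zero h2 hne'
  have hwM : w₀ + ε • x w₀ ∈ M := M.add_mem hw₀ (M.smul_mem _ (hMx w₀ hw₀))
  have hxw : x (w₀ + ε • x w₀) = ε • (w₀ + ε • x w₀) := by
    rw [map_add, map_smul, hx, smul_add, smul_smul, hε, one_smul, add_comm]
  refine ⟨e, heM, (B e (w₀ + ε • x w₀))⁻¹ • (w₀ + ε • x w₀), M.smul_mem _ hwM, ?_,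
    ε, ε, hxe, ?_⟩
  · rw [map_smul, smul_eq_mul, inv_mul_cancel₀ hB0]
  · rw [map_smul, hxw, smul_comm]

theorem step_swap (B : LinearMap.BilinForm F V) (halt : ∀ v, B v v = 0)
    (x : V →ₗ[F] V) (z : F) (hz : z ≠ 0) (hz1 : z ≠ 1) (hiso : ∀ u v, B (x u) (x v) = B u v)
    (hx : ∀ v, x (x v) = z • v)
    (M : Submodule F V) (hMx : ∀ v ∈ M, x v ∈ M)
    (hMnd : ∀ u ∈ M, u ≠ 0 → ∃ v ∈ M, B u v ≠ 0) (hM : M ≠ ⊥) :
    ∃ u ∈ M, ∃ w ∈ M, B u w = 1 ∧ ∃ c c' : F, x u = c • w ∧ x w = c' • u := by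
  have hanti := anti B halt
  have hA : ∃ v ∈ M, B v (x v) ≠ 0 := by
    by_contra hA
    push Not at hA
    have hpol : ∀ a ∈ M, ∀ b ∈ M, B a (x b) = - B b (x a) := by
      intro a ha b hb
      have h := hA (a + b) (M.add_mem ha hb)
      simp only [map_add, LinearMap.add_apply, hA a ha, hA b hb, zero_add, add_zero] at h
      linear_combination h
    have hzero : ∀ a ∈ M, ∀ b ∈ M, B a (x b) = 0 := by
      intro a ha b hb
      have h1 := hpol a ha b hb
      have h2 : B b (x a) = - (z * B a (x b)) := by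
        rw [hanti b (x a), ← hiso (x a) b, hx, map_smul, LinearMap.smul_apply, smul_eq_mul]
      rw [h2, neg_neg] at h1
      have h3 : (1 - z) * B a (x b) = 0 := by linear_combination h1
      rcases mul_eq_zero.mp h3 with h | h
      · exact absurd (sub_eq_zero.mp h).symm hz1
      · exact h
    obtain ⟨a, ha, ha0⟩ := Submodule.exists_mem_ne_zero_of_ne_bot hM
    obtain ⟨y, hy, hne⟩ := hMnd a ha ha0
    apply hne
    have hy' : y = x (z⁻¹ • x y) := by
      rw [map_smul, hx, smul_smul, inv_mul_cancel₀ hz, one_smul]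
    rw [hy']
    exact hzero a ha _ (M.smul_mem _ (hMx y hy))
  obtain ⟨v, hv, hc⟩ := hA
  refine ⟨v, hv, (B v (x v))⁻¹ • x v, M.smul_mem _ (hMx v hv), ?_,
    B v (x v), (B v (x v))⁻¹ * z, ?_, ?_⟩
  · rw [map_smul, smul_eq_mul, inv_mul_cancel₀ hc]
  · rw [smul_smul, mul_inv_cancel₀ hc, one_smul]
  · rw [map_smul, hx, smul_smul]

theorem symp_decomp [Finite V] [FiniteDimensional F V] (B : LinearMap.BilinForm F V)
    (halt : ∀ v, B v v = 0) (hnd : ∀ u, u ≠ 0 → ∃ v, B u v ≠ 0)
    (x : V →ₗ[F] V) (z : F) (hz : z ≠ 0) (hiso : ∀ u v, B (x u) (x v) = B u v)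
    (hx : ∀ v, x (x v) = z • v) (a t : ℕ) (ha : 1 ≤ a)
    (hdim : Module.finrank F V = 2 * (a * t)) :
    ∃ D : Fin t → Submodule F V, (∀ j, Module.finrank F (D j) = 2 * a) ∧ iSupIndep D ∧
      (⨆ j, D j) = ⊤ ∧ (∀ j, ∀ u ∈ D j, u ≠ 0 → ∃ v ∈ D j, B u v ≠ 0) ∧
      (∀ j j', j ≠ j' → ∀ u ∈ D j, ∀ v ∈ D j', B u v = 0) ∧
      ∃ σ : Equiv.Perm (Fin t), ∀ j, (D j).map x = D (σ j) := by
  classical
  have hinj : Function.Injective x := Cfsg.Agent.S5957.T_inj x z hz hx
  have hTinj : Function.Injective (Prod.map x x) := Function.Injective.prodMap hinj hinj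
  obtain ⟨P, Q, hPT, hPQ, hSys, hQR, -, hspan⟩ := nf B halt hnd x z hz hiso hx
    (fun s => x s.1 ∈ Submodule.span F {s.1, s.2} ∧ x s.2 ∈ Submodule.span F {s.1, s.2}) True
    (fun s h => h)
    (by
      intro M hMx hMnd hM
      obtain ⟨u, hu, w, hw, huw, h⟩ := step B halt x z hx M hMx hMnd hM
      refine ⟨u, hu, w, hw, huw, ?_⟩
      rcases h with ⟨c, c', h1, h2⟩ | ⟨c, c', h1, h2⟩ | h
      · left
        constructor
        · show x u ∈ Submodule.span F {u, w}
          rw [h1]; exact Submodule.smul_mem _ _ (Submodule.subset_span (by simp))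
        · show x w ∈ Submodule.span F {u, w}
          rw [h2]; exact Submodule.smul_mem _ _ (Submodule.subset_span (by simp))
      · left
        constructor
        · show x u ∈ Submodule.span F {u, w}
          rw [h1]; exact Submodule.smul_mem _ _ (Submodule.subset_span (by simp))
        · show x w ∈ Submodule.span F {u, w}
          rw [h2]; exact Submodule.smul_mem _ _ (Submodule.subset_span (by simp))
      · right; exact ⟨trivial, h⟩)
  obtain ⟨S, hSdef⟩ : ∃ S, S = P ∪ P.image (Prod.map x x) ∪ Q := ⟨_, rfl⟩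
  rw [← hSdef] at hSys hspan
  have hcardS : S.card = 2 * P.card + Q.card := by
    rw [hSdef]; exact Cfsg.Agent.S5957.card_B (Prod.map x x) hTinj P Q hPT hPQ
  have hSa : 2 * S.card = 2 * (a * t) := by
    rw [← hdim, ← sys_finrank B halt S hSys, hspan, finrank_top]
  have hcard : 2 * P.card + Q.card = a * t := by omega
  obtain ⟨c, σ, h1, h2, h3, h4, h5⟩ :=
    Cfsg.Agent.S5957.coloring (Prod.map x x) hTinj a ha t P Q hPT hPQ hcard
  rw [← hSdef] at h1 h2
  obtain ⟨D, hD⟩ : ∃ D : Fin t → Submodule F V, ∀ j, D j =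
      Submodule.span F ((vec (S.filter (fun s => c s = j.val)) : Finset V) : Set V) :=
    ⟨_, fun _ => rfl⟩
  have hfs : ∀ j : Fin t, S.filter (fun s => c s = j.val) ⊆ S := fun j => Finset.filter_subset _ _
  have hfin : ∀ j, Module.finrank F (D j) = 2 * a := by
    intro j
    rw [hD, sys_finrank B halt _ (sys_mono hSys (hfs j)), h2 j.val j.isLt]
  have hspanS : ∀ S₁ ⊆ S, Submodule.span F ((vec S₁ : Finset V) : Set V) ⊔
      Submodule.span F ((vec (S \ S₁) : Finset V) : Set V) = ⊤ := by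
    intro S₁ hS₁
    rw [← Submodule.span_union, ← Finset.coe_union, ← vec_union,
      Finset.union_sdiff_of_subset hS₁, hspan]
  have hnondeg : ∀ S₁ ⊆ S, ∀ u ∈ Submodule.span F ((vec S₁ : Finset V) : Set V), u ≠ 0 →
      ∃ v ∈ Submodule.span F ((vec S₁ : Finset V) : Set V), B u v ≠ 0 := by
    intro S₁ hS₁ u hu hu0
    obtain ⟨v₀, hv₀⟩ := hnd u hu0
    have hv₀' : v₀ ∈ Submodule.span F ((vec S₁ : Finset V) : Set V) ⊔
        Submodule.span F ((vec (S \ S₁) : Finset V) : Set V) := by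
      rw [hspanS S₁ hS₁]; exact Submodule.mem_top
    obtain ⟨v₁, hv₁, v₂, hv₂, rfl⟩ := Submodule.mem_sup.mp hv₀'
    refine ⟨v₁, hv₁, ?_⟩
    have h0 := vec_orth B S hSys S₁ (S \ S₁) hS₁ Finset.sdiff_subset Finset.disjoint_sdiff
      u hu v₂ hv₂
    rw [map_add, h0, add_zero] at hv₀
    exact hv₀
  have horth : ∀ j j' : Fin t, j ≠ j' → ∀ u ∈ D j, ∀ v ∈ D j', B u v = 0 := by
    intro j j' hjj u hu v hv
    rw [hD] at hu hv
    refine vec_orth B S hSys _ _ (hfs j) (hfs j') ?_ u hu v hv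
    rw [Finset.disjoint_left]
    intro s hs hs'
    rw [Finset.mem_filter] at hs hs'
    exact hjj (Fin.ext (hs.2.symm.trans hs'.2))
  have hinvol : Function.Involutive
      (fun j : Fin t => (⟨σ j.val, (h3 j.val j.isLt).1⟩ : Fin t)) := by
    intro j
    apply Fin.ext
    exact (h3 j.val j.isLt).2
  obtain ⟨σ', hσ'⟩ : ∃ σ' : Equiv.Perm (Fin t), ∀ j, (σ' j).val = σ j.val :=
    ⟨Function.Involutive.toPerm _ hinvol, fun j => rfl⟩
  refine ⟨D, hfin, ?_, ?_, ?_, horth, σ', ?_⟩
  · intro i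
    rw [Submodule.disjoint_def]
    intro v hvi hv
    by_contra hv0
    have hvi' := hvi
    rw [hD] at hvi'
    obtain ⟨w, hw, hne⟩ := hnondeg _ (hfs i) v hvi' hv0
    have hle : (⨆ j, ⨆ (_ : j ≠ i), D j) ≤ Submodule.span F
        ((vec (S \ S.filter (fun s => c s = i.val)) : Finset V) : Set V) := by
      refine iSup₂_le fun j hj => ?_
      rw [hD]
      refine Submodule.span_mono (Finset.coe_subset.mpr (vec_mono ?_))
      intro s hs
      rw [Finset.mem_filter] at hs
      rw [Finset.mem_sdiff, Finset.mem_filter]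
      refine ⟨hs.1, fun h => hj (Fin.ext ?_)⟩
      rw [← hs.2, h.2]
    have h0 := vec_orth B S hSys _ _ (hfs i) Finset.sdiff_subset Finset.disjoint_sdiff
      w hw v (hle hv)
    apply hne
    rw [anti B halt, h0, neg_zero]
  · rw [eq_top_iff, ← hspan, Submodule.span_le]
    intro b hb
    rw [Finset.mem_coe, mem_vec] at hb
    obtain ⟨s, hs, hb⟩ := hb
    have hbD : b ∈ D ⟨c s, h1 s hs⟩ := by
      rw [hD]
      exact Submodule.subset_span (Finset.mem_coe.mpr ((mem_vec _ _).mpr
        ⟨s, Finset.mem_filter.mpr ⟨hs, rfl⟩, hb⟩))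
    exact Submodule.mem_iSup_of_mem _ hbD
  · intro j u hu hu0
    rw [hD] at hu ⊢
    exact hnondeg _ (hfs j) u hu hu0
  · intro j
    have hle : (D j).map x ≤ D (σ' j) := by
      rw [hD, hD, Submodule.map_span, Submodule.span_le]
      rintro _ ⟨b, hb, rfl⟩
      rw [Finset.mem_coe, mem_vec] at hb
      obtain ⟨s, hs, hb⟩ := hb
      rw [Finset.mem_filter] at hs
      obtain ⟨hsS, hcs⟩ := hs
      have hsS' := hsS
      rw [hSdef, Finset.mem_union, Finset.mem_union] at hsS'
      have hboth : x s.1 ∈ Submodule.span F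
            ((vec (S.filter (fun s => c s = (σ' j).val)) : Finset V) : Set V) ∧
          x s.2 ∈ Submodule.span F
            ((vec (S.filter (fun s => c s = (σ' j).val)) : Finset V) : Set V) := by
        rcases hsS' with (hP | hTP) | hQ
        · have hmem : Prod.map x x s ∈ S.filter (fun s => c s = (σ' j).val) := by
            rw [Finset.mem_filter]
            refine ⟨?_, ?_⟩
            · rw [hSdef]
              exact Finset.mem_union_left _ (Finset.mem_union_right _
                (Finset.mem_image_of_mem _ hP))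
            · rw [(h4 s hP).1, hcs, hσ']
          exact ⟨Submodule.subset_span (Finset.mem_coe.mpr ((mem_vec _ _).mpr
              ⟨_, hmem, Or.inl rfl⟩)),
            Submodule.subset_span (Finset.mem_coe.mpr ((mem_vec _ _).mpr
              ⟨_, hmem, Or.inr rfl⟩))⟩
        · obtain ⟨p, hp, rfl⟩ := Finset.mem_image.mp hTP
          have hmem : p ∈ S.filter (fun s => c s = (σ' j).val) := by
            rw [Finset.mem_filter]
            refine ⟨?_, ?_⟩
            · rw [hSdef]; exact Finset.mem_union_left _ (Finset.mem_union_left _ hp)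
            · rw [(h4 p hp).2, hcs, hσ']
          constructor
          · show x (x p.1) ∈ _
            rw [hx]
            exact Submodule.smul_mem _ _ (Submodule.subset_span (Finset.mem_coe.mpr
              ((mem_vec _ _).mpr ⟨_, hmem, Or.inl rfl⟩)))
          · show x (x p.2) ∈ _
            rw [hx]
            exact Submodule.smul_mem _ _ (Submodule.subset_span (Finset.mem_coe.mpr
              ((mem_vec _ _).mpr ⟨_, hmem, Or.inr rfl⟩)))
        · have hmem : s ∈ S.filter (fun s => c s = (σ' j).val) := by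
            rw [Finset.mem_filter]
            refine ⟨hsS, ?_⟩
            have h5' := h5 s hQ
            rw [hcs] at h5'
            rw [hcs, hσ', h5']
          have hsub : Submodule.span F ({s.1, s.2} : Set V) ≤
              Submodule.span F
                ((vec (S.filter (fun s => c s = (σ' j).val)) : Finset V) : Set V) := by
            rw [Submodule.span_le]
            intro y hy
            rcases hy with rfl | rfl
            · exact Submodule.subset_span (Finset.mem_coe.mpr ((mem_vec _ _).mpr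
                ⟨_, hmem, Or.inl rfl⟩))
            · exact Submodule.subset_span (Finset.mem_coe.mpr ((mem_vec _ _).mpr
                ⟨_, hmem, Or.inr rfl⟩))
          exact ⟨hsub (hQR s hQ).1, hsub (hQR s hQ).2⟩
      rcases hb with rfl | rfl
      · exact hboth.1
      · exact hboth.2
    refine Submodule.eq_of_le_of_finrank_eq hle ?_
    rw [hfin (σ' j), ← hfin j]
    exact (LinearEquiv.finrank_eq (Submodule.equivMapOfInjective x hinj (D j))).symm

theorem polar_pair [Finite V] (B : LinearMap.BilinForm F V) (halt : ∀ v, B v v = 0)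
    (hnd : ∀ u, u ≠ 0 → ∃ v, B u v ≠ 0) (h2 : (2 : F) ≠ 0)
    (x : V →ₗ[F] V) (z : F) (hz : z ≠ 0) (hiso : ∀ u v, B (x u) (x v) = B u v)
    (hx : ∀ v, x (x v) = z • v) :
    ∃ U W : Submodule F V, IsCompl U W ∧ (∀ u ∈ U, ∀ v ∈ U, B u v = 0) ∧
      (∀ u ∈ W, ∀ v ∈ W, B u v = 0) ∧
      ((U.map x = U ∧ W.map x = W) ∨ (U.map x = W ∧ W.map x = U)) := by
  classical
  have key : ∃ Q : Finset (V × V), Sys B Q ∧
      Submodule.span F ((vec Q : Finset V) : Set V) = ⊤ ∧
      ((∀ s ∈ Q, ∃ c c' : F, x s.1 = c • s.1 ∧ x s.2 = c' • s.2) ∨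
       (∀ s ∈ Q, ∃ c c' : F, x s.1 = c • s.2 ∧ x s.2 = c' • s.1)) := by
    by_cases hz1 : z = 1
    · have hx' : ∀ v, x (x v) = v := fun v => by rw [hx, hz1, one_smul]
      obtain ⟨P, Q, -, -, hSys, hQR, hPe, hspan⟩ := nf B halt hnd x z hz hiso hx
        (fun s => ∃ c c' : F, x s.1 = c • s.1 ∧ x s.2 = c' • s.2) False
        (by
          rintro s ⟨c, c', h1, h2⟩
          constructor
          · rw [h1]; exact Submodule.smul_mem _ _ (Submodule.subset_span (by simp))
          · rw [h2]; exact Submodule.smul_mem _ _ (Submodule.subset_span (by simp)))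
        (by
          intro M hMx hMnd hM
          obtain ⟨u, hu, w, hw, huw, h⟩ := step_fix B h2 x hiso hx' M hMx hMnd hM
          exact ⟨u, hu, w, hw, huw, Or.inl h⟩)
      have hP : P = ∅ := hPe (fun h => h)
      rw [hP] at hSys hspan
      simp only [Finset.image_empty, Finset.union_empty, Finset.empty_union] at hSys hspan
      exact ⟨Q, hSys, hspan, Or.inl hQR⟩
    · obtain ⟨P, Q, -, -, hSys, hQR, hPe, hspan⟩ := nf B halt hnd x z hz hiso hx
        (fun s => ∃ c c' : F, x s.1 = c • s.2 ∧ x s.2 = c' • s.1) False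
        (by
          rintro s ⟨c, c', h1, h2⟩
          constructor
          · rw [h1]; exact Submodule.smul_mem _ _ (Submodule.subset_span (by simp))
          · rw [h2]; exact Submodule.smul_mem _ _ (Submodule.subset_span (by simp)))
        (by
          intro M hMx hMnd hM
          obtain ⟨u, hu, w, hw, huw, h⟩ := step_swap B halt x z hz hz1 hiso hx M hMx hMnd hM
          exact ⟨u, hu, w, hw, huw, Or.inl h⟩)
      have hP : P = ∅ := hPe (fun h => h)
      rw [hP] at hSys hspan
      simp only [Finset.image_empty, Finset.union_empty, Finset.empty_union] at hSys hspan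
      exact ⟨Q, hSys, hspan, Or.inr hQR⟩
  obtain ⟨Q, hSys, hspan, htype⟩ := key
  have hUiso : ∀ u ∈ Submodule.span F ((Q.image Prod.fst : Finset V) : Set V),
      ∀ v ∈ Submodule.span F ((Q.image Prod.fst : Finset V) : Set V), B u v = 0 := by
    apply span_orth
    intro a ha b hb
    rw [Finset.mem_coe, Finset.mem_image] at ha hb
    obtain ⟨s, hs, rfl⟩ := ha
    obtain ⟨s', hs', rfl⟩ := hb
    by_cases hss : s = s'
    · rw [hss]; exact halt _
    · exact (hSys.2 s hs s' hs' hss).1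
  have hWiso : ∀ u ∈ Submodule.span F ((Q.image Prod.snd : Finset V) : Set V),
      ∀ v ∈ Submodule.span F ((Q.image Prod.snd : Finset V) : Set V), B u v = 0 := by
    apply span_orth
    intro a ha b hb
    rw [Finset.mem_coe, Finset.mem_image] at ha hb
    obtain ⟨s, hs, rfl⟩ := ha
    obtain ⟨s', hs', rfl⟩ := hb
    by_cases hss : s = s'
    · rw [hss]; exact halt _
    · exact (hSys.2 s hs s' hs' hss).2.2.2
  have hsup : Submodule.span F ((Q.image Prod.fst : Finset V) : Set V) ⊔
      Submodule.span F ((Q.image Prod.snd : Finset V) : Set V) = ⊤ := by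
    rw [← Submodule.span_union, ← Finset.coe_union]
    exact hspan
  have hinf : Submodule.span F ((Q.image Prod.fst : Finset V) : Set V) ⊓
      Submodule.span F ((Q.image Prod.snd : Finset V) : Set V) = ⊥ := by
    rw [eq_bot_iff]
    intro v hv
    rw [Submodule.mem_inf] at hv
    rw [Submodule.mem_bot]
    by_contra hv0
    obtain ⟨y, hy⟩ := hnd v hv0
    have hy' : y ∈ Submodule.span F ((Q.image Prod.fst : Finset V) : Set V) ⊔
        Submodule.span F ((Q.image Prod.snd : Finset V) : Set V) := by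
      rw [hsup]; exact Submodule.mem_top
    obtain ⟨y₁, hy₁, y₂, hy₂, rfl⟩ := Submodule.mem_sup.mp hy'
    apply hy
    rw [map_add, hUiso v hv.1 y₁ hy₁, hWiso v hv.2 y₂ hy₂, add_zero]
  have hmapeq : ∀ A A' : Submodule F V, A.map x ≤ A' → A'.map x ≤ A → A.map x = A' := by
    intro A A' h1 h2
    refine le_antisymm h1 ?_
    intro a' ha'
    have e : a' = x (x (z⁻¹ • a')) := by
      rw [hx, smul_smul, mul_inv_cancel₀ hz, one_smul]
    rw [e]
    exact Submodule.mem_map_of_mem (h2 (Submodule.mem_map_of_mem (A'.smul_mem _ ha')))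
  refine ⟨_, _, IsCompl.of_eq hinf hsup, hUiso, hWiso, ?_⟩
  rcases htype with hfix | hswap
  · left
    have hU : (Submodule.span F ((Q.image Prod.fst : Finset V) : Set V)).map x ≤
        Submodule.span F ((Q.image Prod.fst : Finset V) : Set V) := by
      rw [Submodule.map_span, Submodule.span_le]
      rintro _ ⟨b, hb, rfl⟩
      rw [Finset.mem_coe, Finset.mem_image] at hb
      obtain ⟨s, hs, rfl⟩ := hb
      obtain ⟨c, c', h1, h2⟩ := hfix s hs
      rw [h1]
      exact Submodule.smul_mem _ _ (Submodule.subset_span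
        (Finset.mem_coe.mpr (Finset.mem_image_of_mem _ hs)))
    have hW : (Submodule.span F ((Q.image Prod.snd : Finset V) : Set V)).map x ≤
        Submodule.span F ((Q.image Prod.snd : Finset V) : Set V) := by
      rw [Submodule.map_span, Submodule.span_le]
      rintro _ ⟨b, hb, rfl⟩
      rw [Finset.mem_coe, Finset.mem_image] at hb
      obtain ⟨s, hs, rfl⟩ := hb
      obtain ⟨c, c', h1, h2⟩ := hfix s hs
      rw [h2]
      exact Submodule.smul_mem _ _ (Submodule.subset_span
        (Finset.mem_coe.mpr (Finset.mem_image_of_mem _ hs)))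
    exact ⟨hmapeq _ _ hU hU, hmapeq _ _ hW hW⟩
  · right
    have hU : (Submodule.span F ((Q.image Prod.fst : Finset V) : Set V)).map x ≤
        Submodule.span F ((Q.image Prod.snd : Finset V) : Set V) := by
      rw [Submodule.map_span, Submodule.span_le]
      rintro _ ⟨b, hb, rfl⟩
      rw [Finset.mem_coe, Finset.mem_image] at hb
      obtain ⟨s, hs, rfl⟩ := hb
      obtain ⟨c, c', h1, h2⟩ := hswap s hs
      rw [h1]
      exact Submodule.smul_mem _ _ (Submodule.subset_span
        (Finset.mem_coe.mpr (Finset.mem_image_of_mem _ hs)))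
    have hW : (Submodule.span F ((Q.image Prod.snd : Finset V) : Set V)).map x ≤
        Submodule.span F ((Q.image Prod.fst : Finset V) : Set V) := by
      rw [Submodule.map_span, Submodule.span_le]
      rintro _ ⟨b, hb, rfl⟩
      rw [Finset.mem_coe, Finset.mem_image] at hb
      obtain ⟨s, hs, rfl⟩ := hb
      obtain ⟨c, c', h1, h2⟩ := hswap s hs
      rw [h2]
      exact Submodule.smul_mem _ _ (Submodule.subset_span
        (Finset.mem_coe.mpr (Finset.mem_image_of_mem _ hs)))
    exact ⟨hmapeq _ _ hU hW, hmapeq _ _ hW hU⟩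

end

end Cfsg.Agent.Lib.helper19.SympNF
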