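import Mathlib
import Cfsg.Prelude.Def_GeometricClasses

set_option autoImplicit false
set_option linter.unusedSectionVars false

/-!
# Tensor product subgroups in Kronecker coordinates

Generic tools for the rows saying that a tensor product stabiliser is not maximal:
rank one updates as elements of `GL`, set stabilisers, pure tensors, the coordinate map `Phi`,
and orthogonal frames of a three-dimensional orthogonal space over the field with three elements.
-/

namespace Cfsg.Agent.Lib.helper19.TensorNM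

open Matrix
open scoped Kronecker

section RU
variable {F : Type*} [Field F] {ι : Type} [Fintype ι] [DecidableEq ι]

/-- The row vector of a linear functional. -/
noncomputable def rowOf (φ : (ι → F) →ₗ[F] F) : ι → F :=
  fun i => φ (fun j => if i = j then 1 else 0)

theorem rowOf_dot (φ : (ι → F) →ₗ[F] F) (x : ι → F) : rowOf φ ⬝ᵥ x = φ x := by
  rw [LinearMap.pi_apply_eq_sum_univ φ x]
  unfold rowOf dotProduct
  apply Finset.sum_congr rfl
  intro i _
  rw [smul_eq_mul, mul_comm]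

/-- The matrix of `x ↦ x + φ x • u`. -/
noncomputable def ruM (u : ι → F) (φ : (ι → F) →ₗ[F] F) : Matrix ι ι F :=
  1 + vecMulVec u (rowOf φ)

theorem ruM_det (u : ι → F) (φ : (ι → F) →ₗ[F] F) : (ruM u φ).det = 1 + φ u := by
  unfold ruM
  rw [vecMulVec_eq (ι := Fin 1), det_one_add_replicateCol_mul_replicateRow, rowOf_dot]

theorem ruM_mulVec (u : ι → F) (φ : (ι → F) →ₗ[F] F) (x : ι → F) :
    ruM u φ *ᵥ x = x + φ x • u := by
  unfold ruM
  rw [add_mulVec, one_mulVec, vecMulVec_mulVec, rowOf_dot, op_smul_eq_smul]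

/-- The element of `GL` with matrix `ruM u φ`. -/
noncomputable def ruG (u : ι → F) (φ : (ι → F) →ₗ[F] F) (h : 1 + φ u ≠ 0) : GL ι F :=
  Matrix.GeneralLinearGroup.mkOfDetNeZero (ruM u φ) (by rw [ruM_det]; exact h)

theorem ruG_mulVec (u : ι → F) (φ : (ι → F) →ₗ[F] F) (h : 1 + φ u ≠ 0) (x : ι → F) :
    ((ruG u φ h : GL ι F) : Matrix ι ι F) *ᵥ x = x + φ x • u := ruM_mulVec u φ x

theorem ruG_det (u : ι → F) (φ : (ι → F) →ₗ[F] F) (h : 1 + φ u ≠ 0) :
    ((ruG u φ h : GL ι F) : Matrix ι ι F).det = 1 + φ u := ruM_det u φ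

theorem mem_sl_iff (g : GL ι F) :
    g ∈ Cfsg.Geo.specialLinear ι F ↔ (g : Matrix ι ι F).det = 1 := by
  unfold Cfsg.Geo.specialLinear
  rw [MonoidHom.mem_ker]
  constructor
  · intro h
    have := congrArg Units.val h
    simpa using this
  · intro h
    apply Units.ext
    simpa using h

/-- The subgroup of `GL` stabilising a set of vectors. -/
def Kset (S : Set (ι → F)) : Subgroup (GL ι F) where
  carrier := {g | ∀ v : ι → F, (g : Matrix ι ι F) *ᵥ v ∈ S ↔ v ∈ S}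
  mul_mem' := by
    intro a b ha hb v
    rw [Units.val_mul, ← Matrix.mulVec_mulVec, ha, hb]
  one_mem' := by
    intro v
    simp
  inv_mem' := by
    intro a ha v
    have := ha (((a⁻¹ : GL ι F) : Matrix ι ι F) *ᵥ v)
    rw [Matrix.mulVec_mulVec, ← Units.val_mul, mul_inv_cancel, Units.val_one,
      Matrix.one_mulVec] at this
    exact this.symm

theorem mem_Kset (S : Set (ι → F)) (g : GL ι F) :
    g ∈ Kset S ↔ ∀ v : ι → F, (g : Matrix ι ι F) *ᵥ v ∈ S ↔ v ∈ S := Iff.rfl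

/-- A subgroup mapping `S` into itself lies in `Kset S`. -/
theorem le_Kset (S : Set (ι → F)) (H : Subgroup (GL ι F))
    (h : ∀ g ∈ H, ∀ v ∈ S, (g : Matrix ι ι F) *ᵥ v ∈ S) : H ≤ Kset S := by
  intro g hg
  rw [mem_Kset]
  intro v
  constructor
  · intro hv
    have := h g⁻¹ (H.inv_mem hg) _ hv
    rwa [Matrix.mulVec_mulVec, ← Units.val_mul, inv_mul_cancel, Units.val_one,
      Matrix.one_mulVec] at this
  · exact h g hg v

/-- Two elements, one undoing the other, both mapping `S` into itself. -/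
theorem mem_Kset_of_pair (S : Set (ι → F)) (g h : GL ι F)
    (hhg : ∀ v, (h : Matrix ι ι F) *ᵥ ((g : Matrix ι ι F) *ᵥ v) = v)
    (hg : ∀ v ∈ S, (g : Matrix ι ι F) *ᵥ v ∈ S) (hh : ∀ v ∈ S, (h : Matrix ι ι F) *ᵥ v ∈ S) :
    g ∈ Kset S := by
  rw [mem_Kset]
  intro v
  constructor
  · intro hv
    have := hh _ hv
    rwa [hhg] at this
  · exact hg v

/-- The functional `x ↦ f x y` of a bilinear form. -/
noncomputable def Lf {f : (ι → F) → (ι → F) → F} (hf : Cfsg.Geo.IsBilinearForm f) (y : ι → F) :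
    (ι → F) →ₗ[F] F where
  toFun x := f x y
  map_add' x x' := hf.add_left x x' y
  map_smul' c x := by rw [hf.smul_left]; rfl

theorem Lf_apply {f : (ι → F) → (ι → F) → F} (hf : Cfsg.Geo.IsBilinearForm f) (y x : ι → F) :
    Lf hf y x = f x y := rfl

theorem bil_zero_left {f : (ι → F) → (ι → F) → F} (hf : Cfsg.Geo.IsBilinearForm f) (y : ι → F) :
    f 0 y = 0 := by
  have := hf.smul_left 0 0 y
  simpa using this

theorem bil_zero_right {f : (ι → F) → (ι → F) → F} (hf : Cfsg.Geo.IsBilinearForm f) (y : ι → F) :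
    f y 0 = 0 := by
  have := hf.smul_right 0 y 0
  simpa using this

/-- A bilinear form is given by its Gram matrix. -/
theorem bil_eq_gram {f : (ι → F) → (ι → F) → F} (hf : Cfsg.Geo.IsBilinearForm f) (x y : ι → F) :
    f x y = Cfsg.Geo.formOfGram id (Cfsg.Geo.gramMatrix f) x y := by
  have h2 : ∀ a : ι, (fun j => if a = j then (1 : F) else 0) = Pi.single a 1 := by
    intro a; funext j; simp [Pi.single_apply, eq_comm]
  have hL : ∀ (x y : ι → F), f x y = ∑ a, x a * f (Pi.single a 1) y := by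
    intro x y
    have h := LinearMap.pi_apply_eq_sum_univ (Lf hf y) x
    simp only [h2] at h
    exact h
  have hR : ∀ (x y : ι → F), f x y = ∑ b, y b * f x (Pi.single b 1) := by
    intro x y
    let L : (ι → F) →ₗ[F] F :=
      { toFun := fun y => f x y
        map_add' := fun y y' => hf.add_right x y y'
        map_smul' := fun c y => by rw [hf.smul_right]; rfl }
    have h := LinearMap.pi_apply_eq_sum_univ L y
    simp only [h2] at h
    exact h
  unfold Cfsg.Geo.formOfGram Cfsg.Geo.gramMatrix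
  rw [hL x y]
  apply Finset.sum_congr rfl
  intro a _
  rw [hR (Pi.single a 1) y, Finset.mul_sum]
  apply Finset.sum_congr rfl
  intro b _
  simp only [id]
  ring

end RU

section Kron
variable {F : Type*} [Field F] {ι : Type} [Fintype ι] [DecidableEq ι] {n₁ n₂ : ℕ}

/-- pure tensors in Kronecker coordinates -/
def pt (x₁ : Fin n₁ → F) (x₂ : Fin n₂ → F) : Fin n₁ × Fin n₂ → F := fun p => x₁ p.1 * x₂ p.2

theorem pt_apply (x₁ : Fin n₁ → F) (x₂ : Fin n₂ → F) (i : Fin n₁) (j : Fin n₂) :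
    pt x₁ x₂ (i, j) = x₁ i * x₂ j := rfl

theorem pt_smul_left (d : F) (x₁ : Fin n₁ → F) (x₂ : Fin n₂ → F) :
    pt (d • x₁) x₂ = d • pt x₁ x₂ := by
  funext p
  simp only [pt, Pi.smul_apply, smul_eq_mul]
  ring

theorem pt_smul_right (d : F) (x₁ : Fin n₁ → F) (x₂ : Fin n₂ → F) :
    pt x₁ (d • x₂) = d • pt x₁ x₂ := by
  funext p
  simp only [pt, Pi.smul_apply, smul_eq_mul]
  ring

theorem pt_add_left (x₁ x₁' : Fin n₁ → F) (x₂ : Fin n₂ → F) :
    pt (x₁ + x₁') x₂ = pt x₁ x₂ + pt x₁' x₂ := by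
  funext p
  simp only [pt, Pi.add_apply]
  ring

theorem pt_add_right (x₁ : Fin n₁ → F) (x₂ x₂' : Fin n₂ → F) :
    pt x₁ (x₂ + x₂') = pt x₁ x₂ + pt x₁ x₂' := by
  funext p
  simp only [pt, Pi.add_apply]
  ring

theorem gram_pure (σ : F → F) (hσ : ∀ a b, σ (a * b) = σ a * σ b)
    (G₁ : Matrix (Fin n₁) (Fin n₁) F) (G₂ : Matrix (Fin n₂) (Fin n₂) F)
    (x₁ y₁ : Fin n₁ → F) (x₂ y₂ : Fin n₂ → F) :
    Cfsg.Geo.formOfGram σ (G₁ ⊗ₖ G₂) (pt x₁ x₂) (pt y₁ y₂)
      = Cfsg.Geo.formOfGram σ G₁ x₁ y₁ * Cfsg.Geo.formOfGram σ G₂ x₂ y₂ := by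
  unfold Cfsg.Geo.formOfGram
  simp only [Fintype.sum_prod_type, Matrix.kroneckerMap_apply, pt, hσ]
  rw [Finset.sum_mul_sum]
  apply Finset.sum_congr rfl
  intro a1 _
  apply Finset.sum_congr rfl
  intro a2 _
  rw [Finset.sum_mul_sum]
  apply Finset.sum_congr rfl
  intro b1 _
  apply Finset.sum_congr rfl
  intro b2 _
  ring

theorem kron_pt (a : Matrix (Fin n₁) (Fin n₁) F) (b : Matrix (Fin n₂) (Fin n₂) F)
    (x₁ : Fin n₁ → F) (x₂ : Fin n₂ → F) :
    (a ⊗ₖ b) *ᵥ (pt x₁ x₂) = pt (a *ᵥ x₁) (b *ᵥ x₂) := by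
  funext p
  simp only [Matrix.mulVec, dotProduct, pt, Fintype.sum_prod_type, Matrix.kroneckerMap_apply]
  rw [Finset.sum_mul_sum]
  apply Finset.sum_congr rfl
  intro i _
  apply Finset.sum_congr rfl
  intro j _
  ring

/-- Kronecker coordinates on `F^ι`. -/
def Phi (e : ι ≃ Fin n₁ × Fin n₂) (P : GL ι F) (x : Fin n₁ × Fin n₂ → F) : ι → F :=
  (P : Matrix ι ι F) *ᵥ (x ∘ e)

theorem Phi_add (e : ι ≃ Fin n₁ × Fin n₂) (P : GL ι F) (x y : Fin n₁ × Fin n₂ → F) :
    Phi e P (x + y) = Phi e P x + Phi e P y := by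
  unfold Phi
  rw [← Matrix.mulVec_add]; rfl

theorem Phi_smul (e : ι ≃ Fin n₁ × Fin n₂) (P : GL ι F) (c : F)
    (x : Fin n₁ × Fin n₂ → F) : Phi e P (c • x) = c • Phi e P x := by
  unfold Phi
  rw [← Matrix.mulVec_smul]; rfl

theorem Phi_inj (e : ι ≃ Fin n₁ × Fin n₂) (P : GL ι F) :
    Function.Injective (Phi e P) := by
  intro x y h
  unfold Phi at h
  have h1 := congrArg (fun v => ((P⁻¹ : GL ι F) : Matrix ι ι F) *ᵥ v) h
  simp only [Matrix.mulVec_mulVec, ← Units.val_mul, inv_mul_cancel, Units.val_one,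
    Matrix.one_mulVec] at h1
  funext p
  have := congrFun h1 (e.symm p)
  simpa using this

theorem Phi_conj (e : ι ≃ Fin n₁ × Fin n₂) (P : GL ι F) (k : GL (Fin n₁ × Fin n₂) F)
    (x : Fin n₁ × Fin n₂ → F) :
    (((MulAut.conj P).toMonoidHom ((Cfsg.Geo.glReindex e.symm).toMonoidHom k) : GL ι F) :
        Matrix ι ι F) *ᵥ (Phi e P x)
      = Phi e P ((k : Matrix (Fin n₁ × Fin n₂) (Fin n₁ × Fin n₂) F) *ᵥ x) := by
  have h1 : (((Cfsg.Geo.glReindex e.symm).toMonoidHom k : GL ι F) : Matrix ι ι F)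
      = (k : Matrix (Fin n₁ × Fin n₂) (Fin n₁ × Fin n₂) F).submatrix e e := rfl
  have h2 : ((MulAut.conj P).toMonoidHom ((Cfsg.Geo.glReindex e.symm).toMonoidHom k) :
      GL ι F) = P * ((Cfsg.Geo.glReindex e.symm).toMonoidHom k) * P⁻¹ := rfl
  rw [h2]
  unfold Phi
  rw [Matrix.mulVec_mulVec, ← Units.val_mul, mul_assoc, mul_assoc, inv_mul_cancel, mul_one,
    Units.val_mul, ← Matrix.mulVec_mulVec, h1]
  congr 1
  funext i
  simp only [Matrix.mulVec, dotProduct, Matrix.submatrix_apply, Function.comp_apply]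
  exact (Equiv.sum_comp e
    (fun p => (k : Matrix (Fin n₁ × Fin n₂) (Fin n₁ × Fin n₂) F) (e i) p * x p))

/-- Elements of the tensor product subgroup act on pure tensors factorwise. -/
theorem tensor_act (e : ι ≃ Fin n₁ × Fin n₂) (P : GL ι F) (g : GL ι F)
    (hg : g ∈ Cfsg.Geo.tensorProductSubgroup n₁ n₂ e P) :
    ∃ (a : GL (Fin n₁) F) (b : GL (Fin n₂) F), ∀ (x₁ : Fin n₁ → F) (x₂ : Fin n₂ → F),
      (g : Matrix ι ι F) *ᵥ Phi e P (pt x₁ x₂)
        = Phi e P (pt ((a : Matrix (Fin n₁) (Fin n₁) F) *ᵥ x₁)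
            ((b : Matrix (Fin n₂) (Fin n₂) F) *ᵥ x₂)) := by
  obtain ⟨g1, hg1, rfl⟩ := Subgroup.mem_map.mp hg
  obtain ⟨k, hk, rfl⟩ := Subgroup.mem_map.mp hg1
  obtain ⟨a, b, hab⟩ := hk
  refine ⟨a, b, fun x₁ x₂ => ?_⟩
  rw [Phi_conj, hab, kron_pt]

end Kron

section Three
variable {F : Type*} [Field F]

/-- The facts about the field with three elements that are used. -/
structure F3 (F : Type*) [Field F] : Prop where
  three : (3 : F) = 0
  cases : ∀ a : F, a = 0 ∨ a = 1 ∨ a = -1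

theorem f3 [Fintype F] (hF : Fintype.card F = 3) : F3 F := by
  have hc := FiniteField.cast_card_eq_zero F
  rw [hF] at hc
  have h3 : (3 : F) = 0 := by exact_mod_cast hc
  refine ⟨h3, ?_⟩
  intro a
  by_cases ha : a = 0
  · exact Or.inl ha
  · right
    have := FiniteField.pow_card_sub_one_eq_one a ha
    rw [hF] at this
    have h1 : (a - 1) * (a + 1) = 0 := by
      have h2 : a ^ 2 = 1 := by simpa using this
      linear_combination h2
    rcases mul_eq_zero.mp h1 with h | h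
    · exact Or.inl (sub_eq_zero.mp h)
    · exact Or.inr (eq_neg_of_add_eq_zero_left h)

theorem F3.two_ne (h3 : F3 F) : (2 : F) ≠ 0 := by
  intro h
  have : (1 : F) = 0 := by linear_combination h3.three - h
  exact one_ne_zero this

theorem F3.sq (h3 : F3 F) (a : F) (ha : a ≠ 0) : a ^ 2 = 1 := by
  rcases h3.cases a with h | h | h
  · exact absurd h ha
  · rw [h]; ring
  · rw [h]; ring

/-- An orthogonal basis of a three-dimensional space with a symmetric bilinear form. -/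
theorem orth3 (h3 : F3 F) {f : (Fin 3 → F) → (Fin 3 → F) → F}
    (hf : Cfsg.Geo.IsSymmetricForm f) :
    ∃ b : Fin 3 → (Fin 3 → F), (∀ i j, i ≠ j → f (b i) (b j) = 0) ∧ (∀ i, b i ≠ 0) ∧
      ∀ x, ∃ c : Fin 3 → F, x = ∑ i, c i • b i := by
  let B : LinearMap.BilinForm F (Fin 3 → F) :=
    LinearMap.mk₂ F f hf.bilinear.add_left hf.bilinear.smul_left hf.bilinear.add_right
      hf.bilinear.smul_right
  have hB : LinearMap.IsSymm B := ⟨fun x y => hf.symm x y⟩
  haveI : Invertible (2 : F) := invertibleOfNonzero h3.two_ne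
  obtain ⟨v, hv⟩ := LinearMap.BilinForm.exists_orthogonal_basis hB
  have hfr : Module.finrank F (Fin 3 → F) = 3 := Module.finrank_fin_fun F
  obtain ⟨v', hv'⟩ : ∃ v' : Module.Basis (Fin 3) F (Fin 3 → F),
      v' = v.reindex (finCongr hfr) := ⟨_, rfl⟩
  refine ⟨fun i => v' i, ?_, ?_, ?_⟩
  · intro i j hij
    have h1 := LinearMap.isOrthoᵢ_def.mp hv ((finCongr hfr).symm i) ((finCongr hfr).symm j) (by
      intro h; exact hij ((finCongr hfr).symm.injective h))
    show f (v' i) (v' j) = 0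
    rw [hv', Module.Basis.reindex_apply, Module.Basis.reindex_apply]
    exact h1
  · intro i
    exact v'.ne_zero i
  · intro x
    exact ⟨fun i => v'.repr x i, (v'.sum_repr x).symm⟩

/-- Three pairwise orthogonal vectors of the same non-zero norm span. -/
theorem span_of_orth {f : (Fin 3 → F) → (Fin 3 → F) → F} (hf : Cfsg.Geo.IsBilinearForm f)
    (ε : F) (hε : ε ≠ 0) (b : Fin 3 → (Fin 3 → F))
    (hb : ∀ i j, f (b i) (b j) = if i = j then ε else 0) (x : Fin 3 → F) :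
    ∃ c : Fin 3 → F, x = ∑ i, c i • b i := by
  have hli : LinearIndependent F b := by
    rw [Fintype.linearIndependent_iff]
    intro g hg j
    have h1 := congrArg (Lf hf (b j)) hg
    rw [map_sum, map_zero] at h1
    simp only [map_smul, Lf_apply, hb, smul_eq_mul, mul_ite, mul_zero, Finset.sum_ite_eq',
      Finset.mem_univ, if_true] at h1
    exact (mul_eq_zero.mp h1).resolve_right hε
  have hsp : Submodule.span F (Set.range b) = ⊤ := by
    apply Submodule.eq_top_of_finrank_eq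
    rw [finrank_span_eq_card hli]
    simp
  have hx : x ∈ Submodule.span F (Set.range b) := by rw [hsp]; trivial
  obtain ⟨c, hc⟩ := (Submodule.mem_span_range_iff_exists_fun F).mp hx
  exact ⟨c, hc.symm⟩

theorem bil_sum3_left {f : (Fin 3 → F) → (Fin 3 → F) → F} (hf : Cfsg.Geo.IsBilinearForm f)
    (c : Fin 3 → F) (b : Fin 3 → (Fin 3 → F)) (y : Fin 3 → F) :
    f (∑ i, c i • b i) y = c 0 * f (b 0) y + c 1 * f (b 1) y + c 2 * f (b 2) y := by
  rw [Fin.sum_univ_three, hf.add_left, hf.add_left, hf.smul_left, hf.smul_left, hf.smul_left]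

theorem bil_sum3_right {f : (Fin 3 → F) → (Fin 3 → F) → F} (hf : Cfsg.Geo.IsBilinearForm f)
    (c : Fin 3 → F) (b : Fin 3 → (Fin 3 → F)) (y : Fin 3 → F) :
    f y (∑ i, c i • b i) = c 0 * f y (b 0) + c 1 * f y (b 1) + c 2 * f y (b 2) := by
  rw [Fin.sum_univ_three, hf.add_right, hf.add_right, hf.smul_right, hf.smul_right,
    hf.smul_right]

theorem frame_same {f : (Fin 3 → F) → (Fin 3 → F) → F} (hf : Cfsg.Geo.IsSymmetricForm f)
    (b₀ b₁ b₂ : Fin 3 → F) (ε : F) (hε : ε ≠ 0) (h00 : f b₀ b₀ = ε) (h11 : f b₁ b₁ = ε)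
    (h22 : f b₂ b₂ = ε) (h01 : f b₀ b₁ = 0) (h02 : f b₀ b₂ = 0) (h12 : f b₁ b₂ = 0) :
    ∃ (ε' : F) (b : Fin 3 → (Fin 3 → F)), ε' ≠ 0 ∧
      ∀ i j, f (b i) (b j) = if i = j then ε' else 0 := by
  have h10 : f b₁ b₀ = 0 := by rw [hf.symm]; exact h01
  have h20 : f b₂ b₀ = 0 := by rw [hf.symm]; exact h02
  have h21 : f b₂ b₁ = 0 := by rw [hf.symm]; exact h12
  refine ⟨ε, ![b₀, b₁, b₂], hε, ?_⟩
  intro i j
  fin_cases i <;> fin_cases j <;> simp [h00, h11, h22, h01, h02, h12, h10, h20, h21]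

theorem frame_mixed (h3 : F3 F) {f : (Fin 3 → F) → (Fin 3 → F) → F}
    (hf : Cfsg.Geo.IsSymmetricForm f)
    (b₀ b₁ b₂ : Fin 3 → F) (d : F) (hd : d ≠ 0) (h00 : f b₀ b₀ = d) (h11 : f b₁ b₁ = d)
    (h22 : f b₂ b₂ = -d) (h01 : f b₀ b₁ = 0) (h02 : f b₀ b₂ = 0) (h12 : f b₁ b₂ = 0) :
    ∃ (ε' : F) (b : Fin 3 → (Fin 3 → F)), ε' ≠ 0 ∧
      ∀ i j, f (b i) (b j) = if i = j then ε' else 0 := by
  have hb := hf.bilinear
  have h10 : f b₁ b₀ = 0 := by rw [hf.symm]; exact h01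
  apply frame_same hf (b₀ + b₁) (b₀ + (-1 : F) • b₁) b₂ (-d) (neg_ne_zero.mpr hd)
  · simp only [hb.add_left, hb.add_right, h00, h11, h01, h10]
    linear_combination d * h3.three
  · simp only [hb.add_left, hb.add_right, hb.smul_left, hb.smul_right, h00, h11, h01, h10]
    linear_combination d * h3.three
  · exact h22
  · simp only [hb.add_left, hb.add_right, hb.smul_left, hb.smul_right, h00, h11, h01, h10]
    ring
  · simp only [hb.add_left, h02, h12]
    ring
  · simp only [hb.add_left, hb.smul_left, h02, h12]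
    ring

/-- The canonical frame of a three-dimensional orthogonal space over the field with three
elements: three pairwise orthogonal vectors of the same norm `ε`, and every vector of norm `ε`
is a multiple of one of them. -/
theorem frame3 (h3 : F3 F) {f : (Fin 3 → F) → (Fin 3 → F) → F}
    (hf : Cfsg.Geo.IsSymmetricForm f) :
    ∃ (ε : F) (b : Fin 3 → (Fin 3 → F)), ε ≠ 0 ∧
      (∀ i j, f (b i) (b j) = if i = j then ε else 0) ∧
      (∀ v, f v v = ε → ∃ (i : Fin 3) (d : F), v = d • b i) := by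
  obtain ⟨b, horth, hne, hspan⟩ := orth3 h3 hf
  have hbil := hf.bilinear
  have hnorm : ∀ i, f (b i) (b i) ≠ 0 := by
    intro i h0
    obtain ⟨⟨x, hx⟩, -⟩ := hf.nondegenerate (b i) (hne i)
    obtain ⟨c, rfl⟩ := hspan x
    apply hx
    show Lf hbil (b i) (∑ j, c j • b j) = 0
    rw [map_sum]
    apply Finset.sum_eq_zero
    intro j _
    rw [map_smul, Lf_apply, smul_eq_mul]
    by_cases hji : j = i
    · rw [hji, h0, mul_zero]
    · rw [horth j i hji, mul_zero]
  have hpm : ∀ i, f (b i) (b i) = 1 ∨ f (b i) (b i) = -1 := fun i =>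
    (h3.cases _).resolve_left (hnorm i)
  have h01 := horth 0 1 (by decide)
  have h02 := horth 0 2 (by decide)
  have h12 := horth 1 2 (by decide)
  have h10 := horth 1 0 (by decide)
  have h20 := horth 2 0 (by decide)
  have h21 := horth 2 1 (by decide)
  have one0 : (1 : F) ≠ 0 := one_ne_zero
  have mone0 : (-1 : F) ≠ 0 := neg_ne_zero.mpr one_ne_zero
  obtain ⟨ε, b', hε, hb'⟩ : ∃ (ε' : F) (b' : Fin 3 → (Fin 3 → F)), ε' ≠ 0 ∧
      ∀ i j, f (b' i) (b' j) = if i = j then ε' else 0 := by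
    rcases hpm 0 with n0 | n0 <;> rcases hpm 1 with n1 | n1 <;> rcases hpm 2 with n2 | n2
    · exact frame_same hf (b 0) (b 1) (b 2) 1 one0 n0 n1 n2 h01 h02 h12
    · exact frame_mixed h3 hf (b 0) (b 1) (b 2) 1 one0 n0 n1 n2 h01 h02 h12
    · exact frame_mixed h3 hf (b 0) (b 2) (b 1) 1 one0 n0 n2 n1 h02 h01 h21
    · exact frame_mixed h3 hf (b 1) (b 2) (b 0) (-1) mone0 n1 n2 (by rw [n0, neg_neg]) h12 h10 h20
    · exact frame_mixed h3 hf (b 1) (b 2) (b 0) 1 one0 n1 n2 n0 h12 h10 h20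
    · exact frame_mixed h3 hf (b 0) (b 2) (b 1) (-1) mone0 n0 n2 (by rw [n1, neg_neg]) h02 h01 h21
    · exact frame_mixed h3 hf (b 0) (b 1) (b 2) (-1) mone0 n0 n1 (by rw [n2, neg_neg]) h01 h02 h12
    · exact frame_same hf (b 0) (b 1) (b 2) (-1) mone0 n0 n1 n2 h01 h02 h12
  refine ⟨ε, b', hε, hb', ?_⟩
  intro v hv
  obtain ⟨c, rfl⟩ := span_of_orth hbil ε hε b' hb' v
  have e : f (∑ i, c i • b' i) (∑ i, c i • b' i) = ε * (c 0 ^ 2 + c 1 ^ 2 + c 2 ^ 2) := by
    rw [bil_sum3_left hbil, bil_sum3_right hbil, bil_sum3_right hbil, bil_sum3_right hbil]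
    simp [hb']
    ring
  rw [e] at hv
  have hsum : c 0 ^ 2 + c 1 ^ 2 + c 2 ^ 2 = 1 := by
    apply mul_left_cancel₀ hε
    rw [hv, mul_one]
  have q : ∀ a : F, (a ^ 2 = 0 ∧ a = 0) ∨ (a ^ 2 = 1 ∧ a ≠ 0) := by
    intro a
    by_cases ha : a = 0
    · left; exact ⟨by rw [ha]; ring, ha⟩
    · right; exact ⟨h3.sq a ha, ha⟩
  rcases q (c 0) with ⟨s0, z0⟩ | ⟨s0, z0⟩ <;> rcases q (c 1) with ⟨s1, z1⟩ | ⟨s1, z1⟩ <;>
    rcases q (c 2) with ⟨s2, z2⟩ | ⟨s2, z2⟩
  · exfalso
    rw [s0, s1, s2] at hsum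
    have : (1 : F) = 0 := by linear_combination -hsum
    exact one_ne_zero this
  · exact ⟨2, c 2, by rw [Fin.sum_univ_three, z0, z1, zero_smul, zero_smul, zero_add, zero_add]⟩
  · exact ⟨1, c 1, by rw [Fin.sum_univ_three, z0, z2, zero_smul, zero_smul, zero_add, add_zero]⟩
  · exfalso
    rw [s0, s1, s2] at hsum
    have : (1 : F) = 0 := by linear_combination hsum
    exact one_ne_zero this
  · exact ⟨0, c 0, by rw [Fin.sum_univ_three, z1, z2, zero_smul, zero_smul, add_zero, add_zero]⟩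
  · exfalso
    rw [s0, s1, s2] at hsum
    have : (1 : F) = 0 := by linear_combination hsum
    exact one_ne_zero this
  · exfalso
    rw [s0, s1, s2] at hsum
    have : (1 : F) = 0 := by linear_combination hsum
    exact one_ne_zero this
  · exfalso
    rw [s0, s1, s2] at hsum
    have : (2 : F) = 0 := by linear_combination hsum
    exact h3.two_ne this

/-- Over the field with three elements a similarity of a three-dimensional orthogonal space is
an isometry. -/
theorem sim_one (h3 : F3 F) {f : (Fin 3 → F) → (Fin 3 → F) → F}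
    (hf : Cfsg.Geo.IsSymmetricForm f) (b : GL (Fin 3) F) (lam : F) (hlam : lam ≠ 0)
    (hsim : ∀ u v, f ((b : Matrix (Fin 3) (Fin 3) F) *ᵥ u) ((b : Matrix (Fin 3) (Fin 3) F) *ᵥ v)
      = lam * f u v) : lam = 1 := by
  obtain ⟨G, hG⟩ : ∃ G, G = Cfsg.Geo.gramMatrix f := ⟨_, rfl⟩
  have hfG : ∀ x y, f x y = x ⬝ᵥ (G *ᵥ y) := by
    intro x y
    rw [bil_eq_gram hf.bilinear, hG]
    unfold Cfsg.Geo.formOfGram
    simp only [dotProduct, Matrix.mulVec, id, Finset.mul_sum, mul_assoc]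
  obtain ⟨M, hM⟩ : ∃ M : Matrix (Fin 3) (Fin 3) F, M = (b : Matrix (Fin 3) (Fin 3) F) :=
    ⟨_, rfl⟩
  rw [← hM] at hsim
  have key : ∀ u v : Fin 3 → F, u ⬝ᵥ ((Mᵀ * (G * M)) *ᵥ v) = u ⬝ᵥ ((lam • G) *ᵥ v) := by
    intro u v
    calc u ⬝ᵥ ((Mᵀ * (G * M)) *ᵥ v) = u ⬝ᵥ (Mᵀ *ᵥ (G *ᵥ (M *ᵥ v))) := by
          simp only [Matrix.mulVec_mulVec, Matrix.mul_assoc]
      _ = (u ᵥ* Mᵀ) ⬝ᵥ (G *ᵥ (M *ᵥ v)) := Matrix.dotProduct_mulVec _ _ _
      _ = (M *ᵥ u) ⬝ᵥ (G *ᵥ (M *ᵥ v)) := by rw [Matrix.vecMul_transpose]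
      _ = f (M *ᵥ u) (M *ᵥ v) := (hfG _ _).symm
      _ = lam * f u v := hsim u v
      _ = u ⬝ᵥ ((lam • G) *ᵥ v) := by
          rw [hfG, Matrix.smul_mulVec, dotProduct_smul, smul_eq_mul]
  have hmat : Mᵀ * (G * M) = lam • G := by
    ext i j
    have h := key (Pi.single i 1) (Pi.single j 1)
    simpa [dotProduct, Matrix.mulVec, Pi.single_apply] using h
  have hdet := congrArg Matrix.det hmat
  rw [Matrix.det_mul, Matrix.det_mul, Matrix.det_transpose, Matrix.det_smul] at hdet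
  have hG0 : G.det ≠ 0 := by
    intro h0
    obtain ⟨v, hv0, hv⟩ := Matrix.exists_mulVec_eq_zero_iff.mpr h0
    obtain ⟨⟨x, hx⟩, -⟩ := hf.nondegenerate v hv0
    apply hx
    rw [hfG, hv, dotProduct_zero]
  have hM0 : M.det ≠ 0 := by
    rw [hM]
    exact ((Matrix.isUnit_iff_isUnit_det _).mp b.isUnit).ne_zero
  have h1 : M.det ^ 2 = lam ^ 3 := by
    apply mul_right_cancel₀ hG0
    simp only [Fintype.card_fin] at hdet
    linear_combination hdet
  rw [h3.sq _ hM0] at h1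
  rcases h3.cases lam with h | h | h
  · exact absurd h hlam
  · exact h
  · exfalso
    rw [h] at h1
    have : (2 : F) = 0 := by linear_combination h1
    exact h3.two_ne this

end Three

end Cfsg.Agent.Lib.helper19.TensorNM
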