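import Mathlib
import Cfsg.Agent.Lib.helper19.TensorNM
import Cfsg.Agent.Lib.helper4.OrthPlane

set_option autoImplicit false
set_option linter.unusedSectionVars false

/-!
# `O_3(3) ⊗ O_n(3)` is not maximal in `Ω`

The tensor product stabiliser `O_3(3) ⊗ O_n(3)` preserves the three slices `b_i ⊗ F^n` of the
canonical frame of the three-dimensional factor; the stabiliser of the slices is strictly larger
and proper in `Ω`.
-/

namespace Cfsg.Agent.Lib.helper19.TensorNM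

open Matrix
open scoped Kronecker
open Cfsg.Agent.Lib.helper4 Cfsg.Agent.Lib.helper13

section Orthn
variable {F : Type*} [Field F]

/-- An orthogonal basis of non-isotropic vectors. -/
theorem orthn (h3 : F3 F) {n : ℕ} {f : (Fin n → F) → (Fin n → F) → F}
    (hf : Cfsg.Geo.IsSymmetricForm f) :
    ∃ b : Fin n → (Fin n → F), (∀ i j, i ≠ j → f (b i) (b j) = 0) ∧
      (∀ i, f (b i) (b i) ≠ 0) := by
  have hbil := hf.bilinear
  let B : LinearMap.BilinForm F (Fin n → F) :=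
    LinearMap.mk₂ F f hf.bilinear.add_left hf.bilinear.smul_left hf.bilinear.add_right
      hf.bilinear.smul_right
  have hB : LinearMap.IsSymm B := ⟨fun x y => hf.symm x y⟩
  haveI : Invertible (2 : F) := invertibleOfNonzero h3.two_ne
  obtain ⟨v, hv⟩ := LinearMap.BilinForm.exists_orthogonal_basis hB
  have hfr : Module.finrank F (Fin n → F) = n := Module.finrank_fin_fun F
  obtain ⟨v', hv'⟩ : ∃ v' : Module.Basis (Fin n) F (Fin n → F),
      v' = v.reindex (finCongr hfr) := ⟨_, rfl⟩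
  have horth : ∀ i j, i ≠ j → f (v' i) (v' j) = 0 := by
    intro i j hij
    have h1 := LinearMap.isOrthoᵢ_def.mp hv ((finCongr hfr).symm i) ((finCongr hfr).symm j) (by
      intro h; exact hij ((finCongr hfr).symm.injective h))
    rw [hv', Module.Basis.reindex_apply, Module.Basis.reindex_apply]
    exact h1
  refine ⟨fun i => v' i, horth, ?_⟩
  intro i h0
  obtain ⟨⟨x, hx⟩, -⟩ := hf.nondegenerate (v' i) (v'.ne_zero i)
  apply hx
  rw [← v'.sum_repr x]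
  show Lf hbil (v' i) (∑ j, v'.repr x j • v' j) = 0
  rw [map_sum]
  apply Finset.sum_eq_zero
  intro j _
  rw [map_smul, Lf_apply, smul_eq_mul]
  by_cases hji : j = i
  · rw [hji, h0, mul_zero]
  · rw [horth j i hji, mul_zero]

/-- Two orthogonal vectors of the same non-zero norm. -/
theorem exists_orth_pair (h3 : F3 F) {n : ℕ} (hn : 3 ≤ n) {f : (Fin n → F) → (Fin n → F) → F}
    (hf : Cfsg.Geo.IsSymmetricForm f) :
    ∃ v v' : Fin n → F, f v v' = 0 ∧ f v' v' = f v v ∧ f v v ≠ 0 := by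
  obtain ⟨b, horth, hnorm⟩ := orthn h3 hf
  have hpm : ∀ i, f (b i) (b i) = 1 ∨ f (b i) (b i) = -1 := fun i =>
    (h3.cases _).resolve_left (hnorm i)
  obtain ⟨i0, hi0⟩ : ∃ i0 : Fin n, i0 = ⟨0, by omega⟩ := ⟨_, rfl⟩
  obtain ⟨i1, hi1⟩ : ∃ i1 : Fin n, i1 = ⟨1, by omega⟩ := ⟨_, rfl⟩
  obtain ⟨i2, hi2⟩ : ∃ i2 : Fin n, i2 = ⟨2, by omega⟩ := ⟨_, rfl⟩
  have d01 : i0 ≠ i1 := by rw [hi0, hi1]; simp [Fin.ext_iff]
  have d02 : i0 ≠ i2 := by rw [hi0, hi2]; simp [Fin.ext_iff]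
  have d12 : i1 ≠ i2 := by rw [hi1, hi2]; simp [Fin.ext_iff]
  rcases hpm i0 with n0 | n0 <;> rcases hpm i1 with n1 | n1 <;> rcases hpm i2 with n2 | n2
  · exact ⟨b i0, b i1, horth i0 i1 d01, by rw [n0, n1], hnorm i0⟩
  · exact ⟨b i0, b i1, horth i0 i1 d01, by rw [n0, n1], hnorm i0⟩
  · exact ⟨b i0, b i2, horth i0 i2 d02, by rw [n0, n2], hnorm i0⟩
  · exact ⟨b i1, b i2, horth i1 i2 d12, by rw [n1, n2], hnorm i1⟩
  · exact ⟨b i1, b i2, horth i1 i2 d12, by rw [n1, n2], hnorm i1⟩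
  · exact ⟨b i0, b i2, horth i0 i2 d02, by rw [n0, n2], hnorm i0⟩
  · exact ⟨b i0, b i1, horth i0 i1 d01, by rw [n0, n1], hnorm i0⟩
  · exact ⟨b i0, b i1, horth i0 i1 d01, by rw [n0, n1], hnorm i0⟩

end Orthn

section O3
variable {F : Type*} [Field F] [Fintype F] {ι : Type} [Fintype ι] [DecidableEq ι]

/-- The reflection in `z` as an element of `GL`. -/
noncomputable def Rf (Q : QuadraticForm F (ι → F)) (z : ι → F) : GL ι F :=
  ((reflEl Q z : ↥(Cfsg.isometryGroup F ⇑Q)) : GL ι F)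

theorem Rf_apply (Q : QuadraticForm F (ι → F)) (z : ι → F) (hz : Q z ≠ 0) (x : ι → F) :
    ((Rf Q z : GL ι F) : Matrix ι ι F) *ᵥ x
      = x - ((Q z)⁻¹ * QuadraticMap.polar (⇑Q) z x) • z := reflEl_mulVec Q z hz x

theorem Rf_invol (Q : QuadraticForm F (ι → F)) (z : ι → F) (x : ι → F) :
    ((Rf Q z : GL ι F) : Matrix ι ι F) *ᵥ (((Rf Q z : GL ι F) : Matrix ι ι F) *ᵥ x) = x := by
  have h := congrArg (fun g : ↥(Cfsg.isometryGroup F ⇑Q) => ((g : GL ι F) : Matrix ι ι F))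
    (reflEl_mul_self Q z)
  have h2 : ((Rf Q z : GL ι F) : Matrix ι ι F) * ((Rf Q z : GL ι F) : Matrix ι ι F) = 1 := h
  rw [Matrix.mulVec_mulVec, h2, Matrix.one_mulVec]

theorem Rf_pair_mem (hι : Fintype.card F ≠ 2 ∨ Fintype.card ι ≠ 4)
    (Q : QuadraticForm F (ι → F)) (hQ : (QuadraticMap.polarBilin Q).Nondegenerate)
    (x y : ι → F) (hx : Q x ≠ 0) (hxy : Q y = Q x) :
    Rf Q x * Rf Q y ∈ Cfsg.Geo.omegaGL ⇑Q :=
  Subgroup.mem_map.mpr ⟨reflEl Q x * reflEl Q y, pair_mem_omega hι Q hQ x y hx hxy, rfl⟩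

theorem omega_polar (Q : QuadraticForm F (ι → F)) (g : GL ι F) (hg : g ∈ Cfsg.Geo.omegaGL ⇑Q)
    (x y : ι → F) :
    QuadraticMap.polar (⇑Q) ((g : Matrix ι ι F) *ᵥ x) ((g : Matrix ι ι F) *ᵥ y)
      = QuadraticMap.polar (⇑Q) x y := by
  obtain ⟨h, -, rfl⟩ := Subgroup.mem_map.mp hg
  exact isom_polar Q h x y

end O3

section Sub
variable {F : Type*} [Field F] {ι : Type} [Fintype ι] [DecidableEq ι] {n₁ n₂ : ℕ}

theorem pt_sub_right (x₁ : Fin n₁ → F) (x₂ x₂' : Fin n₂ → F) :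
    pt x₁ (x₂ - x₂') = pt x₁ x₂ - pt x₁ x₂' := by
  funext p
  simp only [pt, Pi.sub_apply]
  ring

theorem Phi_sub (e : ι ≃ Fin n₁ × Fin n₂) (P : GL ι F) (x y : Fin n₁ × Fin n₂ → F) :
    Phi e P (x - y) = Phi e P x - Phi e P y := by
  unfold Phi
  rw [← Matrix.mulVec_sub]; rfl

end Sub

section Main
variable {F : Type*} [Field F] [Fintype F] {ι : Type} [Fintype ι] [DecidableEq ι]

/-- The tensor product stabiliser `O_3(3) ⊗ O_n(3)` is not maximal in `Ω`. -/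
theorem tensor3_not_max (h3c : Fintype.card F = 3) (Q : QuadraticForm F (ι → F))
    (hQ : (QuadraticMap.polarBilin Q).Nondegenerate)
    {n₂ : ℕ} (hn₂ : 3 ≤ n₂) (e : ι ≃ Fin 3 × Fin n₂) (P : GL ι F)
    (f₁ : (Fin 3 → F) → (Fin 3 → F) → F) (f₂ : (Fin n₂ → F) → (Fin n₂ → F) → F)
    (hf₁ : Cfsg.Geo.IsSymmetricForm f₁) (hf₂ : Cfsg.Geo.IsSymmetricForm f₂)
    (hT : Cfsg.Geo.IsTensorFormStructure id (QuadraticMap.polar ⇑Q) f₁ f₂ e P) :
    ∃ K : Subgroup (GL ι F),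
      Cfsg.Geo.tensorProductSubgroup 3 n₂ e P ⊓ Cfsg.Geo.omegaGL ⇑Q < K ∧
      K < Cfsg.Geo.omegaGL ⇑Q := by
  classical
  have h3 := f3 h3c
  have hι : Fintype.card F ≠ 2 ∨ Fintype.card ι ≠ 4 := Or.inl (by rw [h3c]; decide)
  have hb1 := hf₁.bilinear
  have hb2 := hf₂.bilinear
  obtain ⟨c, hc0, hc⟩ := hT
  obtain ⟨ε, bb, hε, hbb, hcls⟩ := frame3 h3 hf₁
  obtain ⟨v, v', hvv', hN', hN⟩ := exists_orth_pair h3 hn₂ hf₂
  have hv'v : f₂ v' v = 0 := by rw [hf₂.symm]; exact hvv'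
  have hform : ∀ (x₁ y₁ : Fin 3 → F) (x₂ y₂ : Fin n₂ → F),
      QuadraticMap.polar (⇑Q) (Phi e P (pt x₁ x₂)) (Phi e P (pt y₁ y₂))
        = c * (f₁ x₁ y₁ * f₂ x₂ y₂) := by
    intro x₁ y₁ x₂ y₂
    have := hc (pt x₁ x₂) (pt y₁ y₂)
    rw [gram_pure id (fun _ _ => rfl), ← bil_eq_gram hb1, ← bil_eq_gram hb2] at this
    exact this
  have hQval : ∀ z, Q z = -(QuadraticMap.polar (⇑Q) z z) := by
    intro z
    have := QuadraticMap.polar_self Q z
    rw [this, two_nsmul]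
    linear_combination (Q z) * h3.three
  have hb00 : f₁ (bb 0) (bb 0) = ε := by simpa using hbb 0 0
  have hb11 : f₁ (bb 1) (bb 1) = ε := by simpa using hbb 1 1
  have hb22 : f₁ (bb 2) (bb 2) = ε := by simpa using hbb 2 2
  have hb01 : f₁ (bb 0) (bb 1) = 0 := by simpa using hbb 0 1
  have hb10 : f₁ (bb 1) (bb 0) = 0 := by simpa using hbb 1 0
  have hb02 : f₁ (bb 0) (bb 2) = 0 := by simpa using hbb 0 2
  have hb20 : f₁ (bb 2) (bb 0) = 0 := by simpa using hbb 2 0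
  have hb12 : f₁ (bb 1) (bb 2) = 0 := by simpa using hbb 1 2
  obtain ⟨S, hS⟩ : ∃ S : Set (ι → F), S = {w | ∃ (i : Fin 3) (u : Fin n₂ → F),
      w = Phi e P (pt (bb i) u)} := ⟨_, rfl⟩
  have hSmem : ∀ w, w ∈ S ↔ ∃ (i : Fin 3) (u : Fin n₂ → F), w = Phi e P (pt (bb i) u) := by
    intro w; rw [hS]; rfl
  -- reflections in slice vectors stabilise `S`
  have hRS : ∀ (i₀ : Fin 3) (u₀ : Fin n₂ → F), Q (Phi e P (pt (bb i₀) u₀)) ≠ 0 →
      Rf Q (Phi e P (pt (bb i₀) u₀)) ∈ Kset S := by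
    intro i₀ u₀ hz
    have hfwd : ∀ w ∈ S, ((Rf Q (Phi e P (pt (bb i₀) u₀)) : GL ι F) : Matrix ι ι F) *ᵥ w ∈ S := by
      intro w hw
      rw [hSmem] at hw
      obtain ⟨i, u, rfl⟩ := hw
      rw [Rf_apply Q _ hz, hform, hbb, hSmem]
      by_cases hi : i₀ = i
      · subst hi
        refine ⟨i₀, u - ((Q (Phi e P (pt (bb i₀) u₀)))⁻¹ * (c * (ε * f₂ u₀ u))) • u₀, ?_⟩
        rw [if_pos rfl, pt_sub_right, pt_smul_right, Phi_sub, Phi_smul]
      · refine ⟨i, u, ?_⟩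
        rw [if_neg hi, zero_mul, mul_zero, mul_zero, zero_smul, sub_zero]
    exact mem_Kset_of_pair S _ _ (Rf_invol Q _) hfwd hfwd
  -- step 1
  have hstep1 : Cfsg.Geo.tensorProductSubgroup 3 n₂ e P ⊓ Cfsg.Geo.omegaGL ⇑Q ≤ Kset S := by
    apply le_Kset
    rintro g ⟨hgT, hgU⟩ w hw
    obtain ⟨a, b, hab⟩ := tensor_act e P g hgT
    have hsim : ∀ (x₁ y₁ : Fin 3 → F) (x₂ y₂ : Fin n₂ → F),
        f₁ ((a : Matrix (Fin 3) (Fin 3) F) *ᵥ x₁) ((a : Matrix (Fin 3) (Fin 3) F) *ᵥ y₁)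
          * f₂ ((b : Matrix (Fin n₂) (Fin n₂) F) *ᵥ x₂) ((b : Matrix (Fin n₂) (Fin n₂) F) *ᵥ y₂)
          = f₁ x₁ y₁ * f₂ x₂ y₂ := by
      intro x₁ y₁ x₂ y₂
      have h1 := omega_polar Q g hgU (Phi e P (pt x₁ x₂)) (Phi e P (pt y₁ y₂))
      rw [hab, hab, hform, hform] at h1
      exact mul_left_cancel₀ hc0 h1
    have hκ : f₂ ((b : Matrix (Fin n₂) (Fin n₂) F) *ᵥ v)
        ((b : Matrix (Fin n₂) (Fin n₂) F) *ᵥ v) ≠ 0 := by
      intro h0
      have h1 := hsim (bb 0) (bb 0) v v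
      rw [h0, mul_zero, hb00] at h1
      exact (mul_ne_zero hε hN) h1.symm
    have hlam : ∀ x y, f₁ ((a : Matrix (Fin 3) (Fin 3) F) *ᵥ x)
        ((a : Matrix (Fin 3) (Fin 3) F) *ᵥ y)
        = (f₂ v v / f₂ ((b : Matrix (Fin n₂) (Fin n₂) F) *ᵥ v)
            ((b : Matrix (Fin n₂) (Fin n₂) F) *ᵥ v)) * f₁ x y := by
      intro x y
      have h1 := hsim x y v v
      rw [div_mul_eq_mul_div, eq_div_iff hκ]
      linear_combination h1
    have hone := sim_one h3 hf₁ a _ (div_ne_zero hN hκ) hlam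
    rw [hone] at hlam
    have himg : ∀ i : Fin 3, ∃ (j : Fin 3) (d : F),
        (a : Matrix (Fin 3) (Fin 3) F) *ᵥ (bb i) = d • bb j := by
      intro i
      apply hcls
      rw [hlam, one_mul]
      simpa using hbb i i
    rw [hSmem] at hw
    obtain ⟨i, u, rfl⟩ := hw
    obtain ⟨j, d, hd⟩ := himg i
    rw [hab, hd, hSmem]
    exact ⟨j, d • ((b : Matrix (Fin n₂) (Fin n₂) F) *ᵥ u), by rw [pt_smul_left, pt_smul_right]⟩
  -- step 2
  have hcεN : c * (ε * f₂ v v) ≠ 0 := mul_ne_zero hc0 (mul_ne_zero hε hN)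
  have hQ1 : Q (Phi e P (pt (bb 0) v)) = -(c * (ε * f₂ v v)) := by rw [hQval, hform, hb00]
  have hQ2 : Q (Phi e P (pt (bb 1) v)) = -(c * (ε * f₂ v v)) := by rw [hQval, hform, hb11]
  have hQ1ne : Q (Phi e P (pt (bb 0) v)) ≠ 0 := by rw [hQ1]; exact neg_ne_zero.mpr hcεN
  have hQ2ne : Q (Phi e P (pt (bb 1) v)) ≠ 0 := by rw [hQ2]; exact neg_ne_zero.mpr hcεN
  obtain ⟨g, hg⟩ : ∃ g : GL ι F,
      g = Rf Q (Phi e P (pt (bb 0) v)) * Rf Q (Phi e P (pt (bb 1) v)) := ⟨_, rfl⟩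
  have hgK : g ∈ Kset S := by
    rw [hg]; exact (Kset S).mul_mem (hRS 0 v hQ1ne) (hRS 1 v hQ2ne)
  have hgO : g ∈ Cfsg.Geo.omegaGL ⇑Q := by
    rw [hg]; exact Rf_pair_mem hι Q hQ _ _ hQ1ne (by rw [hQ2, hQ1])
  have hg2 : ∀ u, (g : Matrix ι ι F) *ᵥ Phi e P (pt (bb 2) u) = Phi e P (pt (bb 2) u) := by
    intro u
    rw [hg, Units.val_mul, ← Matrix.mulVec_mulVec, Rf_apply Q _ hQ2ne, hform, hb12]
    simp only [zero_mul, mul_zero, zero_smul, sub_zero]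
    rw [Rf_apply Q _ hQ1ne, hform, hb02]
    simp only [zero_mul, mul_zero, zero_smul, sub_zero]
  have hg0 : ∀ u, (g : Matrix ι ι F) *ᵥ Phi e P (pt (bb 0) u)
      = Phi e P (pt (bb 0)
          (u - ((Q (Phi e P (pt (bb 0) v)))⁻¹ * (c * (ε * f₂ v u))) • v)) := by
    intro u
    rw [hg, Units.val_mul, ← Matrix.mulVec_mulVec, Rf_apply Q _ hQ2ne, hform, hb10]
    simp only [zero_mul, mul_zero, zero_smul, sub_zero]
    rw [Rf_apply Q _ hQ1ne, hform, hb00, pt_sub_right, pt_smul_right, Phi_sub, Phi_smul]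
  have hgn : g ∉ Cfsg.Geo.tensorProductSubgroup 3 n₂ e P := by
    intro hmem
    obtain ⟨a, b, hab⟩ := tensor_act e P g hmem
    obtain ⟨i₀, hi₀⟩ : ∃ i, bb 0 i ≠ 0 := by
      by_contra hcon
      push Not at hcon
      have : bb 0 = 0 := funext hcon
      rw [this, bil_zero_left hb1] at hb00
      exact hε hb00.symm
    obtain ⟨i₂, hi₂⟩ : ∃ i, bb 2 i ≠ 0 := by
      by_contra hcon
      push Not at hcon
      have : bb 2 = 0 := funext hcon
      rw [this, bil_zero_left hb1] at hb22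
      exact hε hb22.symm
    obtain ⟨j₀, hj₀⟩ : ∃ j, v j ≠ 0 := by
      by_contra hcon
      push Not at hcon
      have : v = 0 := funext hcon
      rw [this, bil_zero_left hb2] at hN
      exact hN rfl
    obtain ⟨j', hj'⟩ : ∃ j' : Fin n₂, j' ≠ j₀ := by
      by_cases h0 : j₀ = ⟨0, by omega⟩
      · refine ⟨⟨1, by omega⟩, ?_⟩
        rw [h0]
        simp [Fin.ext_iff]
      · exact ⟨⟨0, by omega⟩, fun h => h0 h.symm⟩
    obtain ⟨w, hw⟩ : ∃ w : Fin n₂ → F, w = Pi.single j' 1 := ⟨_, rfl⟩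
    have hwj' : w j' = 1 := by rw [hw]; simp
    have hwj₀ : w j₀ = 0 := by rw [hw]; simp [hj'.symm]
    have e1 : ∀ (u : Fin n₂ → F) (j : Fin n₂), bb 2 i₂ * u j
        = ((a : Matrix (Fin 3) (Fin 3) F) *ᵥ bb 2) i₂
          * ((b : Matrix (Fin n₂) (Fin n₂) F) *ᵥ u) j := by
      intro u j
      have h1 := hab (bb 2) u
      rw [hg2] at h1
      exact congrFun (Phi_inj e P h1) (i₂, j)
    have e2 : ∀ (u : Fin n₂ → F) (j : Fin n₂),
        bb 0 i₀ * (u j - ((Q (Phi e P (pt (bb 0) v)))⁻¹ * (c * (ε * f₂ v u))) * v j)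
          = ((a : Matrix (Fin 3) (Fin 3) F) *ᵥ bb 0) i₀
            * ((b : Matrix (Fin n₂) (Fin n₂) F) *ᵥ u) j := by
      intro u j
      have h1 := hab (bb 0) u
      rw [hg0] at h1
      exact congrFun (Phi_inj e P h1) (i₀, j)
    have k1 := e1 w j'
    have k2 := e1 w j₀
    have k3 := e2 w j₀
    have k4 := e2 w j'
    have k5 := e1 v j₀
    have k6 := e2 v j₀
    rw [hwj'] at k1 k4
    rw [hwj₀] at k2 k3
    have hα₂ : ((a : Matrix (Fin 3) (Fin 3) F) *ᵥ bb 2) i₂ ≠ 0 := by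
      intro h
      rw [h, zero_mul, mul_one] at k1
      exact hi₂ k1
    have hβw : ((b : Matrix (Fin n₂) (Fin n₂) F) *ᵥ w) j₀ = 0 := by
      rw [mul_zero] at k2
      exact (mul_eq_zero.mp k2.symm).resolve_left hα₂
    rw [hβw, mul_zero] at k3
    have hθw : (Q (Phi e P (pt (bb 0) v)))⁻¹ * (c * (ε * f₂ v w)) = 0 := by
      have h1 : bb 0 i₀ * v j₀ * ((Q (Phi e P (pt (bb 0) v)))⁻¹ * (c * (ε * f₂ v w))) = 0 := by
        linear_combination -k3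
      exact (mul_eq_zero.mp h1).resolve_left (mul_ne_zero hi₀ hj₀)
    rw [hθw, zero_mul, sub_zero, mul_one] at k4
    have hθv : (Q (Phi e P (pt (bb 0) v)))⁻¹ * (c * (ε * f₂ v v)) ≠ 0 :=
      mul_ne_zero (inv_ne_zero hQ1ne) hcεN
    have hfin : ((a : Matrix (Fin 3) (Fin 3) F) *ᵥ bb 2) i₂ * bb 0 i₀ * v j₀
        * ((Q (Phi e P (pt (bb 0) v)))⁻¹ * (c * (ε * f₂ v v))) = 0 := by
      linear_combination -(v j₀ * ((a : Matrix (Fin 3) (Fin 3) F) *ᵥ bb 0) i₀) * k1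
        + (v j₀ * ((a : Matrix (Fin 3) (Fin 3) F) *ᵥ bb 2) i₂) * k4
        + ((a : Matrix (Fin 3) (Fin 3) F) *ᵥ bb 0) i₀ * k5
        - ((a : Matrix (Fin 3) (Fin 3) F) *ᵥ bb 2) i₂ * k6
    exact (mul_ne_zero (mul_ne_zero (mul_ne_zero hα₂ hi₀) hj₀) hθv) hfin
  -- step 3
  obtain ⟨z, hz⟩ : ∃ z : ι → F, z = Phi e P (pt (bb 0) v) + Phi e P (pt (bb 1) v') := ⟨_, rfl⟩
  have hpz : ∀ (x₁ : Fin 3 → F) (x₂ : Fin n₂ → F),
      QuadraticMap.polar (⇑Q) z (Phi e P (pt x₁ x₂))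
        = c * (f₁ (bb 0) x₁ * f₂ v x₂) + c * (f₁ (bb 1) x₁ * f₂ v' x₂) := by
    intro x₁ x₂
    rw [hz, QuadraticMap.polar_add_left, hform, hform]
  have hQz : Q z = c * (ε * f₂ v v) := by
    rw [hQval]
    have h1 : QuadraticMap.polar (⇑Q) z z = c * (ε * f₂ v v) + c * (ε * f₂ v v) := by
      have h0 : QuadraticMap.polar (⇑Q) z (Phi e P (pt (bb 0) v) + Phi e P (pt (bb 1) v'))
          = c * (ε * f₂ v v) + c * (ε * f₂ v v) := by
        rw [QuadraticMap.polar_add_right, hpz, hpz, hb00, hb10, hb01, hb11, hN']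
        ring
      rw [← hz] at h0
      exact h0
    rw [h1]
    linear_combination -(c * (ε * f₂ v v)) * h3.three
  have hQz'' : Q (Phi e P (pt (bb 2) (v + v'))) = c * (ε * f₂ v v) := by
    rw [hQval, hform, hb22, hb2.add_left, hb2.add_right, hb2.add_right, hvv', hv'v, hN']
    linear_combination -(c * (ε * f₂ v v)) * h3.three
  have hQzne : Q z ≠ 0 := by rw [hQz]; exact hcεN
  have hQz''ne : Q (Phi e P (pt (bb 2) (v + v'))) ≠ 0 := by rw [hQz'']; exact hcεN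
  obtain ⟨g', hg'⟩ : ∃ g' : GL ι F,
      g' = Rf Q z * Rf Q (Phi e P (pt (bb 2) (v + v'))) := ⟨_, rfl⟩
  have hg'O : g' ∈ Cfsg.Geo.omegaGL ⇑Q := by
    rw [hg']; exact Rf_pair_mem hι Q hQ _ _ hQzne (by rw [hQz'', hQz])
  have hg'K : g' ∉ Kset S := by
    intro hmem
    rw [mem_Kset] at hmem
    have h1 := (hmem (Phi e P (pt (bb 0) (v + v')))).mpr ((hSmem _).mpr ⟨0, v + v', rfl⟩)
    rw [hg', Units.val_mul, ← Matrix.mulVec_mulVec, Rf_apply Q _ hQz''ne, hform, hb20] at h1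
    simp only [zero_mul, mul_zero, zero_smul, sub_zero] at h1
    rw [Rf_apply Q _ hQzne, hpz, hb00, hb10, hb2.add_right, hvv', hQz] at h1
    have ht : (c * (ε * f₂ v v))⁻¹ * (c * (ε * (f₂ v v + 0)) + c * (0 * f₂ v' (v + v'))) = 1 := by
      rw [add_zero, zero_mul, mul_zero, add_zero]
      exact inv_mul_cancel₀ hcεN
    rw [ht, one_smul, hSmem] at h1
    obtain ⟨j, u', hu'⟩ := h1
    have hfun : pt (bb 0) (v + v') - (pt (bb 0) v + pt (bb 1) v') = pt (bb j) u' := by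
      apply Phi_inj e P
      rw [Phi_sub, Phi_add, ← hz]
      exact hu'
    have hcol : ∀ l, (v' l) • bb 0 + (-(v' l)) • bb 1 = u' l • bb j := by
      intro l
      funext k
      have := congrFun hfun (k, l)
      simp only [pt, Pi.add_apply, Pi.sub_apply, Pi.smul_apply, smul_eq_mul] at this ⊢
      linear_combination this
    have hv'0 : v' ≠ 0 := by
      intro h0
      rw [h0, bil_zero_left hb2] at hN'
      exact hN hN'.symm
    apply hv'0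
    funext l
    by_cases hj : j = 1
    · have := congrArg (fun x => f₁ x (bb 0)) (hcol l)
      simp only [hb1.add_left, hb1.smul_left, hb00, hb10, hj] at this
      have h2 : ε * v' l = 0 := by linear_combination this
      exact (mul_eq_zero.mp h2).resolve_left hε
    · have := congrArg (fun x => f₁ x (bb 1)) (hcol l)
      simp only [hb1.add_left, hb1.smul_left, hb01, hb11, hbb j 1, if_neg hj] at this
      have h2 : ε * v' l = 0 := by linear_combination -this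
      exact (mul_eq_zero.mp h2).resolve_left hε
  refine ⟨Kset S ⊓ Cfsg.Geo.omegaGL ⇑Q, ?_, ?_⟩
  · rw [SetLike.lt_iff_le_and_exists]
    refine ⟨?_, g, ⟨hgK, hgO⟩, ?_⟩
    · rintro x ⟨hxT, hxU⟩
      exact ⟨hstep1 ⟨hxT, hxU⟩, hxU⟩
    · rintro ⟨hgT, -⟩
      exact hgn hgT
  · rw [SetLike.lt_iff_le_and_exists]
    refine ⟨inf_le_right, g', hg'O, ?_⟩
    rintro ⟨hK, -⟩
    exact hg'K hK

end Main

end Cfsg.Agent.Lib.helper19.TensorNM
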