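import Mathlib

set_option autoImplicit false

namespace Cfsg.Agent.Lib.helper19.TwoTrans

theorem inv_app {α : Type*} (g : Equiv.Perm α) (x : α) : g⁻¹ (g x) = x :=
  Equiv.symm_apply_apply g x

theorem app_inv {α : Type*} (g : Equiv.Perm α) (x : α) : g (g⁻¹ x) = x :=
  Equiv.apply_symm_apply g x

variable {α : Type*} [Fintype α] [DecidableEq α]

/-- Counting: in a transitive permutation group in which nonidentity elements fix at most one
point, the number of fixed-point-free elements is `card α - 1`. -/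
theorem card_fpf (N : Subgroup (Equiv.Perm α)) [Nonempty α]
    (htr : ∀ a b : α, ∃ x ∈ N, x a = b)
    (hfrob : ∀ x ∈ N, x ≠ 1 → ∀ a b : α, x a = a → x b = b → a = b) :
    ∃ F : Finset (Equiv.Perm α), (∀ x, x ∈ F ↔ x ∈ N ∧ x ≠ 1 ∧ ∀ c, x c ≠ c) ∧
      F.card + 1 = Fintype.card α := by
  classical
  haveI : MulAction.IsPretransitive ↥N α := ⟨fun a b => by
    obtain ⟨x, hx, hxa⟩ := htr a b
    exact ⟨⟨x, hx⟩, hxa⟩⟩
  have hB := MulAction.sum_card_fixedBy_eq_card_orbits_mul_card_group ↥N α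
  have horb : Fintype.card (Quotient (MulAction.orbitRel ↥N α)) = 1 := by
    rw [Fintype.card_eq_one_iff]
    obtain ⟨a⟩ := ‹Nonempty α›
    refine ⟨Quotient.mk'' a, fun y => ?_⟩
    induction y using Quotient.inductionOn' with
    | h b =>
      apply Quotient.sound'
      obtain ⟨g, hg⟩ := MulAction.exists_smul_eq ↥N a b
      exact ⟨g, hg⟩
  rw [horb, one_mul] at hB
  have h1 : Fintype.card (MulAction.fixedBy α (1 : ↥N)) = Fintype.card α :=
    Fintype.card_congr (Equiv.subtypeUnivEquiv (fun c => by simp))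
  have h2 : ∀ x : ↥N, x ≠ 1 → Fintype.card (MulAction.fixedBy α x) =
      if (∃ c, (x : Equiv.Perm α) c = c) then 1 else 0 := by
    intro x hx
    have hx' : (x : Equiv.Perm α) ≠ 1 := fun h => hx (Subtype.ext h)
    split_ifs with h
    · obtain ⟨c, hc⟩ := h
      rw [Fintype.card_eq_one_iff]
      exact ⟨⟨c, hc⟩, fun ⟨d, hd⟩ => Subtype.ext (hfrob x.1 x.2 hx' d c hd hc)⟩
    · rw [Fintype.card_eq_zero_iff]
      exact ⟨fun ⟨d, hd⟩ => h ⟨d, hd⟩⟩
  rw [← Finset.add_sum_erase Finset.univ _ (Finset.mem_univ (1 : ↥N)), h1] at hB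
  have h3 : ∑ x ∈ (Finset.univ : Finset ↥N).erase 1, Fintype.card (MulAction.fixedBy α x) =
      (((Finset.univ : Finset ↥N).erase 1).filter
        (fun x : ↥N => ∃ c, (x : Equiv.Perm α) c = c)).card := by
    rw [Finset.card_filter]
    apply Finset.sum_congr rfl
    intro x hx
    exact h2 x (Finset.ne_of_mem_erase hx)
  rw [h3] at hB
  have h4 := Finset.card_filter_add_card_filter_not (s := (Finset.univ : Finset ↥N).erase 1)
    (fun x : ↥N => ∃ c, (x : Equiv.Perm α) c = c)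
  have h5 : ((Finset.univ : Finset ↥N).erase 1).card + 1 = Fintype.card ↥N := by
    rw [Finset.card_erase_of_mem (Finset.mem_univ _), Finset.card_univ]
    have : 0 < Fintype.card ↥N := Fintype.card_pos
    omega
  have h6 : (((Finset.univ : Finset ↥N).erase 1).filter
      (fun x : ↥N => ¬ ∃ c, (x : Equiv.Perm α) c = c)).card + 1 = Fintype.card α := by
    omega
  refine ⟨(((Finset.univ : Finset ↥N).erase 1).filter
      (fun x : ↥N => ¬ ∃ c, (x : Equiv.Perm α) c = c)).map ⟨Subtype.val, Subtype.val_injective⟩,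
    fun x => ?_, ?_⟩
  · simp only [Finset.mem_map, Finset.mem_filter, Finset.mem_erase, Finset.mem_univ, and_true,
      Function.Embedding.coeFn_mk, not_exists]
    constructor
    · rintro ⟨y, ⟨hy1, hy2⟩, rfl⟩
      exact ⟨y.2, fun h => hy1 (Subtype.ext h), hy2⟩
    · rintro ⟨hxN, hx1, hx2⟩
      exact ⟨⟨x, hxN⟩, ⟨fun h => hx1 (congrArg Subtype.val h), hx2⟩, rfl⟩
  · rw [Finset.card_map]
    exact h6

/-- Frobenius kernel in a 2-transitive setting: if `N` is a transitive subgroup normalized by a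
2-transitive group `G` and nonidentity elements of `N` fix at most one point, then the
fixed-point-free elements of `N` together with `1` form a regular subgroup normalized by `G`. -/
theorem kernel (G N : Subgroup (Equiv.Perm α)) [Nonempty α]
    (h2 : ∀ a b c d : α, a ≠ b → c ≠ d → ∃ g ∈ G, g a = c ∧ g b = d)
    (hnorm : ∀ g ∈ G, ∀ x ∈ N, g * x * g⁻¹ ∈ N)
    (htr : ∀ a b : α, ∃ x ∈ N, x a = b)
    (hfrob : ∀ x ∈ N, x ≠ 1 → ∀ a b : α, x a = a → x b = b → a = b) :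
    ∃ K : Subgroup (Equiv.Perm α),
      (∀ x : Equiv.Perm α, x ∈ K ↔ x ∈ N ∧ (x = 1 ∨ ∀ c, x c ≠ c)) ∧
      (∀ g ∈ G, ∀ x ∈ K, g * x * g⁻¹ ∈ K) ∧
      (∀ a b : α, ∃ k ∈ K, k a = b) ∧
      (∀ k ∈ K, ∀ k' ∈ K, ∀ a : α, k a = k' a → k = k') := by
  classical
  obtain ⟨F, hF, hcard⟩ := card_fpf N htr hfrob
  have hB : ∀ a b : α, a ≠ b → ∃ x ∈ F, x a = b := by
    intro a b hab
    have hn : 1 < Fintype.card α := Fintype.one_lt_card_iff.mpr ⟨a, b, hab⟩
    have hFne : F.Nonempty := by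
      rw [← Finset.card_pos]; omega
    obtain ⟨x₀, hx₀⟩ := hFne
    obtain ⟨hx₀N, hx₀1, hx₀f⟩ := (hF x₀).mp hx₀
    obtain ⟨g, hgG, hga, hgc⟩ := h2 a (x₀ a) a b (fun h => hx₀f a h.symm) hab
    refine ⟨g * x₀ * g⁻¹, (hF _).mpr ⟨hnorm g hgG x₀ hx₀N, ?_, ?_⟩, ?_⟩
    · intro h
      apply hx₀1
      have : x₀ = g⁻¹ * (g * x₀ * g⁻¹) * g := by group
      rw [this, h]; group
    · intro c hc
      apply hx₀f (g⁻¹ c)
      have : g (x₀ (g⁻¹ c)) = c := hc
      calc x₀ (g⁻¹ c) = g⁻¹ (g (x₀ (g⁻¹ c))) := (inv_app g _).symm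
        _ = g⁻¹ c := by rw [this]
    · have hg' : g⁻¹ a = a := by rw [Equiv.Perm.inv_eq_iff_eq, hga]
      show g (x₀ (g⁻¹ a)) = b
      rw [hg', hgc]
  have hC : ∀ a : α, ∀ x ∈ F, ∀ y ∈ F, x a = y a → x = y := by
    intro a x hx y hy hxy
    refine Finset.inj_on_of_surj_on_of_card_le (s := F) (t := Finset.univ.erase a)
      (fun x _ => x a) ?_ ?_ ?_ hx hy hxy
    · intro x hx
      rw [Finset.mem_erase]
      exact ⟨((hF x).mp hx).2.2 a, Finset.mem_univ _⟩
    · intro b hb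
      obtain ⟨x, hx, hxa⟩ := hB a b (Finset.ne_of_mem_erase hb).symm
      exact ⟨x, hx, hxa⟩
    · rw [Finset.card_erase_of_mem (Finset.mem_univ _), Finset.card_univ]; omega
  have hinj : ∀ u v : Equiv.Perm α, (u ∈ N ∧ (u = 1 ∨ ∀ c, u c ≠ c)) →
      (v ∈ N ∧ (v = 1 ∨ ∀ c, v c ≠ c)) → ∀ a, u a = v a → u = v := by
    rintro u v ⟨huN, hu⟩ ⟨hvN, hv⟩ a huv
    rcases hu with rfl | hu
    · rcases hv with rfl | hv
      · rfl
      · exact absurd huv.symm (hv a)
    · rcases hv with rfl | hv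
      · exact absurd huv (hu a)
      · have hu1 : u ≠ 1 := fun h => hu a (by rw [h]; rfl)
        have hv1 : v ≠ 1 := fun h => hv a (by rw [h]; rfl)
        exact hC a u ((hF u).mpr ⟨huN, hu1, hu⟩) v ((hF v).mpr ⟨hvN, hv1, hv⟩) huv
  refine ⟨{ carrier := {x | x ∈ N ∧ (x = 1 ∨ ∀ c, x c ≠ c)}
            one_mem' := ⟨N.one_mem, Or.inl rfl⟩
            mul_mem' := ?_
            inv_mem' := ?_ }, fun x => Iff.rfl, ?_, ?_, ?_⟩
  · rintro x y hx hy
    have hy' : y⁻¹ ∈ N ∧ (y⁻¹ = 1 ∨ ∀ c, y⁻¹ c ≠ c) := by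
      refine ⟨N.inv_mem hy.1, ?_⟩
      rcases hy.2 with rfl | h
      · left; simp
      · right; intro c hc
        apply h c
        rw [Equiv.Perm.inv_eq_iff_eq] at hc
        exact hc.symm
    refine ⟨N.mul_mem hx.1 hy.1, ?_⟩
    by_cases h1 : x * y = 1
    · left; exact h1
    · right
      intro c hc
      apply h1
      have : x (y c) = y⁻¹ (y c) := by
        rw [inv_app]; exact hc
      have hxy := hinj x y⁻¹ hx hy' (y c) this
      rw [hxy]; simp
  · rintro x hx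
    refine ⟨N.inv_mem hx.1, ?_⟩
    rcases hx.2 with rfl | h
    · left; simp
    · right; intro c hc
      apply h c
      rw [Equiv.Perm.inv_eq_iff_eq] at hc
      exact hc.symm
  · rintro g hg x ⟨hxN, hx⟩
    refine ⟨hnorm g hg x hxN, ?_⟩
    rcases hx with rfl | h
    · left; group
    · right; intro c hc
      apply h (g⁻¹ c)
      have : g (x (g⁻¹ c)) = c := hc
      calc x (g⁻¹ c) = g⁻¹ (g (x (g⁻¹ c))) := (inv_app g _).symm
        _ = g⁻¹ c := by rw [this]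
  · intro a b
    by_cases hab : a = b
    · exact ⟨1, ⟨N.one_mem, Or.inl rfl⟩, by rw [hab]; rfl⟩
    · obtain ⟨x, hx, hxa⟩ := hB a b hab
      obtain ⟨hxN, hx1, hxf⟩ := (hF x).mp hx
      exact ⟨x, ⟨hxN, Or.inr hxf⟩, hxa⟩
  · intro k hk k' hk' a h
    exact hinj k k' hk hk' a h

/-- A finite nontrivial subgroup whose nonidentity elements all have the same order has prime
exponent and contains a nonidentity element commuting with all of it. -/
theorem same_order {Γ : Type*} [Group Γ] (T : Subgroup Γ) [Finite T] (hT : T ≠ ⊥)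
    (h : ∀ x ∈ T, ∀ y ∈ T, x ≠ 1 → y ≠ 1 → orderOf x = orderOf y) :
    ∃ p : ℕ, p.Prime ∧ (∀ x ∈ T, x ^ p = 1) ∧ ∃ z ∈ T, z ≠ 1 ∧ ∀ t ∈ T, z * t = t * z := by
  haveI : Nontrivial ↥T := (Subgroup.nontrivial_iff_ne_bot T).mpr hT
  have hcard : Nat.card ↥T ≠ 1 := (Finite.one_lt_card (α := ↥T)).ne'
  obtain ⟨p, hp, hpd⟩ := Nat.exists_prime_and_dvd hcard
  haveI : Fact p.Prime := ⟨hp⟩
  obtain ⟨z₀, hz₀⟩ := exists_prime_orderOf_dvd_card' (G := ↥T) p hpd
  have hz₀' : orderOf (z₀ : Γ) = p := by rw [Subgroup.orderOf_coe]; exact hz₀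
  have hz₀1 : (z₀ : Γ) ≠ 1 := by
    intro h1
    rw [h1, orderOf_one] at hz₀'
    exact hp.one_lt.ne hz₀'
  have hexp : ∀ x ∈ T, x ^ p = 1 := by
    intro x hx
    by_cases hx1 : x = 1
    · rw [hx1, one_pow]
    · rw [← hz₀', ← h x hx z₀ z₀.2 hx1 hz₀1]
      exact pow_orderOf_eq_one x
  have hpg : IsPGroup p ↥T := by
    intro g
    refine ⟨1, ?_⟩
    apply Subtype.ext
    rw [pow_one]
    exact hexp g g.2
  haveI := hpg.center_nontrivial
  obtain ⟨⟨z, hz⟩, hz1⟩ := exists_ne (1 : Subgroup.center ↥T)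
  refine ⟨p, hp, hexp, z, z.2, ?_, ?_⟩
  · intro h1
    apply hz1
    apply Subtype.ext
    apply Subtype.ext
    exact h1
  · intro t ht
    have := (Subgroup.mem_center_iff.mp hz) ⟨t, ht⟩
    exact (congrArg Subtype.val this).symm

end Cfsg.Agent.Lib.helper19.TwoTrans
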